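import Cfsg.Agent.Lib.Geometric.UnitaryStab
import Cfsg.Agent.Lib.ClassicalForms.Unitary.Simple

/-!
Three-dimensional skew-hermitian spaces: hyperbolic frames and the criterion that three
independent centres whose transvections lie in a group give every transvection.
-/

set_option autoImplicit false

namespace CfsgLib.Geometric.SUThree

open Matrix CfsgLib.Geometric.Unitary

variable {F : Type*} [Field F] {σ : F ≃+* F} {f : (Fin 3 → F) → (Fin 3 → F) → F}
  (hf : IsSkewForm σ f)
include hf

/-- A vector orthogonal to a hyperbolic pair and an anisotropic vector orthogonal to it is zero,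
and so the three vectors give coordinates. -/
lemma exists_frame {u w : Fin 3 → F} (hu : f u u = 0) (hw : f w w = 0) (hwu : f w u = 1) :
    ∃ a, f a u = 0 ∧ f a w = 0 ∧ f a a ≠ 0 ∧
      ∀ x, x = (-f x w) • u + f x u • w + (f x a / f a a) • a := by
  classical
  have huw : f u w = -1 := by rw [hf.skew, hwu, map_one]
  obtain ⟨a, -, ha0, ha⟩ := exists_ne_zero_map_eq_zero (k := 2) (⊤ : Submodule F (Fin 3 → F))
    (LinearMap.pi ![fl hf u, fl hf w]) (by simp [finrank_top])
  have hau : f a u = 0 := congrFun ha 0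
  have haw : f a w = 0 := congrFun ha 1
  have hua := (eq_zero_comm hf).mp hau
  have hwa := (eq_zero_comm hf).mp haw
  have hli : LinearIndependent F ![u, w, a] := by
    rw [Fintype.linearIndependent_iff]
    intro g hg
    simp only [Fin.sum_univ_three, Matrix.cons_val_zero, Matrix.cons_val_one,
      Matrix.cons_val_two, Matrix.tail_cons, Matrix.head_cons] at hg
    have h1 : g 1 = 0 := by
      have := congrArg (fun z => f z u) hg
      simpa [hf.add_left, hf.smul_left, hu, hwu, hau, zero_left hf] using this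
    have h0 : g 0 = 0 := by
      have := congrArg (fun z => f z w) hg
      simpa [hf.add_left, hf.smul_left, hw, huw, haw, zero_left hf] using this
    rw [h0, h1, zero_smul, zero_smul, zero_add, zero_add] at hg
    intro i
    fin_cases i
    · exact h0
    · exact h1
    · exact (smul_eq_zero.mp hg).resolve_right ha0
  have hsp : Submodule.span F (Set.range ![u, w, a]) = ⊤ :=
    hli.span_eq_top_of_card_eq_finrank (by simp)
  have hzero : ∀ r, f r u = 0 → f r w = 0 → f r a = 0 → r = 0 := by
    intro r h1 h2 h3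
    by_contra hr
    obtain ⟨⟨z, hz⟩, -⟩ := hf.nondegenerate r hr
    apply hz
    have hz' : z ∈ Submodule.span F (Set.range ![u, w, a]) := hsp ▸ Submodule.mem_top
    clear hz
    induction hz' using Submodule.span_induction with
    | mem y hy =>
      obtain ⟨i, rfl⟩ := hy
      fin_cases i
      · exact (eq_zero_comm hf).mp h1
      · exact (eq_zero_comm hf).mp h2
      · exact (eq_zero_comm hf).mp h3
    | zero => exact zero_left hf r
    | add y z _ _ e1 e2 => rw [hf.add_left, e1, e2, add_zero]
    | smul c y _ e1 => rw [hf.smul_left, e1, mul_zero]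
  have haa : f a a ≠ 0 := fun h => ha0 (hzero a hau haw h)
  refine ⟨a, hau, haw, haa, fun x => sub_eq_zero.mp (hzero _ ?_ ?_ ?_)⟩ <;>
    simp [sub_left hf, hf.add_left, hf.smul_left, neg_left hf, hu, hw, hwu, huw, hau, haw, hua, hwa, haa]

/-- Every non-zero isotropic vector is part of a hyperbolic pair. -/
lemma exists_partner {u : Fin 3 → F} (hu : f u u = 0) (hu0 : u ≠ 0) :
    ∃ w, f w w = 0 ∧ f w u = 1 := by
  obtain ⟨⟨p, hp⟩, -⟩ := hf.nondegenerate u hu0
  obtain ⟨l, hl⟩ := exists_isotropic_shift hf hu hp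
  refine ⟨(f p u)⁻¹ • (p + l • u), isotropic_smul hf hl _, ?_⟩
  rw [hf.smul_left, hf.add_left, hf.smul_left, hu, mul_zero, add_zero, inv_mul_cancel₀ hp]

/-- Orthogonal isotropic vectors are proportional. -/
lemma exists_smul_of_orth {u v : Fin 3 → F} (hu : f u u = 0) (hu0 : u ≠ 0) (hv : f v v = 0)
    (huv : f u v = 0) : ∃ c : F, v = c • u := by
  obtain ⟨w, hw, hwu⟩ := exists_partner hf hu hu0
  obtain ⟨a, hau, haw, haa, hx⟩ := exists_frame hf hu hw hwu
  refine ⟨-f v w, ?_⟩
  have hvu := (eq_zero_comm hf).mp huv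
  have h := hx v
  rw [hvu, zero_smul, add_zero] at h
  have h0 : f v v = (f v a / f a a) * σ (f v a / f a a) * f a a := by
    conv_lhs => rw [h]
    simp only [hf.add_left, add_right hf, hf.smul_left, smul_right hf, hu, hau,
      (eq_zero_comm hf).mp hau]
    ring
  rw [hv] at h0
  rcases mul_eq_zero.mp h0.symm with h1 | h1
  · rcases mul_eq_zero.mp h1 with h2 | h2
    · rwa [h2, zero_smul, add_zero] at h
    · rw [EmbeddingLike.map_eq_zero_iff] at h2
      rwa [h2, zero_smul, add_zero] at h
  · exact absurd h1 haa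

/-- Isotropic vectors that are not proportional are not orthogonal. -/
lemma ne_zero_of_not_mem {u v : Fin 3 → F} (hu : f u u = 0) (hu0 : u ≠ 0) (hv : f v v = 0)
    (h : ∀ c : F, v ≠ c • u) : f u v ≠ 0 := fun he =>
  (exists_smul_of_orth hf hu hu0 hv he).elim h

variable {M : Subgroup (GL (Fin 3) F)}

/-- The isotropic vectors of a plane with two centres are centres. -/
lemma inX_of_mem_span {u w : Fin 3 → F} (hu : InX hf M u) (hw : InX hf M w) (huw : f u w ≠ 0)
    {v : Fin 3 → F} (hv : v ∈ Submodule.span F ({u, w} : Set (Fin 3 → F))) (hvv : f v v = 0) :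
    InX hf M v := by
  obtain ⟨α, β, rfl⟩ := Submodule.mem_span_pair.mp hv
  by_cases hα : α = 0
  · rw [hα, zero_smul, zero_add]; exact inX_smul hf hw β
  have hsuw : σ (f u w) ≠ 0 := by rwa [ne_eq, EmbeddingLike.map_eq_zero_iff]
  simp only [hf.add_left, add_right hf, hf.smul_left, smul_right hf, hu.1, hw.1,
    hf.skew w u] at hvv
  set c := β / (α * f u w) with hcdef
  have hsα : σ α ≠ 0 := by rwa [ne_eq, EmbeddingLike.map_eq_zero_iff]
  have hc : σ c = c := by
    rw [hcdef, map_div₀, map_mul]
    field_simp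
    linear_combination hvv
  have hT := hw.2 hw.1 c hc
  have h1 := inX_ap hf hT (T_mem_isom hf hw.1 hc) hu
  have h2 := inX_smul hf h1 α
  rwa [ap_T hf, smul_add, smul_smul, show α * (c * f u w) = β by rw [hcdef]; field_simp] at h2

/-- A centre off a plane with two centres gives every transvection. -/
theorem hasT_of_three {u w v : Fin 3 → F} (hu : InX hf M u) (hw : InX hf M w) (hv : InX hf M v)
    (huw : f u w ≠ 0) (hnot : v ∉ Submodule.span F ({u, w} : Set (Fin 3 → F))) :
    HasT hf M := by
  have hwu0 : f w u ≠ 0 := fun h => huw ((eq_zero_comm hf).mp h)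
  obtain ⟨w', hw'def⟩ : ∃ w', w' = (f w u)⁻¹ • w := ⟨_, rfl⟩
  have hw' : InX hf M w' := hw'def ▸ inX_smul hf hw _
  have hwu : f w' u = 1 := by rw [hw'def, hf.smul_left, inv_mul_cancel₀ hwu0]
  have huw' : f u w' = -1 := by rw [hf.skew, hwu, map_one]
  obtain ⟨a, hau, haw, haa, hx⟩ := exists_frame hf hu.1 hw'.1 hwu
  have hua := (eq_zero_comm hf).mp hau
  have hwa := (eq_zero_comm hf).mp haw
  -- what the transvections of the plane reach
  let R : F × F → F × F → Prop := fun p p' => ∃ m ∈ M, m ∈ isom f ∧ ap m a = a ∧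
    ap m (p.1 • u + p.2 • w') = p'.1 • u + p'.2 • w'
  have Rrefl : ∀ p, R p p := fun p => ⟨1, one_mem _, one_mem _, ap_one a, ap_one _⟩
  have Rtrans : ∀ {p p' p''}, R p p' → R p' p'' → R p p'' := by
    rintro p p' p'' ⟨m, h1, h2, h3, h4⟩ ⟨n, k1, k2, k3, k4⟩
    exact ⟨n * m, mul_mem k1 h1, mul_mem k2 h2, by rw [ap_mul, h3, k3],
      by rw [ap_mul, h4, k4]⟩
  have Rsymm : ∀ {p p'}, R p p' → R p' p := by
    rintro p p' ⟨m, h1, h2, h3, h4⟩
    exact ⟨m⁻¹, inv_mem h1, inv_mem h2, by
      conv_lhs => rw [← h3]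
      rw [ap_inv_ap], by rw [← h4, ap_inv_ap]⟩
  have stepU : ∀ (α β c : F), σ c = c → R (α, β) (α + c * β, β) := by
    intro α β c hc
    refine ⟨_, hu.2 hu.1 c hc, T_mem_isom hf hu.1 hc, ap_T_fix hf hu.1 hau, ?_⟩
    rw [ap_T hf, hf.add_left, hf.smul_left, hf.smul_left, hu.1, hwu]
    module
  have stepW : ∀ (α β c : F), σ c = c → R (α, β) (α, β - c * α) := by
    intro α β c hc
    refine ⟨_, hw'.2 hw'.1 c hc, T_mem_isom hf hw'.1 hc, ap_T_fix hf hw'.1 haw, ?_⟩
    rw [ap_T hf, hf.add_left, hf.smul_left, hf.smul_left, hw'.1, huw']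
    module
  -- a canonical representative of each norm
  have canon : ∀ α β : F, β * σ α - α * σ β ≠ 0 →
      ∃ β', β' - σ β' = β * σ α - α * σ β ∧ R (α, β) (1, β') := by
    have main : ∀ α β : F, β * σ α - α * σ β ≠ 0 → σ α - α ≠ 0 →
        ∃ β', β' - σ β' = β * σ α - α * σ β ∧ R (α, β) (1, β') := by
      intro α β hn hy
      set n := β * σ α - α * σ β with hndef
      have hσn : σ n = -n := by
        rw [hndef, map_sub, map_mul, map_mul, hf.involutive, hf.involutive]; ring
      set y := (σ α - α) / n with hydef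
      set x := (β - σ β) / n with hxdef
      have hσy : σ y = y := by
        rw [hydef, map_div₀, map_sub, hf.involutive, hσn, div_neg, ← neg_div, neg_sub]
      have hσx : σ x = x := by
        rw [hxdef, map_div₀, map_sub, hf.involutive, hσn, div_neg, ← neg_div, neg_sub]
      have hone : x * α + y * β = 1 := by
        rw [hxdef, hydef]; field_simp; rw [hndef]; ring
      set c := (1 - x) / y with hcdef
      have hy0 : y ≠ 0 := div_ne_zero hy hn
      have hσc : σ c = c := by rw [hcdef, map_div₀, map_sub, map_one, hσx, hσy]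
      have h1 := Rtrans (stepW α β c hσc) (stepU α (β - c * α) y hσy)
      have e : α + y * (β - c * α) = 1 := by
        rw [hcdef]; field_simp; linear_combination hone
      rw [e] at h1
      refine ⟨β - c * α, ?_, h1⟩
      rw [map_sub, map_mul, hσc]
      have e2 : σ α + y * (σ β - c * σ α) = 1 := by
        have := congrArg σ e
        simpa [map_add, map_mul, map_sub, hσy, hσc] using this
      rw [hndef]
      linear_combination (-(β - c * α)) * e2 + (σ β - c * σ α) * e
    intro α β hn
    by_cases hy : σ α - α = 0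
    · obtain ⟨β', h1, h2⟩ := main (α + 1 * β) β (by
        intro h
        apply hn
        rw [map_add, map_mul, map_one] at h
        linear_combination h) (by
        intro h
        rw [map_add, map_mul, map_one] at h
        apply hn
        linear_combination (-α) * h + (β + α) * hy)
      refine ⟨β', ?_, Rtrans (stepU α β 1 (map_one σ)) h2⟩
      rw [h1, map_add, map_mul, map_one]
      ring
    · exact main α β hn hy
  -- coordinates of an isotropic vector off the plane
  have coord : ∀ x, f x x = 0 → f x a ≠ 0 →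
      ∃ α β : F, β * σ α - α * σ β = -f a a ∧
        (f x a / f a a)⁻¹ • x = α • u + β • w' + a := by
    intro x hxx hxa
    have hg : f x a / f a a ≠ 0 := div_ne_zero hxa haa
    obtain ⟨γ, hγ⟩ : ∃ γ, γ = f x a / f a a := ⟨_, rfl⟩
    have hxγ := hx x
    rw [← hγ] at hxγ hg ⊢
    refine ⟨γ⁻¹ * -f x w', γ⁻¹ * f x u, ?_, ?_⟩
    · have h0 : f (γ⁻¹ • x) (γ⁻¹ • x) = 0 := isotropic_smul hf hxx _
      conv_lhs at h0 => rw [hxγ, smul_add, smul_add, smul_smul, smul_smul, smul_smul,
        inv_mul_cancel₀ hg, one_smul]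
      simp only [hf.add_left, add_right hf, hf.smul_left, smul_right hf, hu.1, hw'.1, hwu,
        huw', hau, hua, haw, hwa] at h0
      linear_combination h0
    · conv_lhs => rw [hxγ]
      rw [smul_add, smul_add, smul_smul, smul_smul, smul_smul, inv_mul_cancel₀ hg, one_smul]
  have hva : f v a ≠ 0 := by
    intro h
    apply hnot
    rw [hx v, h, zero_div, zero_smul, add_zero, hw'def, smul_smul]
    exact Submodule.mem_span_pair.mpr ⟨_, _, rfl⟩
  intro x hxx c hc
  refine (?_ : InX hf M x).2 hxx c hc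
  by_cases hxa : f x a = 0
  · refine inX_of_mem_span hf hu hw' (by rw [huw']; simp) ?_ hxx
    rw [hx x, hxa, zero_div, zero_smul, add_zero]
    exact Submodule.mem_span_pair.mpr ⟨_, _, rfl⟩
  obtain ⟨αv, βv, hnv, hev⟩ := coord v hv.1 hva
  obtain ⟨αx, βx, hnx, hex⟩ := coord x hxx hxa
  obtain ⟨β₁, h11, h12⟩ := canon αv βv (by rw [hnv]; simpa using haa)
  obtain ⟨β₂, h21, h22⟩ := canon αx βx (by rw [hnx]; simpa using haa)
  have h3 : R (1, β₁) (1, β₂) := by
    have hc : σ (β₁ - β₂) = β₁ - β₂ := by
      rw [map_sub]; linear_combination -h11 + h21 - hnv + hnx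
    simpa using stepW 1 β₁ (β₁ - β₂) hc
  obtain ⟨m, hm, hmI, hma, hmp⟩ := Rtrans (Rtrans h12 h3) (Rsymm h22)
  have h4 := inX_ap hf hm hmI (inX_smul hf hv (f v a / f a a)⁻¹)
  rw [hev, ap_add, hma, hmp, ← hex] at h4
  have h5 := inX_smul hf h4 (f x a / f a a)
  rwa [smul_smul, mul_inv_cancel₀ (div_ne_zero hxa haa), one_smul] at h5

omit hf in
/-- With every transvection a group contains the determinant one isometries. -/
theorem le_of_hasT [Fintype F] {q : ℕ} (hF : Fintype.card F = q ^ 2) (hq : 3 ≤ q) {ζ : F}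
    (hζ : ζ ≠ 0) (hf : IsSkewForm σ (fun u v => ζ * Cfsg.hermForm 3 F q u v))
    (hM : HasT hf M) : sisom hf ≤ M :=
  CfsgLib.ClassicalForms.su_le_of_hasT hF le_rfl (by omega) hζ hf hM

end CfsgLib.Geometric.SUThree
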