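import Cfsg.Agent.Lib.Geometric.SUThree.Stab
import Cfsg.Agent.Lib.SmallDim.UnitaryCases

/-!
The normaliser of an extraspecial group of order 27 in `SU₃(p)`, `p ≡ 2 (mod 3)`: its determinant
one part is unitary, and an overgroup with a transvection is everything.
-/

set_option autoImplicit false

namespace CfsgLib.Geometric.SUThree

open Matrix CfsgLib.Geometric.Unitary
open scoped commutatorElement

variable {F : Type*} [Field F]

/-- The standard form through matrices. -/
lemma hermForm_ap {q : ℕ} {σ : F ≃+* F} (hσ : ∀ x, σ x = x ^ q) (A : Matrix (Fin 3) (Fin 3) F)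
    (u v : Fin 3 → F) : Cfsg.hermForm 3 F q (A *ᵥ u) (A *ᵥ v) =
      u ⬝ᵥ ((Aᵀ * A.map (σ : F →+* F)) *ᵥ (fun i => σ (v i))) := by
  simp only [Cfsg.hermForm, ← hσ, dotProduct, Matrix.mulVec, Matrix.mul_apply, Fin.sum_univ_three,
    Matrix.transpose_apply, Matrix.map_apply, map_add, map_mul, RingHom.coe_coe]
  ring

lemma ext_of_form {σ : F ≃+* F} {A B : Matrix (Fin 3) (Fin 3) F}
    (h : ∀ u v : Fin 3 → F, u ⬝ᵥ (A *ᵥ (fun i => σ (v i))) = u ⬝ᵥ (B *ᵥ (fun i => σ (v i)))) :
    A = B := by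
  ext i j
  have := h (Pi.single i 1) (Pi.single j 1)
  have e : (fun k => σ ((Pi.single j (1 : F) : Fin 3 → F) k)) = Pi.single j 1 := by
    funext k
    by_cases hk : k = j
    · subst hk; simp
    · simp [hk]
  rw [e] at this
  simpa using this

/-- The scalar matrix among the Gram matrices. -/
lemma smul_one_form {σ : F ≃+* F} {q : ℕ} (hσ : ∀ x, σ x = x ^ q) (c : F) (u v : Fin 3 → F) :
    u ⬝ᵥ ((c • (1 : Matrix (Fin 3) (Fin 3) F)) *ᵥ (fun i => σ (v i))) =
      c * Cfsg.hermForm 3 F q u v := by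
  simp [Cfsg.hermForm, ← hσ, dotProduct, Matrix.smul_mulVec, Fin.sum_univ_three]
  ring

/-- The determinant from the traces of the powers, in dimension three. -/
lemma six_det (A : Matrix (Fin 3) (Fin 3) F) : 6 * A.det =
    A.trace ^ 3 - 3 * A.trace * (A * A).trace + 2 * (A * A * A).trace := by
  simp only [Matrix.det_fin_three, Matrix.trace_fin_three, Matrix.mul_apply, Fin.sum_univ_three]
  ring

variable [Fintype F] {p : ℕ} {R : Subgroup (GL (Fin 3) F)}
  (hp : p.Prime) (hF : Fintype.card F = p ^ 2) (hp3 : p % 3 = 2) (hp11 : 11 ≤ p)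
  (hS : Cfsg.Geo.IsSymplecticTypeGroup 3 R)
  (hA : Cfsg.Geo.ActsAbsolutelyIrreducibly (Cfsg.Geo.matrixSet R))
  (hsim : R ≤ Cfsg.Geo.similarityGroup (Cfsg.hermForm 3 F p))
  (hc : Nat.card R = 27) (hcZ : Nat.card (Subgroup.center R) = 3)

include hS in
lemma exp_three {x : GL (Fin 3) F} (hx : x ∈ R) : x ^ 3 = 1 := by
  have h := Monoid.pow_exponent_eq_one (⟨x, hx⟩ : R)
  rw [hS.exponent_eq] at h
  exact congrArg Subtype.val h

include hA in
lemma scalar_of_commute {z : GL (Fin 3) F} (hz : ∀ r ∈ R, r * z = z * r) :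
    ∃ c : F, (z : Matrix (Fin 3) (Fin 3) F) = c • 1 :=
  hA.2 _ (by rintro _ ⟨a, ha, rfl⟩; exact (congrArg Units.val (hz a ha)).symm)

include hS hA hc hcZ in
/-- Conjugation multiplies by scalars. -/
lemma conj_scalar {r y : GL (Fin 3) F} (hr : r ∈ R) (hy : y ∈ R) :
    ∃ c : F, c ^ 3 = 1 ∧ ((y * r * y⁻¹ : GL (Fin 3) F) : Matrix (Fin 3) (Fin 3) F) =
      c • (r : Matrix (Fin 3) (Fin 3) F) := by
  haveI : Fact (Nat.Prime 3) := ⟨Nat.prime_three⟩
  have hq : Nat.card (R ⧸ Subgroup.center R) = 3 ^ 2 := by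
    have h := Subgroup.card_eq_card_quotient_mul_card_subgroup (Subgroup.center R)
    rw [hc, hcZ] at h
    omega
  have hcomm := IsPGroup.commutative_of_card_eq_prime_sq hq
  have hz : ⁅(⟨y, hy⟩ : R), (⟨r, hr⟩ : R)⁆ ∈ Subgroup.center R := by
    rw [← QuotientGroup.eq_one_iff, ← QuotientGroup.mk'_apply, map_commutatorElement,
      commutatorElement_eq_one_iff_mul_comm]
    exact hcomm _ _
  have hz' : ∀ a ∈ R, a * (y * r * y⁻¹ * r⁻¹) = y * r * y⁻¹ * r⁻¹ * a := fun a ha =>
    congrArg Subtype.val (Subgroup.mem_center_iff.mp hz ⟨a, ha⟩)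
  obtain ⟨c, hcs⟩ := scalar_of_commute hA hz'
  refine ⟨c, ?_, ?_⟩
  · have h3 := congrArg (fun g : GL (Fin 3) F => (g : Matrix (Fin 3) (Fin 3) F) 0 0)
      (exp_three hS (mul_mem (mul_mem (mul_mem hy hr) (inv_mem hy)) (inv_mem hr)))
    simp only [Units.val_pow_eq_pow_val, hcs, _root_.smul_pow, one_pow, Units.val_one] at h3
    simpa using h3
  · have : y * r * y⁻¹ = (y * r * y⁻¹ * r⁻¹) * r := by group
    rw [this, Units.val_mul, hcs, Matrix.smul_mul, Matrix.one_mul]

include hp hp11 hF in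
lemma two_three_ne : (2 : F) ≠ 0 ∧ (3 : F) ≠ 0 ∧ (5 : F) ≠ 0 := by
  haveI := Fact.mk hp
  haveI : CharP F p := by
    obtain ⟨c, hchar⟩ := CharP.exists F
    obtain ⟨e, hcp, he⟩ := FiniteField.card F c
    rw [hF] at he
    obtain rfl : p = c := (Nat.prime_dvd_prime_iff_eq hp hcp).mp
      (hp.dvd_of_dvd_pow (he ▸ dvd_pow_self p two_ne_zero))
    exact hchar
  have key : ∀ n : ℕ, 0 < n → n < p → ((n : ℕ) : F) ≠ 0 := fun n h0 h1 e =>
    absurd (Nat.le_of_dvd h0 ((CharP.cast_eq_zero_iff F p n).mp e)) (by omega)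
  exact ⟨by exact_mod_cast key 2 (by norm_num) (by omega),
    by exact_mod_cast key 3 (by norm_num) (by omega),
    by exact_mod_cast key 5 (by norm_num) (by omega)⟩

include hp hp11 hF hS hA hc hcZ in
/-- The group has determinant one. -/
lemma det_eq_one {r : GL (Fin 3) F} (hr : r ∈ R) : (r : Matrix (Fin 3) (Fin 3) F).det = 1 := by
  obtain ⟨h2, h3, -⟩ := two_three_ne hp hF hp11
  by_cases hz : ∀ y ∈ R, y * r = r * y
  · obtain ⟨c, hcs⟩ := scalar_of_commute hA hz
    have e : c ^ 3 = 1 := by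
      have h := congrArg (fun g : GL (Fin 3) F => (g : Matrix (Fin 3) (Fin 3) F) 0 0)
        (exp_three hS hr)
      simp only [Units.val_pow_eq_pow_val, hcs, _root_.smul_pow, one_pow, Units.val_one] at h
      simpa using h
    rw [hcs, Matrix.det_smul, Matrix.det_one, mul_one, Fintype.card_fin, e]
  push Not at hz
  obtain ⟨y, hy, hne⟩ := hz
  obtain ⟨c, hc3, hcs⟩ := conj_scalar hS hA hc hcZ hr hy
  have hc1 : c ≠ 1 := by
    intro h
    apply hne
    rw [← mul_inv_eq_iff_eq_mul]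
    exact Units.ext (by rw [hcs, h, one_smul])
  set A : Matrix (Fin 3) (Fin 3) F := (r : Matrix (Fin 3) (Fin 3) F) with hAdef
  have tr0 : ∀ (B : Matrix (Fin 3) (Fin 3) F) (e : F), e ≠ 1 →
      (y : Matrix (Fin 3) (Fin 3) F) * B * ((y⁻¹ : GL (Fin 3) F) : Matrix (Fin 3) (Fin 3) F) =
        e • B → B.trace = 0 := by
    intro B e he hB
    have h1 : e * B.trace = B.trace := by
      rw [← smul_eq_mul, ← Matrix.trace_smul, ← hB, Matrix.trace_mul_cycle, ← Units.val_mul,
        inv_mul_cancel, Units.val_one, Matrix.one_mul]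
    by_contra h0
    exact he (mul_right_cancel₀ h0 (by rw [h1, one_mul]))
  have t1 : A.trace = 0 := tr0 A c hc1 (by rw [← hcs, Units.val_mul, Units.val_mul])
  have t2 : (A * A).trace = 0 := by
    refine tr0 (A * A) (c * c) (fun e => hc1 ?_) ?_
    · linear_combination hc3 - c * e
    · have h2' : ((y * (r * r) * y⁻¹ : GL (Fin 3) F) : Matrix (Fin 3) (Fin 3) F) =
          (c * c) • (A * A) := by
        have : y * (r * r) * y⁻¹ = (y * r * y⁻¹) * (y * r * y⁻¹) := by group
        rw [this, Units.val_mul, hcs, Matrix.smul_mul, Matrix.mul_smul, smul_smul]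
      simpa [Units.val_mul] using h2'
  have t3 : A * A * A = 1 := by
    rw [hAdef, ← Units.val_mul, ← Units.val_mul, ← Units.val_one]
    exact congrArg Units.val ((pow_three' r).symm.trans (exp_three hS hr))
  have h6 := six_det A
  rw [t1, t2, t3, Matrix.trace_one, Fintype.card_fin] at h6
  apply mul_left_cancel₀ (mul_ne_zero h2 h3)
  push_cast at h6
  linear_combination h6

include hp hF hp3 hsim hS in
/-- The group consists of isometries. -/
lemma le_gu : R ≤ Cfsg.GU 3 F p := by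
  intro r hr u v
  obtain ⟨σ, hσ, hh⟩ := CfsgLib.Geometric.isUnitaryForm_hermForm (F := F) 3 p hF
  obtain ⟨ν, hν⟩ := hsim hr
  have hν3 : (ν : F) ^ 3 = 1 := by
    have h1 := hν (Pi.single 0 1) (Pi.single 0 1)
    have e0 : Cfsg.hermForm 3 F p (Pi.single 0 1) (Pi.single 0 1) = 1 := by
      simp [Cfsg.hermForm, Fin.sum_univ_three, zero_pow hp.ne_zero]
    have e3 : ((r : Matrix (Fin 3) (Fin 3) F)) * ((r : Matrix (Fin 3) (Fin 3) F) *
        (r : Matrix (Fin 3) (Fin 3) F)) = 1 := by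
      rw [← Units.val_mul, ← Units.val_mul, ← Units.val_one]
      exact congrArg Units.val ((_root_.pow_three r).symm.trans (exp_three hS hr))
    have e := congrArg (fun A => Cfsg.hermForm 3 F p (A *ᵥ Pi.single 0 1) (A *ᵥ Pi.single 0 1)) e3
    simp only [← Matrix.mulVec_mulVec, Matrix.one_mulVec, hν, e0, mul_one] at e
    linear_combination e
  have hνσ : (ν : F) ^ p = ν := by
    rw [← hσ]
    have h1 := hν (Pi.single 0 1) (Pi.single 0 1)
    have e0 : Cfsg.hermForm 3 F p (Pi.single 0 1) (Pi.single 0 1) = 1 := by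
      simp [Cfsg.hermForm, Fin.sum_univ_three, zero_pow hp.ne_zero]
    rw [e0, mul_one] at h1
    rw [← h1]
    exact (hh.herm _ _).symm
  have h1 : (ν : F) = 1 := by
    have e := hνσ
    rw [show p = 3 * (p / 3) + 2 by omega, pow_add, pow_mul, hν3, one_pow, one_mul] at e
    apply mul_left_cancel₀ ν.ne_zero
    linear_combination e
  exact (hν u v).trans (by rw [h1, one_mul])

include hp hF hp3 hp11 hS hA hsim hc in
/-- Determinant one elements of the normaliser are isometries. -/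
lemma normalizer_inf_le : Cfsg.Geo.subgroupNormalizer R ⊓ Cfsg.Geo.specialLinear (Fin 3) F ≤
    Cfsg.GU 3 F p := by
  rintro g ⟨hgN, hg1⟩ u v
  obtain ⟨σ, hσ, hh⟩ := CfsgLib.Geometric.isUnitaryForm_hermForm (F := F) 3 p hF
  set G : Matrix (Fin 3) (Fin 3) F := (g : Matrix (Fin 3) (Fin 3) F) with hGdef
  set N := Gᵀ * G.map (σ : F →+* F) with hN
  have hR := le_gu hp hF hp3 hS hsim
  have hinv : ∀ s ∈ Cfsg.Geo.matrixSet R, sᵀ * 1 * s.map (σ : F →+* F) = 1 := by
    rintro _ ⟨a, ha, rfl⟩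
    rw [Matrix.mul_one]
    refine ext_of_form (σ := σ) fun u v => ?_
    rw [← hermForm_ap hσ, ← one_smul F (1 : Matrix (Fin 3) (Fin 3) F), smul_one_form hσ, one_mul]
    exact hR ha u v
  have hinv' : ∀ s ∈ Cfsg.Geo.matrixSet R, sᵀ * N * s.map (σ : F →+* F) = N := by
    rintro _ ⟨a, ha, rfl⟩
    have e : (a : Matrix (Fin 3) (Fin 3) F)ᵀ * N * (a : Matrix (Fin 3) (Fin 3) F).map (σ : F →+* F)
        = (G * (a : Matrix (Fin 3) (Fin 3) F))ᵀ *
          (G * (a : Matrix (Fin 3) (Fin 3) F)).map (σ : F →+* F) := by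
      rw [hN, Matrix.transpose_mul, Matrix.map_mul]
      simp only [Matrix.mul_assoc]
    rw [e, hN]
    refine ext_of_form (σ := σ) fun u v => ?_
    rw [← hermForm_ap hσ, ← hermForm_ap hσ, ← Matrix.mulVec_mulVec, ← Matrix.mulVec_mulVec]
    have h1 := hR ((Subgroup.mem_normalizer_iff.mp hgN a).mp ha) (G *ᵥ u) (G *ᵥ v)
    have h2 : ∀ x : Fin 3 → F, ((g * a * g⁻¹ : GL (Fin 3) F) : Matrix (Fin 3) (Fin 3) F) *ᵥ (G *ᵥ x)
        = G *ᵥ ((a : Matrix (Fin 3) (Fin 3) F) *ᵥ x) := fun x => by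
      rw [hGdef, Matrix.mulVec_mulVec, ← Units.val_mul, inv_mul_cancel_right, Units.val_mul,
        Matrix.mulVec_mulVec]
    rw [← h2, ← h2]
    exact h1
  obtain ⟨c, hc'⟩ := CfsgLib.SmallDim.gram_unique (σ := (σ : F →+* F)) hA
    (G := 1) (G' := N) (by simp) hinv hinv'
  have hdet : G.det = 1 := (mem_specialLinear_iff g).mp hg1
  have hc3 : c ^ 3 = 1 := by
    have := congrArg Matrix.det hc'
    rw [hN, Matrix.det_mul, Matrix.det_transpose, ← RingHom.mapMatrix_apply, ← RingHom.map_det,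
      hdet, map_one, mul_one, Matrix.det_smul, Matrix.det_one, mul_one, Fintype.card_fin] at this
    exact this.symm
  have hform : ∀ u v, Cfsg.hermForm 3 F p (G *ᵥ u) (G *ᵥ v) = c * Cfsg.hermForm 3 F p u v :=
    fun u v => by rw [hermForm_ap hσ, ← hN, hc', smul_one_form hσ]
  have hcσ : c ^ p = c := by
    rw [← hσ]
    have h1 := hform (Pi.single 0 1) (Pi.single 0 1)
    have e0 : Cfsg.hermForm 3 F p (Pi.single 0 1) (Pi.single 0 1) = 1 := by
      simp [Cfsg.hermForm, Fin.sum_univ_three, zero_pow hp.ne_zero]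
    rw [e0, mul_one] at h1
    rw [← h1]
    exact (hh.herm _ _).symm
  have h1 : c = 1 := by
    have e := hcσ
    rw [show p = 3 * (p / 3) + 2 by omega, pow_add, pow_mul, hc3, one_pow, one_mul] at e
    have hc0 : c ≠ 0 := fun h => by simp [h] at hc3
    apply mul_left_cancel₀ hc0
    linear_combination e
  exact (hform u v).trans (by rw [h1, one_mul])

variable {σ : F ≃+* F} {f : (Fin 3 → F) → (Fin 3 → F) → F} (hf : IsSkewForm σ f)

omit [Fintype F] in
include hf in
/-- An isometric transvection is unitary. -/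
lemma exists_T_of_tv {v : Fin 3 → F} {φ : (Fin 3 → F) →ₗ[F] F} (h : φ v = 0)
    (hI : tv v φ h ∈ isom f) (hne : tv v φ h ≠ 1) :
    ∃ (hv : f v v = 0) (c : F), σ c = c ∧ c ≠ 0 ∧ v ≠ 0 ∧ tv v φ h = T hf v c hv := by
  have hv0 : v ≠ 0 := fun h0 => hne (gl_ext fun x => by simp [h0])
  have hrel : ∀ x y, φ x * f v y + σ (φ y) * f x v + φ x * σ (φ y) * f v v = 0 := by
    intro x y
    have h1 := (mem_isom_iff.mp hI) x y
    rw [ap_tv, ap_tv] at h1
    simp only [hf.add_left, add_right hf, hf.smul_left, smul_right hf] at h1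
    linear_combination h1
  obtain ⟨y₀, hy₀⟩ : ∃ y, φ y ≠ 0 := by
    by_contra hc
    push Not at hc
    exact hne (gl_ext fun x => by simp [hc])
  obtain ⟨⟨z, hz⟩, -⟩ := hf.nondegenerate v hv0
  have hker : ∀ x, φ x = 0 → f x v = 0 := fun x hx => by
    have := hrel x y₀
    rw [hx] at this
    have e : σ (φ y₀) * f x v = 0 := by linear_combination this
    exact (mul_eq_zero.mp e).resolve_left fun h0 => hy₀ (EmbeddingLike.map_eq_zero_iff.mp h0)
  have hv : f v v = 0 := hker v h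
  have hy₁ : f y₀ v ≠ 0 := fun h0 => hz (by
    have := hker (z - (φ z / φ y₀) • y₀) (by simp [div_mul_cancel₀ _ hy₀])
    rwa [sub_left hf, hf.smul_left, h0, mul_zero, sub_zero] at this)
  set c := φ y₀ / f y₀ v with hcdef
  have hc0 : c ≠ 0 := div_ne_zero hy₀ hy₁
  have hφ : ∀ x, φ x = c * f x v := fun x => by
    have := hker (x - (φ x / φ y₀) • y₀) (by simp [div_mul_cancel₀ _ hy₀])
    rw [sub_left hf, hf.smul_left, sub_eq_zero] at this
    rw [this, hcdef]
    field_simp
  have hcσ : σ c = c := by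
    have h1 := hrel y₀ y₀
    rw [hφ, hv, mul_zero, add_zero, map_mul, hf.skew v y₀] at h1
    have h2 : f y₀ v * σ (f y₀ v) * (σ c - c) = 0 := by linear_combination h1
    refine sub_eq_zero.mp ((mul_eq_zero.mp h2).resolve_left (mul_ne_zero hy₁ ?_))
    rwa [ne_eq, EmbeddingLike.map_eq_zero_iff]
  exact ⟨hv, c, hcσ, hc0, hv0, gl_ext fun x => by rw [ap_tv, ap_T hf, hφ]⟩

include hp hF hp3 hp11 hS hA hc hf in
/-- The determinant one isometries do not all normalise the group. -/
lemma exists_not_mem_normalizer :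
    ∃ g ∈ sisom hf, g ∉ Cfsg.Geo.subgroupNormalizer R := by
  classical
  haveI := Fact.mk hp
  haveI : CharP F p := by
    obtain ⟨c, hchar⟩ := CharP.exists F
    obtain ⟨e, hcp, he⟩ := FiniteField.card F c
    rw [hF] at he
    obtain rfl : p = c := (Nat.prime_dvd_prime_iff_eq hp hcp).mp
      (hp.dvd_of_dvd_pow (he ▸ dvd_pow_self p two_ne_zero))
    exact hchar
  obtain ⟨u, hu0, hu⟩ := CfsgLib.ClassicalForms.exists_isotropic_ne_zero hf (by simp)
  refine ⟨T hf u 1 hu, T_mem hf hu (map_one σ), fun hN => ?_⟩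
  set t := T hf u 1 hu with ht
  -- the powers of the transvection act on the group
  have hpow : ∀ k : ℕ, ∀ x, ap (t ^ k) x = x + ((k : F) * f x u) • u := by
    intro k
    induction k with
    | zero => intro x; simp
    | succ k ih =>
      intro x
      rw [pow_succ', ap_mul, ih, ht, ap_T hf, hf.add_left, hf.smul_left, hu]
      push_cast
      module
  have htp : t ^ p = 1 := gl_ext fun x => by rw [hpow, CharP.cast_eq_zero, zero_mul, zero_smul,
    add_zero, ap_one]
  let S := Subgroup.zpowers t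
  have hS' : S ≤ Cfsg.Geo.subgroupNormalizer R := by
    rw [Subgroup.zpowers_le]; exact hN
  letI : MulAction S R :=
    { smul := fun s r => ⟨(s : GL (Fin 3) F) * r * (s : GL (Fin 3) F)⁻¹,
        (Subgroup.mem_normalizer_iff.mp (hS' s.2) r).mp r.2⟩
      one_smul := fun r => Subtype.ext (by
        show ((1 : S) : GL (Fin 3) F) * r * ((1 : S) : GL (Fin 3) F)⁻¹ = r
        simp)
      mul_smul := fun a b r => Subtype.ext (by
        show ((a * b : S) : GL (Fin 3) F) * r * ((a * b : S) : GL (Fin 3) F)⁻¹ =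
          (a : GL (Fin 3) F) * ((b : GL (Fin 3) F) * r * (b : GL (Fin 3) F)⁻¹) *
            (a : GL (Fin 3) F)⁻¹
        simp [mul_assoc]) }
  have hSp : IsPGroup p S := fun x => ⟨1, Subtype.ext (by
    obtain ⟨k, hk⟩ := x.2
    show ((x : S) : GL (Fin 3) F) ^ p ^ 1 = 1
    rw [← hk, pow_one, ← zpow_natCast, ← _root_.zpow_mul, mul_comm, _root_.zpow_mul, zpow_natCast, htp,
      _root_.one_zpow])⟩
  haveI : Finite R := Subtype.finite
  have hmod := hSp.card_modEq_card_fixedPoints R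
  let Fx : Subgroup R :=
    { carrier := MulAction.fixedPoints S R
      mul_mem' := fun {a b} ha hb s => Subtype.ext (by
        have e1 : (s : GL (Fin 3) F) * a * (s : GL (Fin 3) F)⁻¹ = a := congrArg Subtype.val (ha s)
        have e2 : (s : GL (Fin 3) F) * b * (s : GL (Fin 3) F)⁻¹ = b := congrArg Subtype.val (hb s)
        show (s : GL (Fin 3) F) * ((a : GL (Fin 3) F) * b) * (s : GL (Fin 3) F)⁻¹ =
          (a : GL (Fin 3) F) * b
        calc (s : GL (Fin 3) F) * ((a : GL (Fin 3) F) * b) * (s : GL (Fin 3) F)⁻¹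
            = ((s : GL (Fin 3) F) * a * (s : GL (Fin 3) F)⁻¹) *
              ((s : GL (Fin 3) F) * b * (s : GL (Fin 3) F)⁻¹) := by group
          _ = _ := by rw [e1, e2])
      one_mem' := fun s => Subtype.ext (by
        show (s : GL (Fin 3) F) * ((1 : R) : GL (Fin 3) F) * (s : GL (Fin 3) F)⁻¹ = 1
        simp)
      inv_mem' := fun {a} ha s => Subtype.ext (by
        have e1 : (s : GL (Fin 3) F) * a * (s : GL (Fin 3) F)⁻¹ = a := congrArg Subtype.val (ha s)
        show (s : GL (Fin 3) F) * (a : GL (Fin 3) F)⁻¹ * (s : GL (Fin 3) F)⁻¹ =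
          (a : GL (Fin 3) F)⁻¹
        conv_rhs => rw [← e1]
        group) }
  have hdvd : Nat.card Fx ∣ 3 ^ 3 := by
    have := Subgroup.card_subgroup_dvd_card Fx
    rwa [hc] at this
  obtain ⟨i, hi, hi'⟩ := (Nat.dvd_prime_pow Nat.prime_three).mp hdvd
  have hfix : Nat.card Fx = 27 := by
    have hle : Nat.card Fx ≤ 27 := Nat.le_of_dvd (by norm_num) (by simpa using hdvd)
    have hd : p ∣ 27 - Nat.card Fx := by
      rw [hc] at hmod
      exact (Nat.modEq_iff_dvd' hle).mp hmod.symm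
    by_contra hne
    rw [hi'] at hd hne
    interval_cases i <;> norm_num at hd hne
    all_goals
      have := Nat.le_of_dvd (by norm_num) hd
      interval_cases p <;> first | omega | (norm_num at hp)
  have hall : ∀ r ∈ R, r * t = t * r := by
    intro r hr
    have : Fx = ⊤ := Subgroup.eq_top_of_card_eq Fx (by rw [hfix, hc])
    have hm : (⟨r, hr⟩ : R) ∈ Fx := this ▸ Subgroup.mem_top _
    have e : t * r * t⁻¹ = r := congrArg Subtype.val (hm ⟨t, Subgroup.mem_zpowers t⟩)
    conv_lhs => rw [← e]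
    group
  obtain ⟨c, hcs⟩ := scalar_of_commute hA hall
  -- a transvection is no scalar
  obtain ⟨⟨z, hz⟩, -⟩ := hf.nondegenerate u hu0
  have e1 : ap t u = c • u := by rw [ap_def, hcs, Matrix.smul_mulVec, Matrix.one_mulVec]
  have e2 : ap t z = c • z := by rw [ap_def, hcs, Matrix.smul_mulVec, Matrix.one_mulVec]
  rw [ht, ap_T hf, hu] at e1
  rw [ht, ap_T hf] at e2
  have hc1 : c = 1 := by
    have h : (1 - c) • u = 0 := by rw [sub_smul, one_smul, ← e1]; simp
    exact (sub_eq_zero.mp ((smul_eq_zero.mp h).resolve_right hu0)).symm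
  rw [hc1, one_smul, add_eq_left, one_mul] at e2
  exact hz ((smul_eq_zero.mp e2).resolve_right hu0)

omit hf in
include hp hF hp3 hp11 hS hA hsim hc hcZ in
/-- The normaliser is maximal, given that it is so in the special linear group away from
transvections. -/
theorem c6_isMaximalIn
    (hlin : ∀ H : Subgroup (GL (Fin 3) F), H ≤ Cfsg.Geo.specialLinear (Fin 3) F →
      Cfsg.Geo.subgroupNormalizer R ⊓ Cfsg.Geo.specialLinear (Fin 3) F ≤ H →
      (∀ (v : Fin 3 → F) (φ : (Fin 3 → F) →ₗ[F] F) (h : φ v = 0),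
        tv v φ h ∈ H → tv v φ h = 1) →
      H ≤ Cfsg.Geo.subgroupNormalizer R) :
    Cfsg.Geo.IsMaximalIn (Cfsg.GU 3 F p ⊓ Cfsg.Geo.specialLinear (Fin 3) F)
      (Cfsg.Geo.subgroupNormalizer R ⊓ (Cfsg.GU 3 F p ⊓ Cfsg.Geo.specialLinear (Fin 3) F)) := by
  classical
  obtain ⟨σ, ζ, hζ, hf, hσ, hG⟩ := exists_setup (F := F) hF
  have hR : R ≤ Cfsg.GU 3 F p ⊓ Cfsg.Geo.specialLinear (Fin 3) F := fun r hr =>
    ⟨le_gu hp hF hp3 hS hsim hr,
      (mem_specialLinear_iff r).mpr (det_eq_one hp hF hp11 hS hA hc hcZ hr)⟩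
  refine ⟨lt_of_le_of_ne inf_le_right fun he => ?_, fun M hHM hMK => ?_⟩
  · obtain ⟨g, hg, hgN⟩ := exists_not_mem_normalizer (σ := σ) hp hF hp3 hp11 hS hA hc hf
    rw [← hG] at hg
    exact hgN ((he.symm ▸ hg : g ∈ Cfsg.Geo.subgroupNormalizer R ⊓ _).1)
  by_cases hT : ∀ (v : Fin 3 → F) (φ : (Fin 3 → F) →ₗ[F] F) (h : φ v = 0),
      tv v φ h ∈ M → tv v φ h = 1
  · left
    refine le_antisymm (le_inf (hlin M (hMK.trans inf_le_right) (fun g hg => hHM ⟨hg.1, ?_, hg.2⟩)
      hT) hMK) hHM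
    exact normalizer_inf_le hp hF hp3 hp11 hS hA hsim hc hg
  push Not at hT
  obtain ⟨v, φ, hφ, hm, hne⟩ := hT
  right
  refine le_antisymm hMK ?_
  rw [hG] at hMK ⊢
  obtain ⟨hvv, c, hcσ, hc0, hv0, hT⟩ := exists_T_of_tv hf hφ (hMK hm).1 hne
  rw [hT] at hm
  -- the whole root group, over the prime field
  have hXv : InX hf M v := by
    refine ⟨hvv, fun h d hd => ?_⟩
    haveI := Fact.mk hp
    haveI : CharP F p := by
      obtain ⟨c, hchar⟩ := CharP.exists F
      obtain ⟨e, hcp, he⟩ := FiniteField.card F c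
      rw [hF] at he
      obtain rfl : p = c := (Nat.prime_dvd_prime_iff_eq hp hcp).mp
        (hp.dvd_of_dvd_pow (he ▸ dvd_pow_self p two_ne_zero))
      exact hchar
    have hfix : ∀ x : F, σ x = x → ∃ k : ℕ, (k : F) = x := by
      intro x hx
      rw [hσ] at hx
      have hmem : x ∈ (⊥ : Subfield F) := (Subfield.mem_bot_iff_pow_eq_self F p).mpr hx
      rw [← ZMod.fieldRange_castHom_eq_bot (K := F) p] at hmem
      obtain ⟨z, rfl⟩ := hmem
      exact ⟨z.val, by rw [ZMod.castHom_apply, ← ZMod.natCast_val]⟩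
    obtain ⟨k, hk⟩ := hfix (d / c) (by rw [map_div₀, hd, hcσ])
    have e : T hf v d h = T hf v c hvv ^ k := by
      have hpow : ∀ j : ℕ, ∀ x, ap (T hf v c hvv ^ j) x =
          x + ((j : F) * c * (ζ * Cfsg.hermForm 3 F p x v)) • v := by
        intro j
        induction j with
        | zero => intro x; simp
        | succ j ih =>
          intro x
          rw [pow_succ', ap_mul, ih, ap_T hf, hf.add_left, hf.smul_left, hvv]
          push_cast
          module
      exact gl_ext fun x => by rw [hpow, hk, div_mul_cancel₀ _ hc0, ap_T hf]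
    rw [e]
    exact pow_mem hm k
  refine le_of_hasT hF (by omega) hζ hf ?_
  have hRM : ∀ r ∈ R, InX hf M (ap r v) := fun r hr => by
    have hrH : r ∈ M := hHM ⟨Subgroup.le_normalizer hr, hR hr⟩
    exact inX_ap hf hrH (hMK hrH).1 hXv
  have hirr : ∀ U : Submodule F (Fin 3 → F), (∀ r ∈ R, ∀ x ∈ U, ap r x ∈ U) → U = ⊥ ∨ U = ⊤ :=
    fun U hU => hA.1 U (by
      rintro _ ⟨r, hr, rfl⟩
      rintro _ ⟨x, hx, rfl⟩
      simpa [ap_def] using hU r hr x hx)
  have hspan : Submodule.span F (Set.range fun r : R => ap (r : GL (Fin 3) F) v) = ⊤ := by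
    refine (hirr _ fun r hr x hx => ?_).resolve_left fun h => hv0 ?_
    · induction hx using Submodule.span_induction with
      | mem y hy =>
        obtain ⟨s, rfl⟩ := hy
        exact Submodule.subset_span ⟨⟨r * s, mul_mem hr s.2⟩, by simp [ap_mul]⟩
      | zero => rw [ap_zero]; exact Submodule.zero_mem _
      | add y z _ _ h1 h2 => rw [ap_add]; exact Submodule.add_mem _ h1 h2
      | smul a y _ h1 => rw [ap_smul]; exact Submodule.smul_mem _ a h1
    · have hm' : v ∈ Submodule.span F (Set.range fun r : R => ap (r : GL (Fin 3) F) v) :=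
        Submodule.subset_span ⟨1, by simp⟩
      rwa [h, Submodule.mem_bot] at hm'
  obtain ⟨r₁, hr₁⟩ : ∃ r : R, ap (r : GL (Fin 3) F) v ∉ Submodule.span F {v} := by
    by_contra hcon
    push Not at hcon
    have hle : (⊤ : Submodule F (Fin 3 → F)) ≤ Submodule.span F {v} :=
      hspan ▸ Submodule.span_le.mpr (Set.range_subset_iff.mpr hcon)
    have := Submodule.finrank_mono hle
    rw [finrank_top, Module.finrank_fin_fun, finrank_span_singleton hv0] at this
    omega
  have hne1 : (fun u w => ζ * Cfsg.hermForm 3 F p u w) v (ap (r₁ : GL (Fin 3) F) v) ≠ 0 :=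
    ne_zero_of_not_mem hf hvv hv0 (hRM _ r₁.2).1 fun c e => hr₁ (by
      rw [e]; exact Submodule.smul_mem _ c (Submodule.mem_span_singleton_self v))
  obtain ⟨r₂, hr₂⟩ : ∃ r : R, ap (r : GL (Fin 3) F) v ∉
      Submodule.span F ({v, ap (r₁ : GL (Fin 3) F) v} : Set (Fin 3 → F)) := by
    by_contra hcon
    push Not at hcon
    have hle : (⊤ : Submodule F (Fin 3 → F)) ≤
        Submodule.span F ({v, ap (r₁ : GL (Fin 3) F) v} : Set (Fin 3 → F)) :=
      hspan ▸ Submodule.span_le.mpr (Set.range_subset_iff.mpr hcon)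
    have h1 := Submodule.finrank_mono hle
    rw [finrank_top, Module.finrank_fin_fun] at h1
    have h2 := finrank_span_le_card (R := F) ({v, ap (r₁ : GL (Fin 3) F) v} : Set (Fin 3 → F))
    simp only [Set.toFinset_insert, Set.toFinset_singleton] at h2
    have h3 := Finset.card_le_two (a := v) (b := ap (r₁ : GL (Fin 3) F) v)
    omega
  exact hasT_of_three hf hXv (hRM _ r₁.2) (hRM _ r₂.2) hne1 hr₂

end CfsgLib.Geometric.SUThree
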