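import Mathlib

/-!
The index arithmetic for the stabiliser of an orthogonal frame in `SU₃(q)`: a divisor `k > 1` of
`q(q-1)(q²-q+1)` that is `1` modulo the square of the order of the torus part is exceptional.
-/

set_option autoImplicit false

namespace CfsgLib.Geometric.SUThree

namespace FrameArith

/-- The equation for a torus part prime to three. -/
lemma case_one {Q a b : ℤ} (hQ : 4 ≤ Q) (ha : 1 ≤ a) (hY : 0 < 6 - 15 * Q + b * Q ^ 2)
    (hN : a * (6 - 15 * Q + b * Q ^ 2) = Q ^ 2 - 6 * Q + 14 - b) :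
    (Q = 5 ∧ a = 1) ∨ (Q = 8 ∧ a = 2) ∨ (Q = 17 ∧ a = 5) := by
  have hb1 : 1 ≤ b := by
    by_contra hb
    nlinarith [mul_nonneg (show (0 : ℤ) ≤ -b by omega) (sq_nonneg Q)]
  have hle : 6 - 15 * Q + b * Q ^ 2 ≤ Q ^ 2 - 6 * Q + 14 - b := by
    nlinarith [mul_le_mul_of_nonneg_right ha hY.le]
  have hb4 : b ≤ 4 := by
    by_contra hb
    nlinarith [mul_le_mul_of_nonneg_right (show (5 : ℤ) ≤ b by omega) (sq_nonneg Q)]
  have hQ24 : Q ≤ 24 := by
    by_contra hQ'
    rcases (by omega : b = 1 ∨ 2 ≤ b) with rfl | hb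
    · rcases (by omega : a = 1 ∨ 2 ≤ a) with rfl | ha2
      · nlinarith
      · nlinarith [mul_le_mul_of_nonneg_right ha2 hY.le]
    · nlinarith [mul_le_mul_of_nonneg_right hb (sq_nonneg Q)]
  interval_cases Q <;> interval_cases b <;> norm_num at * <;> omega

/-- The test of a pair in the finite range for a torus part divisible by three. -/
def okSmall (R b : ℕ) : Bool :=
  let D := b * R * R + 6 - 45 * R
  let N := 81 * R * R + 126 - 162 * R - b
  decide (R < 3) || decide (D = 0) || decide (N = 0) || decide (N % D ≠ 0) || decide (R = 5) ||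
    decide (R = 9) || decide (R = 13) || decide (R = 15) ||
    (decide (R = 3) && (decide (N / D = 2) || decide (N / D = 3) || decide (N / D = 59))) ||
    (decide (R = 4) && decide (N / D = 2)) || (decide (R = 8) && decide (N / D = 14))

lemma check_small : (List.range 100).all (fun R => (List.range 97).all (okSmall R)) = true := by
  decide +kernel

/-- The test of a triple for a large torus part: `l - 1` is the quotient of `6a+b-126` by `R`. -/
def okLarge (b a l : ℕ) : Bool :=
  decide (a = 0) || decide (b = 0) ||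
    decide (a * b * (6 * a + b) + 10206 + 160 * l + l * l + 45 * a ≠
      126 * (a * b) + 81 * (6 * a + b) + 45 * a * l + 161) ||
    (decide (a = 2) && decide (b = 41) && decide (l = 2)) || (decide (a * b = 81) && decide (l = 1))

lemma check_large : (List.range 82).all (fun b => (List.range (1620 / (20 * b - 9) + 1)).all
    (fun a => (List.range 10).all (okLarge b a))) = true := by
  decide +kernel

/-- The equation for a torus part divisible by three. -/
lemma case_three {R a b : ℤ} (hR : 3 ≤ R) (ha : 1 ≤ a) (hY : 0 < 6 - 45 * R + b * R ^ 2)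
    (hN : a * (6 - 45 * R + b * R ^ 2) = 81 * R ^ 2 - 162 * R + 126 - b) :
    R = 5 ∨ R = 9 ∨ R = 13 ∨ R = 15 ∨ (R = 3 ∧ (a = 2 ∨ a = 3 ∨ a = 59)) ∨ (R = 4 ∧ a = 2) ∨
      (R = 8 ∧ a = 14) := by
  have hb1 : 1 ≤ b := by
    by_contra hb
    nlinarith [mul_nonneg (show (0 : ℤ) ≤ -b by omega) (sq_nonneg R)]
  have hle : 6 - 45 * R + b * R ^ 2 ≤ 81 * R ^ 2 - 162 * R + 126 - b := by
    nlinarith [mul_le_mul_of_nonneg_right ha hY.le]
  have hb96 : b ≤ 96 := by
    by_contra hb
    nlinarith [mul_le_mul_of_nonneg_right (show (97 : ℤ) ≤ b by omega) (sq_nonneg R)]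
  by_cases hR100 : R < 100
  · obtain ⟨R, rfl⟩ := Int.eq_ofNat_of_zero_le (show 0 ≤ R by omega)
    obtain ⟨b, rfl⟩ := Int.eq_ofNat_of_zero_le (show 0 ≤ b by omega)
    obtain ⟨a, rfl⟩ := Int.eq_ofNat_of_zero_le (show 0 ≤ a by omega)
    have h1 : 45 * R < b * R * R + 6 := by zify; nlinarith
    have h2 : 162 * R + b < 81 * R * R + 126 := by zify; nlinarith
    have h2' : 162 * R ≤ 81 * R * R + 126 := by omega
    have h2'' : b ≤ 81 * R * R + 126 - 162 * R := by omega
    have e : 81 * R * R + 126 - 162 * R - b = a * (b * R * R + 6 - 45 * R) := by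
      zify [h1.le, h2', h2'']
      linear_combination -hN
    have := List.all_eq_true.mp (List.all_eq_true.mp check_small R (List.mem_range.mpr (by omega))) b
      (List.mem_range.mpr (by omega))
    simp only [okSmall, Bool.or_eq_true, Bool.and_eq_true, decide_eq_true_eq, ne_eq] at this
    rw [e, Nat.mul_mod_left, Nat.mul_div_cancel _ (by omega)] at this
    have hA : a * (b * R * R + 6 - 45 * R) ≠ 0 := Nat.mul_ne_zero (by omega) (by omega)
    omega
  · exfalso
    have hD : (20 * b - 9) * R ^ 2 ≤ 20 * (6 - 45 * R + b * R ^ 2) := by nlinarith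
    have hab : a * (20 * b - 9) ≤ 1620 := by
      by_contra h
      nlinarith [mul_le_mul_of_nonneg_left hD (show (0 : ℤ) ≤ a by omega),
        mul_le_mul_of_nonneg_right (show 1621 ≤ a * (20 * b - 9) by omega) (sq_nonneg R)]
    have ha147 : a ≤ 147 := by
      nlinarith [mul_le_mul_of_nonneg_left (show (11 : ℤ) ≤ 20 * b - 9 by omega)
        (show (0 : ℤ) ≤ a by omega)]
    have hb81 : b ≤ 81 := by
      nlinarith [mul_le_mul_of_nonneg_right ha (show (0 : ℤ) ≤ 20 * b - 9 by omega)]
    obtain ⟨l, hl⟩ : ∃ l, l = 45 * a - 162 - (a * b - 81) * R := ⟨_, rfl⟩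
    have hc : 6 * a + b - 126 = l * R := by rw [hl]; linear_combination hN
    have hl0 : -1 ≤ l := by
      by_contra h
      nlinarith [mul_le_mul_of_nonneg_right (show l ≤ -2 by omega) (show (0 : ℤ) ≤ R by omega)]
    have hl8 : l ≤ 8 := by
      by_contra h
      nlinarith [mul_le_mul_of_nonneg_right (show 9 ≤ l by omega) (show (0 : ℤ) ≤ R by omega)]
    have key : (a * b - 81) * (6 * a + b - 126) = l * (45 * a - 162 - l) := by
      rw [hc, hl]; ring
    obtain ⟨a, rfl⟩ := Int.eq_ofNat_of_zero_le (show 0 ≤ a by omega)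
    obtain ⟨b, rfl⟩ := Int.eq_ofNat_of_zero_le (show 0 ≤ b by omega)
    obtain ⟨m, hm⟩ := Int.eq_ofNat_of_zero_le (show 0 ≤ l + 1 by omega)
    have hab' : a * (20 * b - 9) ≤ 1620 := by zify [show 9 ≤ 20 * b by omega]; exact hab
    have hlt : a < 1620 / (20 * b - 9) + 1 :=
      Nat.lt_succ_of_le ((Nat.le_div_iff_mul_le (by omega)).mpr hab')
    have hm' : (m : ℤ) = l + 1 := hm.symm
    have e : a * b * (6 * a + b) + 10206 + 160 * m + m * m + 45 * a =
        126 * (a * b) + 81 * (6 * a + b) + 45 * a * m + 161 := by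
      zify
      rw [hm']
      linear_combination key
    have := List.all_eq_true.mp (List.all_eq_true.mp (List.all_eq_true.mp check_large b
      (List.mem_range.mpr (by omega))) a (List.mem_range.mpr hlt)) m (List.mem_range.mpr (by omega))
    simp only [okLarge, Bool.or_eq_true, Bool.and_eq_true, decide_eq_true_eq, ne_eq] at this
    rcases this with (((h | h) | h) | ⟨⟨rfl, rfl⟩, rfl⟩) | ⟨h81, rfl⟩
    · omega
    · omega
    · exact absurd e h
    · omega
    · have h81' : (a : ℤ) * b = 81 := by exact_mod_cast h81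
      rw [h81', sub_self, zero_mul, sub_zero] at hl
      omega

lemma not_primePow {p f n r s : ℕ} (hp : p.Prime) (hn : n = p ^ f) (hr : r.Prime) (hs : s.Prime)
    (hrn : r ∣ n) (hsn : s ∣ n) : r = s := by
  rw [(Nat.prime_dvd_prime_iff_eq hr hp).mp (hr.dvd_of_dvd_pow (hn ▸ hrn)),
    (Nat.prime_dvd_prime_iff_eq hs hp).mp (hs.dvd_of_dvd_pow (hn ▸ hsn))]

end FrameArith

open FrameArith in
/-- The exceptional indices. -/
theorem frame_arith {p f q k : ℕ} (hp : p.Prime) (hq : q = p ^ f) (h3 : 3 ≤ q) (h5 : q ≠ 5)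
    (hk : 1 < k) (h6 : 6 * k ∣ q ^ 3 * (q - 1) * (q ^ 2 - q + 1))
    (hkT : k ∣ q * (q - 1) * (q ^ 2 - q + 1))
    (h1 : ¬ 3 ∣ q + 1 → k ≡ 1 [MOD (q + 1) ^ 2])
    (h9 : 3 ∣ q + 1 → k ≡ 1 [MOD ((q + 1) / 3) ^ 2]) :
    (q = 4 ∧ k = 26) ∨ (q = 8 ∧ (k = 19 ∨ k = 28 ∨ k = 532)) := by
  obtain ⟨Y, hY⟩ := hkT
  have hqq : q ≤ q ^ 2 := Nat.le_self_pow two_ne_zero q
  zify [show 1 ≤ q by omega, hqq] at hY
  have hkz : (1 : ℤ) < k := by exact_mod_cast hk
  have hqz : (3 : ℤ) ≤ q := by exact_mod_cast h3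
  have hY0 : (0 : ℤ) < Y := by
    have : (0 : ℤ) < (k : ℤ) * Y := by
      rw [← hY]
      have : (0 : ℤ) < (q : ℤ) ^ 2 - q + 1 := by nlinarith
      exact mul_pos (mul_pos (by omega) (by omega)) this
    exact (pos_iff_pos_of_mul_pos this).mp (by omega)
  by_cases hd : 3 ∣ q + 1
  · obtain ⟨a, ha⟩ := Nat.modEq_iff_dvd.mp (h9 hd).symm
    obtain ⟨R, hR⟩ := hd
    rw [hR, Nat.mul_div_cancel_left _ (by norm_num : 0 < 3)] at ha
    push_cast at ha
    have hRz : (q : ℤ) = 3 * R - 1 := by omega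
    have ha1 : 1 ≤ a := by
      by_contra h
      nlinarith [mul_nonneg (show (0 : ℤ) ≤ -a by omega) (sq_nonneg (R : ℤ))]
    have hk' : (k : ℤ) = 1 + (R : ℤ) ^ 2 * a := by linear_combination ha
    rw [hRz, hk'] at hY
    obtain ⟨b, hb⟩ : ∃ b, b = 81 * (R : ℤ) ^ 2 - 162 * R + 126 - a * Y := ⟨_, rfl⟩
    have hYb : (Y : ℤ) = 6 - 45 * R + b * (R : ℤ) ^ 2 := by rw [hb]; linear_combination -hY
    have hN : a * (6 - 45 * (R : ℤ) + b * (R : ℤ) ^ 2) = 81 * (R : ℤ) ^ 2 - 162 * R + 126 - b := by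
      rw [← hYb, hb]; ring
    rcases case_three (by omega) ha1 (hYb ▸ hY0) hN with
      h | h | h | h | ⟨h, ha'⟩ | ⟨h, ha'⟩ | ⟨h, ha'⟩
    · obtain rfl : R = 5 := by omega
      exact absurd (not_primePow hp hq Nat.prime_two (by norm_num : Nat.Prime 7) (by omega) (by omega))
        (by norm_num)
    · obtain rfl : R = 9 := by omega
      exact absurd (not_primePow hp hq Nat.prime_two (by norm_num : Nat.Prime 13) (by omega) (by omega))
        (by norm_num)
    · obtain rfl : R = 13 := by omega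
      exact absurd (not_primePow hp hq Nat.prime_two (by norm_num : Nat.Prime 19) (by omega) (by omega))
        (by norm_num)
    · obtain rfl : R = 15 := by omega
      exact absurd (not_primePow hp hq Nat.prime_two (by norm_num : Nat.Prime 11) (by omega) (by omega))
        (by norm_num)
    · right
      obtain rfl : R = 3 := by omega
      refine ⟨by omega, ?_⟩
      norm_num at hk'
      omega
    · obtain rfl : R = 4 := by omega
      obtain rfl : q = 11 := by omega
      subst ha'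
      obtain rfl : k = 33 := by norm_num at hk'; omega
      norm_num at h6
    · obtain rfl : R = 8 := by omega
      obtain rfl : q = 23 := by omega
      subst ha'
      obtain rfl : k = 897 := by norm_num at hk'; omega
      norm_num at h6
  · obtain ⟨a, ha⟩ := Nat.modEq_iff_dvd.mp (h1 hd).symm
    push_cast at ha
    have ha1 : 1 ≤ a := by
      by_contra h
      nlinarith [mul_nonneg (show (0 : ℤ) ≤ -a by omega) (sq_nonneg ((q : ℤ) + 1))]
    have hk' : (k : ℤ) = 1 + ((q : ℤ) + 1) ^ 2 * a := by linear_combination ha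
    rw [hk'] at hY
    obtain ⟨Q, hQ⟩ : ∃ Q, Q = (q : ℤ) + 1 := ⟨_, rfl⟩
    obtain ⟨b, hb⟩ : ∃ b, b = Q ^ 2 - 6 * Q + 14 - a * Y := ⟨_, rfl⟩
    have hYb : (Y : ℤ) = 6 - 15 * Q + b * Q ^ 2 := by rw [hb, hQ]; linear_combination -hY
    have hN : a * (6 - 15 * Q + b * Q ^ 2) = Q ^ 2 - 6 * Q + 14 - b := by rw [← hYb, hb]; ring
    rcases case_one (by omega) ha1 (hYb ▸ hY0) hN with ⟨h, rfl⟩ | ⟨h, rfl⟩ | ⟨h, rfl⟩
    · obtain rfl : q = 4 := by omega
      left
      norm_num at hk'
      exact ⟨rfl, by omega⟩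
    · obtain rfl : q = 7 := by omega
      obtain rfl : k = 129 := by norm_num at hk'; omega
      norm_num at h6
    · obtain rfl : q = 16 := by omega
      obtain rfl : k = 1446 := by norm_num at hk'; omega
      norm_num at h6

end CfsgLib.Geometric.SUThree
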