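import Cfsg.Agent.Lib.Geometric.SUThree.FrameEight
import Cfsg.Agent.Lib.Geometric.SUThree.FrameArith
import Cfsg.Agent.Lib.Geometric.UnitaryMonomial.Thm

/-!
The stabiliser of an orthonormal frame is maximal in `SU₃(q)` for `q ≠ 2, 5`.
-/

set_option autoImplicit false

namespace CfsgLib.Geometric.SUThree.Frame

open Matrix Finset CfsgLib.UMon CfsgLib.Geometric CfsgLib.Geometric.Unitary

variable {F : Type*} [Field F] [Fintype F] [DecidableEq F] {σ : F ≃+* F} {q : ℕ} {ζ : F}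

local notation "e[" j "]" => (Pi.single j (1 : _) : Fin 3 → _)

omit [DecidableEq F] in
lemma order_eq (hσ : IsConj σ q) :
    q ^ 3 * ((q ^ 2 - 1) * (q ^ 3 + 1)) =
      (q + 1) ^ 2 * (q ^ 3 * (q - 1) * (q ^ 2 - q + 1)) := by
  obtain ⟨w, rfl⟩ : ∃ w, q = w + 1 := ⟨q - 1, by have := hσ.two_le; omega⟩
  rw [Nat.add_sub_cancel, show (w + 1) ^ 2 - 1 = w * (w + 2) by
    rw [show (w + 1) ^ 2 = w * (w + 2) + 1 by ring, Nat.add_sub_cancel],
    show (w + 1) ^ 2 - (w + 1) = (w + 1) * w by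
      rw [show (w + 1) ^ 2 = (w + 1) * w + (w + 1) by ring, Nat.add_sub_cancel]]
  ring

/-- The core: a group containing the monomial group properly has every transvection. -/
theorem hasT_of_not_monG (hσ : IsConj σ q) (hq : 3 ≤ q) (h5 : q ≠ 5) (hζ : ζ ≠ 0)
    (hζσ : σ ζ = -ζ) (hf : IsSkewForm σ (fun u v : Fin 3 → F => ζ * hb σ u v))
    {X : Subgroup (GL (Fin 3) F)} (hX : X ≤ GUs σ ⊓ Cfsg.Geo.specialLinear (Fin 3) F)
    (hM : MonIn σ X) {g₀ : GL (Fin 3) F} (hg₀ : g₀ ∈ X) (hg₀m : ¬ IsMon g₀) : HasT hf X := by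
  classical
  by_contra hT
  obtain ⟨p, hp'⟩ := CharP.exists F
  haveI := hp'
  have hp : p.Prime := CharP.char_is_prime F p
  haveI : Fact p.Prime := ⟨hp⟩
  obtain ⟨m, -, hm⟩ := FiniteField.card F p
  obtain ⟨n, -, hqn⟩ := (Nat.dvd_prime_pow hp (i := q) (m := (m : ℕ))).mp
    (by rw [← hm, hσ.card]; exact dvd_pow_self q two_ne_zero)
  have hX1 : X ≤ GUs σ := fun x hx => (hX hx).1
  have hX2 : X ≤ Cfsg.Geo.specialLinear (Fin 3) F := fun x hx => (hX hx).2
  have hXI : X ≤ isom (fun u v : Fin 3 → F => ζ * hb σ u v) := by rw [isom_eq hζ]; exact hX1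
  have hN := noPair_of_not_hasT hσ hqn hq hX1 hM hζ hf hT
  have hle : monG σ ≤ X := monG_le hM
  set k := (monG σ).relIndex X with hk
  have hcard : Nat.card X = 6 * (q + 1) ^ 2 * k := by
    rw [← card_monG hσ, ← Nat.card_congr (Subgroup.subgroupOfEquivOfLe hle).toEquiv]
    exact (Subgroup.card_mul_index _).symm
  have hk1 : 1 < k := by
    have h0 : k ≠ 0 := fun h => by
      rw [h, mul_zero] at hcard
      exact Nat.card_pos.ne' hcard
    have h1 : k ≠ 1 := fun h => hg₀m ((Subgroup.relIndex_eq_one.mp h) hg₀).1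
    omega
  have hord : Nat.card X ∣ (q + 1) ^ 2 * (q ^ 3 * (q - 1) * (q ^ 2 - q + 1)) := by
    rw [← order_eq hσ, ← card_gus hσ]
    exact Subgroup.card_dvd_of_le hX
  have h6 : 6 * k ∣ q ^ 3 * (q - 1) * (q ^ 2 - q + 1) := by
    refine Nat.dvd_of_mul_dvd_mul_left (show 0 < (q + 1) ^ 2 by positivity) ?_
    rw [hcard] at hord
    rwa [show (q + 1) ^ 2 * (6 * k) = 6 * (q + 1) ^ 2 * k by ring]
  have hkT : k ∣ q * (q - 1) * (q ^ 2 - q + 1) := by
    obtain ⟨a, k', hk', hka⟩ := Nat.exists_eq_pow_mul_and_not_dvd (show k ≠ 0 by omega) p hp.ne_one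
    have hpa : p ^ a ∣ q := by
      by_cases h2 : (2 : F) = 0
      · have hp2 : p = 2 := (Nat.prime_dvd_prime_iff_eq hp Nat.prime_two).mp
          ((CharP.cast_eq_zero_iff F p 2).mp (by exact_mod_cast h2))
        have hdvd : p ^ (a + 1) ∣ Nat.card X := by
          rw [hcard, hka, hp2]; exact ⟨3 * (q + 1) ^ 2 * k', by ring⟩
        obtain ⟨P, hP⟩ := Sylow.exists_subgroup_card_pow_prime p hdvd
        have hPG : IsPGroup p (P.map X.subtype) := (IsPGroup.of_card hP).map X.subtype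
        have := (card_pGroup_dvd hf hPG hσ hqn hXI hN
          (by rintro x ⟨y, -, rfl⟩; exact y.2)).2 h2
        rw [← Nat.card_congr (P.equivMapOfInjective _ X.subtype_injective).toEquiv, hP, hp2,
          show (8 : ℕ) = 2 ^ 3 from rfl] at this
        have ha := (Nat.pow_dvd_pow_iff_le_right (show 1 < 2 by norm_num)).mp this
        rw [hp2] at hqn ⊢
        rw [hqn]
        refine pow_dvd_pow 2 ?_
        have : 2 ≤ n := by
          by_contra hn
          have : 2 ^ n ≤ 2 := (Nat.pow_le_pow_right two_pos (show n ≤ 1 by omega)).trans_eq (pow_one 2)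
          omega
        omega
      · obtain ⟨P, hP⟩ := Sylow.exists_subgroup_card_pow_prime p
          (show p ^ a ∣ Nat.card X by rw [hcard, hka]; exact Dvd.dvd.mul_left (Dvd.intro _ rfl) _)
        have hPG : IsPGroup p (P.map X.subtype) := (IsPGroup.of_card hP).map X.subtype
        have := (card_pGroup_dvd hf hPG hσ hqn hXI hN
          (by rintro x ⟨y, -, rfl⟩; exact y.2)).1 h2
        rwa [← Nat.card_congr (P.equivMapOfInjective _ X.subtype_injective).toEquiv, hP] at this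
    have hcop : Nat.Coprime k' (q ^ 3) := by
      rw [hqn, ← pow_mul]
      exact (Nat.Coprime.pow_left _ (hp.coprime_iff_not_dvd.mpr hk')).symm
    have hk'R : k' ∣ (q - 1) * (q ^ 2 - q + 1) := by
      refine hcop.dvd_of_dvd_mul_left ?_
      rw [← mul_assoc]
      exact (Dvd.intro_left (6 * p ^ a) (by rw [hka]; ring)).trans h6
    rw [hka, mul_assoc]
    exact Nat.mul_dvd_mul hpa hk'R
  have hmod : ∀ e, (∀ g ∈ X, g ∉ monG σ → ∀ S : Subgroup (GL (Fin 3) F),
      (∀ x, x ∈ S ↔ x ∈ diaG σ ∧ g⁻¹ * x * g ∈ monG σ) → e * Nat.card S ∣ Nat.card (diaG σ)) →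
      k ≡ 1 [MOD e] := fun e he =>
    relIndex_modEq (A := diaG σ) (H := monG σ) (fun g hg => hg.1) hle he
  have hex := frame_arith hp hqn hq h5 hk1 h6 hkT
    (fun h3 => hmod _ fun g hg hgm S hS =>
      (stab_dvd hσ hqn hq hX1 hX2 hM hζ hζσ hf hT h5 hg hgm S hS).1 h3)
    (fun h3 => hmod _ fun g hg hgm S hS =>
      (stab_dvd hσ hqn hq hX1 hX2 hM hζ hζσ hf hT h5 hg hgm S hS).2 h3)
  exact false_of_exception hσ hqn hq hX1 hX2 hM hζ hζσ hf hT hcard hex

/-- A special isometry that is not monomial. -/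
lemma exists_not_monG (hσ : IsConj σ q) (hq : 3 ≤ q) (hζ : ζ ≠ 0)
    (hf : IsSkewForm σ (fun u v : Fin 3 → F => ζ * hb σ u v)) :
    ∃ g ∈ GUs σ ⊓ Cfsg.Geo.specialLinear (Fin 3) F, ¬ IsMon g := by
  classical
  obtain ⟨β, hβ⟩ := CfsgLib.UMon.exists_norm hσ (show σ (-1) = -1 by rw [map_neg, map_one])
  have hβ0 : β ≠ 0 := fun h => by simp [h] at hβ
  let v : Fin 3 → F := tri 0 1 1 β 0
  have hv0 : v 0 = 1 := tri_fst _ _ _ _ _
  have hv1 : v 1 = β := tri_snd (by decide) _ _ _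
  have hv2 : v 2 = 0 := tri_thd (by decide) (by decide) _ _ _
  have hv : ζ * hb σ v v = 0 := by
    rw [hb, Fin.sum_univ_three, hv0, hv1, hv2, map_one, zero_mul, add_zero]
    linear_combination ζ * hβ
  obtain ⟨c, hc, hc0⟩ : ∃ c ∈ (fxd σ).erase 0, 1 + c * ζ ≠ 0 := by
    obtain ⟨a, ha, b, hb', hab⟩ := one_lt_card.mp (show 1 < ((fxd σ).erase 0).card by
      rw [card_erase_of_mem (by simp [fxd]), card_fxd hσ]; omega)
    by_cases h : 1 + a * ζ = 0
    · exact ⟨b, hb', fun h' => hab (mul_right_cancel₀ hζ (by linear_combination h - h'))⟩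
    · exact ⟨a, ha, h⟩
  obtain ⟨hc1, hcF⟩ := mem_erase.mp hc
  obtain ⟨hI, hS⟩ := Unitary.T_mem hf hv (c := c) (by simpa [fxd] using hcF)
  refine ⟨_, Subgroup.mem_inf.mpr ⟨?_, hS⟩,
    not_isMon_of_two (j := 0) (a := 0) (b := 1) (by decide) ?_ ?_⟩
  · rw [isom_eq hζ] at hI; exact hI
  · rw [Unitary.ap_T hf, hb_single_left, hv0]
    simp [hv0, hc0]
  · rw [Unitary.ap_T hf, hb_single_left, hv0]
    simp [hv1, hζ, hβ0, hc1]

end CfsgLib.Geometric.SUThree.Frame

namespace CfsgLib.Geometric.SUThree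

open Matrix Finset CfsgLib.UMon CfsgLib.Geometric

/-- The stabiliser of an orthogonal frame is maximal in `SU₃(q)`, `q ≥ 3`, `q ≠ 5`. -/
theorem frame_isMaximalIn {F : Type*} [Field F] [Fintype F] (q : ℕ)
    (hF : Fintype.card F = q ^ 2) (hq : 3 ≤ q) (h5 : q ≠ 5)
    (D : Fin 3 → Submodule F (Fin 3 → F))
    (hD' : Cfsg.Geo.IsNondegenerateMDecomposition (Cfsg.hermForm 3 F q) 1 D) :
    Cfsg.Geo.IsMaximalIn (Cfsg.GU 3 F q ⊓ Cfsg.Geo.specialLinear (Fin 3) F)
      (Cfsg.Geo.decompositionStabilizer D ⊓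
        (Cfsg.GU 3 F q ⊓ Cfsg.Geo.specialLinear (Fin 3) F)) := by
  classical
  obtain ⟨σ, ζ₀, hζ₀, hf₀, hσp, -⟩ := exists_setup (F := F) hF
  have hσ : IsConj σ q := ⟨hF, hσp⟩
  have hhb : (Cfsg.hermForm 3 F q) = (hb σ : (Fin 3 → F) → (Fin 3 → F) → F) := by
    funext u v; simp [hb, Cfsg.hermForm, hσp]
  have hGU : Cfsg.GU 3 F q = (GUs σ : Subgroup (GL (Fin 3) F)) := by
    rw [GUs, ← hhb]; rfl
  rw [hGU]
  have hD : Cfsg.Geo.IsNondegenerateMDecomposition (hb σ) 1 D := hhb ▸ hD'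
  obtain ⟨ζ, hζ, hζσ, hf⟩ := exists_skewForm (ι := Fin 3) hσ
  have hu : ∀ i, ∃ u ∈ D i, hb σ u u = 1 := by
    intro i
    obtain ⟨w, hw, hw0⟩ := Decomp.exists_ne_zero_mem hD.decomp i
    obtain ⟨x, hx, hxw⟩ := (hD.nondegenerate i w hw hw0).1
    have hsp : Submodule.span F {w} = D i := Submodule.eq_of_le_of_finrank_eq
      ((Submodule.span_singleton_le_iff_mem _ _).mpr hw)
      (by rw [finrank_span_singleton hw0, hD.decomp.finrank_eq])
    obtain ⟨c, rfl⟩ := Submodule.mem_span_singleton.mp (hsp.symm ▸ hx)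
    rw [hb_smul_left] at hxw
    obtain ⟨hc, hww⟩ := mul_ne_zero_iff.mp hxw
    obtain ⟨ν, hν⟩ := CfsgLib.UMon.exists_norm hσ (hb_herm hσ w w)
    refine ⟨ν⁻¹ • w, (D i).smul_mem _ hw, ?_⟩
    rw [hb_smul_left, hb_smul_right, map_inv₀, ← mul_assoc, ← mul_inv, hν, inv_mul_cancel₀ hww]
  choose u hu hu1 using hu
  have hu0 : ∀ i, u i ≠ 0 := fun i h => by
    have := hu1 i; rw [h, hb_zero_left] at this; exact zero_ne_one this
  have hspan : ∀ i, Submodule.span F {u i} = D i := fun i => Submodule.eq_of_le_of_finrank_eq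
    ((Submodule.span_singleton_le_iff_mem _ _).mpr (hu i))
    (by rw [finrank_span_singleton (hu0 i), hD.decomp.finrank_eq])
  let L : (Fin 3 → F) →ₗ[F] (Fin 3 → F) :=
    ∑ i, (LinearMap.proj i : (Fin 3 → F) →ₗ[F] F).smulRight (u i)
  have hL : ∀ x, L x = ∑ i, x i • u i := fun x => by simp [L, LinearMap.sum_apply]
  have huu : ∀ i j, hb σ (u i) (u j) = if i = j then 1 else 0 := fun i j => by
    split_ifs with h
    · rw [h, hu1]
    · exact hD.orthogonal _ _ h _ (hu _) _ (hu _)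
  have hcoord : ∀ x j, hb σ (L x) (u j) = x j := fun x j => by
    rw [hL, Fin.sum_univ_three, hb_add_left, hb_add_left, hb_smul_left, hb_smul_left, hb_smul_left,
      huu, huu, huu]
    fin_cases j <;> simp
  have hLinj : Function.Injective L := by
    rw [injective_iff_map_eq_zero]
    exact fun x hx => funext fun j => by rw [← hcoord x j, hx, hb_zero_left]; rfl
  set g₀ := ofEquiv (LinearEquiv.ofInjectiveEndo L hLinj) with hg₀def
  have hg₀ : ∀ x, ap g₀ x = L x := fun x => by rw [hg₀def, ap_ofEquiv]; rfl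
  have hg₀e : ∀ (i : Fin 3) (c : F), ap g₀ (Pi.single i c) = c • u i := fun i c => by
    rw [hg₀, hL, Finset.sum_eq_single i (fun j _ hj => by simp [hj]) (by simp)]
    simp
  have hg₀I : g₀ ∈ GUs σ := fun x y => by
    change hb σ (ap g₀ x) (ap g₀ y) = hb σ x y
    rw [hg₀ y, hL y, Fin.sum_univ_three, hb_add_right, hb_add_right, hb_smul_right,
      hb_smul_right, hb_smul_right]
    rw [hg₀ x, hcoord, hcoord, hcoord]
    simp only [hb, Fin.sum_univ_three]
    ring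
  have hconjS : ∀ g : GL (Fin 3) F, g ∈ Cfsg.Geo.specialLinear (Fin 3) F ↔
      g₀ * g * g₀⁻¹ ∈ Cfsg.Geo.specialLinear (Fin 3) F := fun g => by
    rw [Cfsg.Geo.specialLinear, MonoidHom.mem_ker, MonoidHom.mem_ker, map_mul, map_mul, map_inv,
      mul_inv_cancel_comm]
  have hmon : ∀ g : GL (Fin 3) F, g ∈ Cfsg.Geo.decompositionStabilizer D →
      IsMon (g₀⁻¹ * g * g₀) := by
    rintro g ⟨π, hπ⟩
    refine isMon_of_cols (fun i => π i) fun j k hk => ?_
    have hmem : ap g (u j) ∈ D (π j) := by rw [← hπ]; exact ⟨u j, hu _, rfl⟩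
    obtain ⟨c, hc⟩ := Submodule.mem_span_singleton.mp ((hspan _).symm ▸ hmem)
    have h1 : ap (g₀⁻¹ * g * g₀) (Pi.single j 1) = Pi.single (π j) c := by
      apply ap_injective g₀
      rw [← ap_mul, show g₀ * (g₀⁻¹ * g * g₀) = g * g₀ by group, ap_mul, hg₀e, one_smul, hg₀e, hc]
    rw [h1]
    simp [hk]
  have hstab : ∀ π (c : Fin 3 → Fˣ),
      g₀ * mon π c * g₀⁻¹ ∈ Cfsg.Geo.decompositionStabilizer D := by
    intro π c
    refine ⟨π, fun l => ?_⟩
    have h1 : ap (g₀ * mon π c * g₀⁻¹) (u l) = (c (π l) : F) • u (π l) := by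
      have h0 : ap g₀⁻¹ (u l) = Pi.single l 1 := by
        apply ap_injective g₀
        rw [ap_ap_inv, hg₀e, one_smul]
      rw [ap_mul, ap_mul, h0, ap_mon_single, mul_one, hg₀e]
    rw [← hspan l, Submodule.map_span, Set.image_singleton, Matrix.toLin'_apply, ← ap_def, h1,
      Submodule.span_singleton_smul_eq (Units.isUnit _), hspan]
  refine ⟨lt_of_le_of_ne inf_le_right fun he => ?_, fun M hHM hMS => ?_⟩
  · obtain ⟨g, hg, hgn⟩ := Frame.exists_not_monG hσ hq hζ hf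
    have h1 : g₀ * g * g₀⁻¹ ∈ GUs σ ⊓ Cfsg.Geo.specialLinear (Fin 3) F :=
      Subgroup.mem_inf.mpr ⟨mul_mem (mul_mem hg₀I hg.1) (inv_mem hg₀I), (hconjS g).mp hg.2⟩
    rw [← he] at h1
    refine hgn ?_
    convert hmon _ h1.1 using 1
    group
  by_cases hle : M ≤ Cfsg.Geo.decompositionStabilizer D
  · exact Or.inl (le_antisymm (le_inf hle hMS) hHM)
  obtain ⟨g, hgM, hg⟩ := SetLike.not_le_iff_exists.mp hle
  refine Or.inr (le_antisymm hMS fun y hy => ?_)
  set X := M.comap (MulAut.conj g₀).toMonoidHom with hXdef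
  have hmemX : ∀ x, x ∈ X ↔ g₀ * x * g₀⁻¹ ∈ M := fun x => Iff.rfl
  have hXle : X ≤ GUs σ ⊓ Cfsg.Geo.specialLinear (Fin 3) F := fun x hx => by
    refine Subgroup.mem_inf.mpr ⟨?_, (hconjS x).mpr (hMS hx).2⟩
    have := mul_mem (mul_mem (inv_mem hg₀I) (show g₀ * x * g₀⁻¹ ∈ GUs σ from (hMS hx).1)) hg₀I
    convert this using 1
    simp [mul_assoc]
  have hXM : MonIn σ X := fun π c hc hdet => (hmemX _).mpr (hHM ⟨hstab π c,
    Subgroup.mem_inf.mpr ⟨mul_mem (mul_mem hg₀I (mon_mem_GUs hc)) (inv_mem hg₀I),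
    (hconjS _).mp ((mem_specialLinear_iff _).mpr hdet)⟩⟩)
  have hgX : g₀⁻¹ * g * g₀ ∈ X := (hmemX _).mpr (by convert hgM using 1; group)
  have hgn : ¬ IsMon (g₀⁻¹ * g * g₀) := by
    rintro ⟨π, c, hc⟩
    refine hg ?_
    convert hstab π c using 1
    rw [← hc]
    group
  have hS : g₀⁻¹ * y * g₀ ∈ GUs σ ⊓ Cfsg.Geo.specialLinear (Fin 3) F :=
    Subgroup.mem_inf.mpr ⟨mul_mem (mul_mem (inv_mem hg₀I) (show y ∈ GUs σ from hy.1)) hg₀I,
      (hconjS _).mpr (by convert hy.2 using 1; simp [mul_assoc])⟩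
  have hT := Frame.hasT_of_not_monG hσ hq h5 hζ hζσ hf hXle hXM hgX hgn
  have hfF : IsSkewForm σ (fun u v => ζ * Cfsg.hermForm 3 F q u v) := by rw [hhb]; exact hf
  have hle2 := le_of_hasT hF hq hζ hfF (M := X) (by
    intro v hv c hc
    have hv' : ζ * hb σ v v = 0 := by rw [← hhb]; exact hv
    convert hT v hv' c hc using 1
    exact gl_ext fun x => by rw [Unitary.ap_T hfF, Unitary.ap_T hf, hhb])
  have hmem : g₀⁻¹ * y * g₀ ∈ Unitary.sisom hfF := by
    refine Subgroup.mem_inf.mpr ⟨?_, hS.2⟩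
    rw [isom_mul_const hζ, hhb]
    exact hS.1
  have := (hmemX _).mp (hle2 hmem)
  convert this using 1
  group

end CfsgLib.Geometric.SUThree
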