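import Cfsg.Agent.Lib.Geometric.SUThree.Basic
import Cfsg.Agent.Lib.Geometric.UnitaryMonomial.Basic

/-!
Subgroups of the three-dimensional unitary group of the standard form that contain the monomial
elements: elementary facts.
-/

set_option autoImplicit false

namespace CfsgLib.Geometric.SUThree.Frame

open Matrix Finset CfsgLib.UMon CfsgLib.Geometric CfsgLib.Geometric.Unitary

variable {F : Type*} [Field F] [Fintype F] [DecidableEq F] {σ : F ≃+* F}

lemma third (i : Fin 3) : ∃ j k, j ≠ i ∧ k ≠ i ∧ j ≠ k := by decide +revert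

lemma cases3 {i j k : Fin 3} (hji : j ≠ i) (hki : k ≠ i) (hjk : j ≠ k) (l : Fin 3) :
    l = i ∨ l = j ∨ l = k := by decide +revert

lemma sum3 {M : Type*} [AddCommMonoid M] {i j k : Fin 3} (hji : j ≠ i) (hki : k ≠ i) (hjk : j ≠ k)
    (g : Fin 3 → M) : ∑ l, g l = g i + g j + g k := by
  have : (univ : Finset (Fin 3)) = {i, j, k} := by
    ext l; simpa using cases3 hji hki hjk l
  rw [this, sum_insert (by simp [hji.symm, hki.symm]), sum_insert (by simp [hjk]), sum_singleton,
    add_assoc]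

lemma prod3 {M : Type*} [CommMonoid M] {i j k : Fin 3} (hji : j ≠ i) (hki : k ≠ i) (hjk : j ≠ k)
    (g : Fin 3 → M) : ∏ l, g l = g i * g j * g k :=
  sum3 (M := Additive M) hji hki hjk g

/-- The triple with values `a`, `b`, `c` at `i`, `j` and the remaining index. -/
def tri (i j : Fin 3) (a b c : F) : Fin 3 → F := fun l => if l = i then a else if l = j then b else c

omit [Fintype F] [DecidableEq F] in
@[simp] lemma tri_fst (i j : Fin 3) (a b c : F) : tri i j a b c i = a := by simp [tri]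

omit [Fintype F] [DecidableEq F] in
lemma tri_snd {i j : Fin 3} (h : j ≠ i) (a b c : F) : tri i j a b c j = b := by simp [tri, h]

omit [Fintype F] [DecidableEq F] in
lemma tri_thd {i j k : Fin 3} (h : k ≠ i) (h' : j ≠ k) (a b c : F) : tri i j a b c k = c := by
  simp [tri, h, h'.symm]

lemma tri_mem_cir {i j : Fin 3} {a b c : F} (ha : a ∈ cir σ) (hb : b ∈ cir σ) (hc : c ∈ cir σ)
    (l : Fin 3) : tri i j a b c l ∈ cir σ := by
  simp only [tri]; split_ifs <;> assumption

variable {X : Subgroup (GL (Fin 3) F)} (hM : MonIn σ X)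
include hM

lemma tri_dia_mem {i j k : Fin 3} (hji : j ≠ i) (hki : k ≠ i) (hjk : j ≠ k) {a b c : F}
    (ha : a ∈ cir σ) (hb : b ∈ cir σ) (hc : c ∈ cir σ) (h : a * b * c = 1) :
    dia (tri i j a b c) ∈ X :=
  dia_mem hM (tri_mem_cir ha hb hc) (by
    rw [prod3 hji hki hjk, tri_fst, tri_snd hji, tri_thd hki hjk, h])

lemma tri_swap_mem {i j k : Fin 3} (hji : j ≠ i) (hki : k ≠ i) (hjk : j ≠ k) {a b c : F}
    (ha : a ∈ cir σ) (hb : b ∈ cir σ) (hc : c ∈ cir σ) (h : a * b * c = -1) :
    mo (Equiv.swap j k) (tri i j a b c) ∈ X :=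
  mo_mem hM (tri_mem_cir ha hb hc) (by
    rw [prod3 hji hki hjk, tri_fst, tri_snd hji, tri_thd hki hjk, h, Equiv.Perm.sign_swap hjk]
    simp)

/-- A monomial element of `X` moving one coordinate axis to another. -/
lemma exists_move (a b : Fin 3) :
    ∃ P ∈ X, IsMon P ∧ ap P (Pi.single a (1 : F)) = Pi.single b 1 ∧
      ∀ x : Fin 3 → F, ap P x b = x a := by
  by_cases hab : a = b
  · subst hab
    exact ⟨1, one_mem X, ⟨1, 1, mon_one.symm⟩, ap_one _, fun x => by rw [ap_one]⟩
  obtain ⟨l, hla, hlb⟩ : ∃ l : Fin 3, l ≠ a ∧ l ≠ b := by decide +revert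
  have hd : ∀ m, tri l a (-1) 1 1 m ≠ (0 : F) := fun m => by
    simp only [tri]; split_ifs <;> simp
  refine ⟨_, tri_swap_mem hM (i := l) (j := a) (k := b) hla.symm hlb.symm hab
    (neg_mem_cir one_mem_cir) one_mem_cir one_mem_cir (by simp), isMon_mo _ _, ?_, fun x => ?_⟩
  · ext m
    rw [ap_mo hd, Equiv.symm_swap]
    by_cases h : m = b
    · subst h; simp [tri, hlb.symm, Ne.symm hab]
    · by_cases h' : m = a
      · subst h'; simp [h, Ne.symm hab]
      · simp [h, h', Equiv.swap_apply_of_ne_of_ne]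
  · rw [ap_mo hd, Equiv.symm_swap, Equiv.swap_apply_right]
    simp [tri, hlb.symm, Ne.symm hab]

omit hM

variable {ζ : F}

lemma isom_eq (hζ : ζ ≠ 0) :
    isom (fun u v : Fin 3 → F => ζ * hb σ u v) = GUs σ := isom_mul_const hζ (hb σ)

end CfsgLib.Geometric.SUThree.Frame
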