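import Cfsg.Agent.Lib.Geometric.SUThree.Basic

/-!
Unipotent subgroups at an isotropic point of a three-dimensional skew-hermitian space with few
transvections.
-/

set_option autoImplicit false

namespace CfsgLib.Geometric.SUThree.Frame

open Matrix CfsgLib.Geometric CfsgLib.Geometric.Unitary

variable {F : Type*} [Field F] {σ : F ≃+* F} {f : (Fin 3 → F) → (Fin 3 → F) → F}
  (hf : IsSkewForm σ f)
include hf

/-- An isotropic point and an anisotropic vector orthogonal to it are part of a frame. -/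
lemma exists_frame_of_perp {u a : Fin 3 → F} (hu : f u u = 0) (hu0 : u ≠ 0) (hau : f a u = 0)
    (haa : f a a ≠ 0) : ∃ w, f w w = 0 ∧ f w u = 1 ∧ f a w = 0 ∧
      ∀ x, x = (-f x w) • u + f x u • w + (f x a / f a a) • a := by
  obtain ⟨⟨p, hp⟩, -⟩ := hf.nondegenerate u hu0
  have hua := (eq_zero_comm hf).mp hau
  obtain ⟨p', hp'⟩ : ∃ p', p' = p - (f p a / f a a) • a := ⟨_, rfl⟩
  have hp'u : f p' u = f p u := by rw [hp', sub_left hf, hf.smul_left, hau, mul_zero, sub_zero]
  have hp'a : f p' a = 0 := by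
    rw [hp', sub_left hf, hf.smul_left, div_mul_cancel₀ _ haa, sub_self]
  obtain ⟨l, hl⟩ := exists_isotropic_shift hf hu (show f p' u ≠ 0 by rw [hp'u]; exact hp)
  obtain ⟨w, hwdef⟩ : ∃ w, w = (f p' u)⁻¹ • (p' + l • u) := ⟨_, rfl⟩
  have hw : f w w = 0 := hwdef ▸ isotropic_smul hf hl _
  have hwu : f w u = 1 := by
    rw [hwdef, hf.smul_left, hf.add_left, hf.smul_left, hu, mul_zero, add_zero,
      inv_mul_cancel₀ (hp'u ▸ hp)]
  have hwa : f w a = 0 := by
    rw [hwdef, hf.smul_left, hf.add_left, hf.smul_left, hp'a, hua, mul_zero, add_zero, mul_zero]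
  have haw := (eq_zero_comm hf).mp hwa
  obtain ⟨a₀, ha₀u, ha₀w, ha₀, hx⟩ := exists_frame hf hu hw hwu
  refine ⟨w, hw, hwu, haw, fun x => ?_⟩
  have ha := hx a
  rw [haw, hau, neg_zero, zero_smul, zero_smul, zero_add, zero_add] at ha
  obtain ⟨κ, hκ⟩ : ∃ κ, κ = f a a₀ / f a₀ a₀ := ⟨_, rfl⟩
  rw [← hκ] at ha
  have hκ0 : κ ≠ 0 := fun h => haa (by rw [ha, h, zero_smul, zero_left hf])
  have hσκ : σ κ ≠ 0 := (map_ne_zero σ).mpr hκ0
  conv_lhs => rw [hx x]
  rw [ha, smul_right hf, hf.smul_left, smul_right hf, smul_smul]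
  congr 2
  field_simp

/-- The `a`-coordinate of the image of `w`. -/
def gam (f : (Fin 3 → F) → (Fin 3 → F) → F) (a w : Fin 3 → F) (g : GL (Fin 3) F) : F :=
  f (ap g w) a / f a a

/-- Fixing `u` and inducing the identity on `a` modulo `u`. -/
def IsUni (f : (Fin 3 → F) → (Fin 3 → F) → F) (u a : Fin 3 → F) (g : GL (Fin 3) F) : Prop :=
  g ∈ isom f ∧ ap g u = u ∧ f (ap g a) a = f a a

variable {u w a : Fin 3 → F} (hu : f u u = 0) (hw : f w w = 0) (hwu : f w u = 1)
  (hau : f a u = 0) (haw : f a w = 0) (haa : f a a ≠ 0)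
  (hx : ∀ x, x = (-f x w) • u + f x u • w + (f x a / f a a) • a)
include hu hw hwu hau haw haa hx

omit hw haw in
lemma uni_w {g : GL (Fin 3) F} (hg : IsUni f u a g) :
    ap g w = (-f (ap g w) w) • u + w + gam f a w g • a := by
  have h : f (ap g w) u = 1 := by
    conv_lhs => rw [← hg.2.1]
    exact (hg.1 w u).trans hwu
  conv_lhs => rw [hx (ap g w)]
  rw [h, one_smul]
  rfl

lemma uni_a {g : GL (Fin 3) F} (hg : IsUni f u a g) :
    ap g a = a + (σ (gam f a w g) * f a a) • u := by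
  have huw : f u w = -1 := by rw [hf.skew, hwu, map_one]
  have hua := (eq_zero_comm hf).mp hau
  have h1 : f (ap g a) u = 0 := by
    conv_lhs => rw [← hg.2.1]
    exact (hg.1 a u).trans hau
  have e := hx (ap g a)
  rw [h1, zero_smul, add_zero, hg.2.2, div_self haa, one_smul] at e
  have h2 : f (ap g a) (ap g w) = 0 := (hg.1 a w).trans haw
  rw [e, uni_w hf hu hwu hau haa hx hg] at h2
  simp only [hf.add_left, hf.smul_left, add_right hf, smul_right hf, hu, huw, hau, hua, haw,
    map_neg] at h2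
  have h3 : -f (ap g a) w = σ (gam f a w g) * f a a := by linear_combination -h2
  rw [← h3]
  conv_lhs => rw [e]
  rw [add_comm]

lemma gam_mul {g h : GL (Fin 3) F} (hg : IsUni f u a g) (hh : IsUni f u a h) :
    gam f a w (g * h) = gam f a w g + gam f a w h := by
  have hua := (eq_zero_comm hf).mp hau
  have e := congrArg (fun x => f (ap g x) a / f a a) (uni_w hf hu hwu hau haa hx hh)
  simp only [ap_add, ap_smul, hg.2.1, uni_a hf hu hw hwu hau haw haa hx hg, hf.add_left,
    hf.smul_left, hua, hg.2.2] at e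
  show f (ap (g * h) w) a / f a a = _
  rw [ap_mul, e]
  show _ = f (ap g w) a / f a a + gam f a w h
  field_simp
  ring

omit hw hwu haw hx in
lemma IsUni.mul {g h : GL (Fin 3) F} (hg : IsUni f u a g) (hh : IsUni f u a h)
    (hga : ∃ α : F, ap g a = a + α • u) (hha : ∃ α : F, ap h a = a + α • u) :
    IsUni f u a (g * h) := by
  obtain ⟨α, hα⟩ := hga
  obtain ⟨β, hβ⟩ := hha
  refine ⟨mul_mem hg.1 hh.1, by rw [ap_mul, hh.2.1, hg.2.1], ?_⟩
  rw [ap_mul, hβ, ap_add, ap_smul, hg.2.1, hα]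
  simp [hf.add_left, hf.smul_left, (eq_zero_comm hf).mp hau]

omit hw haw hu hwu hx in
/-- An isometry of prime-power order fixing `u` is unipotent. -/
lemma isUni_of_pow {p : ℕ} [Fact p.Prime] [CharP F p] {g : GL (Fin 3) F} (hgI : g ∈ isom f)
    (hgu : ap g u = u) (hg : ∃ e : ℕ, g ^ p ^ e = 1)
    (hga : ∃ α δ : F, ap g a = α • u + δ • a) : IsUni f u a g := by
  refine ⟨hgI, hgu, ?_⟩
  obtain ⟨α, δ, hδ⟩ := hga
  have hua := (eq_zero_comm hf).mp hau
  have hN : ∀ N, ∃ β : F, ap (g ^ N) a = β • u + δ ^ N • a := by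
    intro N
    induction N with
    | zero => exact ⟨0, by simp⟩
    | succ N ih =>
      obtain ⟨β, hβ⟩ := ih
      refine ⟨β + δ ^ N * α, ?_⟩
      rw [pow_succ', ap_mul, hβ, ap_add, ap_smul, ap_smul, hgu, hδ]
      module
  obtain ⟨e, he⟩ := hg
  obtain ⟨β, hβ⟩ := hN (p ^ e)
  rw [he, ap_one] at hβ
  have h1 := congrArg (fun x => f x a) hβ
  simp only [hf.add_left, hf.smul_left, hua, mul_zero, zero_add] at h1
  have h2 : (δ - 1) ^ p ^ e = 0 := by
    rw [sub_pow_char_pow, one_pow, sub_eq_zero]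
    exact mul_right_cancel₀ haa (by rw [one_mul]; exact h1.symm)
  rw [hδ]
  simp [hf.add_left, hf.smul_left, hua, sub_eq_zero.mp (pow_eq_zero_iff
    (pow_ne_zero e (Fact.out : p.Prime).ne_zero) |>.mp h2)]

/-- The kernel consists of transvections. -/
lemma eq_T_of_gam {g : GL (Fin 3) F} (hg : IsUni f u a g) (h0 : gam f a w g = 0) :
    ∃ β, σ β = β ∧ g = T hf u β hu := by
  have huw : f u w = -1 := by rw [hf.skew, hwu, map_one]
  obtain ⟨β, hβ⟩ : ∃ β, β = -f (ap g w) w := ⟨_, rfl⟩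
  have e := uni_w hf hu hwu hau haa hx hg
  rw [h0, zero_smul, add_zero, ← hβ] at e
  have ea := uni_a hf hu hw hwu hau haw haa hx hg
  rw [h0, map_zero, zero_mul, zero_smul, add_zero] at ea
  refine ⟨β, ?_, gl_ext fun x => ?_⟩
  · have h := (hg.1 w w).trans hw
    change f (ap g w) (ap g w) = 0 at h
    rw [e] at h
    simp only [hf.add_left, hf.smul_left, add_right hf, smul_right hf, hu, hw, huw, hwu] at h
    linear_combination h
  · rw [ap_T hf]
    conv_lhs => rw [hx x]
    simp only [ap_add, ap_smul, hg.2.1, ea, e]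
    conv_rhs => arg 1; rw [hx x]
    module

/-- The square of a unipotent element in characteristic two. -/
lemma sq_eq_T (h2 : (2 : F) = 0) {g : GL (Fin 3) F} (hg : IsUni f u a g) :
    g * g = T hf u (gam f a w g * σ (gam f a w g) * f a a) hu := by
  have ea := uni_a hf hu hw hwu hau haw haa hx hg
  have ew := uni_w hf hu hwu hau haa hx hg
  obtain ⟨γ, hγ⟩ : ∃ γ, γ = gam f a w g := ⟨_, rfl⟩
  obtain ⟨β, hβ⟩ : ∃ β, β = -f (ap g w) w := ⟨_, rfl⟩
  rw [← hγ, ← hβ] at ew
  rw [← hγ] at ea ⊢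
  refine gl_ext fun x => ?_
  rw [ap_T hf, ap_mul]
  conv_lhs => rw [hx x]
  simp only [ap_add, ap_smul, hg.2.1, ea, ew]
  conv_rhs => arg 1; rw [hx x]
  match_scalars
  · linear_combination (f x u * β +
      (f x a / f a a) * (σ γ * f a a)) * h2
  · ring
  · linear_combination (f x u * γ) * h2

/-- Without pairs of transvections at one centre, commuting unipotent elements have proportional
coordinates. -/
lemma gam_ratio {g h : GL (Fin 3) F} (hg : IsUni f u a g) (hh : IsUni f u a h)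
    (hgh : g * h = h * g) :
    gam f a w h * σ (gam f a w g) = gam f a w g * σ (gam f a w h) := by
  have huw : f u w = -1 := by rw [hf.skew, hwu, map_one]
  have key : ∀ g h : GL (Fin 3) F, IsUni f u a g → IsUni f u a h →
      f (ap (g * h) w) w =
        f (ap h w) w + f (ap g w) w - gam f a w h * (σ (gam f a w g) * f a a) := by
    intro g h hg hh
    rw [ap_mul, uni_w hf hu hwu hau haa hx hh]
    simp only [ap_add, ap_smul, hg.2.1, uni_a hf hu hw hwu hau haw haa hx hg, hf.add_left,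
      hf.smul_left, hu, huw, haw, hw]
    ring
  have e := key g h hg hh
  rw [hgh, key h g hh hg] at e
  exact mul_right_cancel₀ haa (by linear_combination e)

end CfsgLib.Geometric.SUThree.Frame
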