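import Cfsg.Agent.Lib.Geometric.SUThree.FrameTransv
import Cfsg.Agent.Lib.Geometric.SUThree.FrameUni

/-!
The `p`-subgroups of a group with few transvections are small.
-/

set_option autoImplicit false

namespace CfsgLib.Geometric.SUThree.Frame

open Matrix Finset CfsgLib.Geometric CfsgLib.Geometric.Unitary

variable {F : Type*} [Field F] {σ : F ≃+* F} {f : (Fin 3 → F) → (Fin 3 → F) → F}

/-- No transvection in odd characteristic, at most one at each centre in characteristic two. -/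
def NoPair (hf : IsSkewForm σ f) (X : Subgroup (GL (Fin 3) F)) : Prop :=
  ∀ (u : Fin 3 → F) (hu : f u u = 0) (c : F), u ≠ 0 → σ c = c → c ≠ 0 → T hf u c hu ∈ X →
    (2 : F) = 0 ∧ ∀ c', σ c' = c' → c' ≠ 0 → T hf u c' hu ∈ X → c' = c

lemma T_zero (hf : IsSkewForm σ f) {u : Fin 3 → F} (hu : f u u = 0) : T hf u 0 hu = 1 :=
  gl_ext fun x => by rw [ap_T hf, zero_mul, zero_smul, add_zero, ap_one]

lemma T_inj (hf : IsSkewForm σ f) {u : Fin 3 → F} (hu : f u u = 0) (hu0 : u ≠ 0) {c c' : F}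
    (h : T hf u c hu = T hf u c' hu) : c = c' := by
  obtain ⟨⟨x, hx⟩, -⟩ := hf.nondegenerate u hu0
  have h1 := congrArg (fun g => ap g x) h
  simp only [ap_T hf, add_right_inj] at h1
  exact mul_right_cancel₀ hx (smul_left_injective F hu0 h1)

variable [Finite F] (hf : IsSkewForm σ f) {X : Subgroup (GL (Fin 3) F)} (hXI : X ≤ isom f)
include hf hXI

variable {u w a : Fin 3 → F} (hu : f u u = 0) (hu0 : u ≠ 0) (hau : f a u = 0) (haa : f a a ≠ 0)
include hu hu0 hau haa

omit hXI in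
/-- The unipotent elements of `X` at `u` and `a`. -/
lemma uni_exists_sub : ∃ U : Subgroup (GL (Fin 3) F), ∀ g, g ∈ U ↔ g ∈ X ∧ IsUni f u a g := by
  obtain ⟨w, hw, hwu, haw, hx⟩ := exists_frame_of_perp hf hu hu0 hau haa
  let M : Submonoid (GL (Fin 3) F) :=
    { carrier := {g | g ∈ X ∧ IsUni f u a g}
      one_mem' := ⟨one_mem X, one_mem _, ap_one u, by rw [ap_one]⟩
      mul_mem' := by
        rintro g h ⟨hg, hg'⟩ ⟨hh, hh'⟩
        exact ⟨mul_mem hg hh, IsUni.mul hf hu hau haa hg' hh'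
          ⟨_, uni_a hf hu hw hwu hau haw haa hx hg'⟩
          ⟨_, uni_a hf hu hw hwu hau haw haa hx hh'⟩⟩ }
  refine ⟨{ M with inv_mem' := fun {g} hg => ?_ }, fun g => Iff.rfl⟩
  have e : g⁻¹ = g ^ (orderOf g - 1) := by
    refine inv_eq_of_mul_eq_one_right ?_
    rw [← pow_succ', Nat.sub_add_cancel (orderOf_pos g), pow_orderOf_eq_one]
  rw [e]
  exact M.pow_mem hg _

variable (hw : f w w = 0) (hwu : f w u = 1) (haw : f a w = 0)
  (hx : ∀ x, x = (-f x w) • u + f x u • w + (f x a / f a a) • a) (hN : NoPair hf X)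
  {U : Subgroup (GL (Fin 3) F)} (hU : ∀ g, g ∈ U ↔ g ∈ X ∧ IsUni f u a g)
include hw hwu haw hx hN hU

omit hN hXI in
lemma gam_inv_mul {g h : GL (Fin 3) F} (hg : g ∈ U) (hh : h ∈ U)
    (he : gam f a w g = gam f a w h) : gam f a w (g⁻¹ * h) = 0 := by
  have := gam_mul hf hu hw hwu hau haw haa hx ((hU _).mp hg).2
    ((hU _).mp (mul_mem (inv_mem hg) hh)).2
  rw [mul_inv_cancel_left, ← he] at this
  linear_combination -this

omit hXI in
/-- The kernel of the coordinate. -/
lemma kernel_trivial (h2 : (2 : F) ≠ 0) {g : GL (Fin 3) F} (hg : g ∈ U)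
    (h0 : gam f a w g = 0) : g = 1 := by
  obtain ⟨β, hβ, rfl⟩ := eq_T_of_gam hf hu hw hwu hau haw haa hx ((hU _).mp hg).2 h0
  by_cases hβ0 : β = 0
  · rw [hβ0, T_zero]
  · exact absurd (hN u hu β hu0 hβ hβ0 ((hU _).mp hg).1).1 h2

omit hXI in
theorem card_uni_odd [Fintype F] [DecidableEq F] {q : ℕ} (hσ : CfsgLib.UMon.IsConj σ q)
    (h2 : (2 : F) ≠ 0) : Nat.card U ≤ q := by
  classical
  haveI : Fintype U := Fintype.ofFinite U
  rw [Nat.card_eq_fintype_card, ← Finset.card_univ]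
  have hinj : Function.Injective fun g : U => gam f a w (g : GL (Fin 3) F) := by
    intro g h he
    have := kernel_trivial hf hu hu0 hau haa hw hwu haw hx hN hU h2
      (mul_mem (inv_mem g.2) h.2) (gam_inv_mul hf hu hu0 hau haa hw hwu haw hx hU g.2 h.2 he)
    exact Subtype.ext (inv_mul_eq_one.mp this)
  rw [← card_image_of_injective univ hinj]
  by_cases hz : ∀ g : U, gam f a w (g : GL (Fin 3) F) = 0
  · refine (card_le_card (t := {0}) fun x hx' => ?_).trans (by simp; have := hσ.two_le; omega)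
    obtain ⟨g, -, rfl⟩ := mem_image.mp hx'
    simp [hz g]
  push Not at hz
  obtain ⟨g₀, hg₀⟩ := hz
  rw [← CfsgLib.UMon.card_fxd hσ,
    ← card_image_of_injective (CfsgLib.UMon.fxd σ) (mul_right_injective₀ hg₀)]
  refine card_le_card fun x hx' => ?_
  obtain ⟨g, -, rfl⟩ := mem_image.mp hx'
  refine mem_image.mpr ⟨gam f a w (g : GL (Fin 3) F) / gam f a w g₀, ?_, mul_div_cancel₀ _ hg₀⟩
  simp only [CfsgLib.UMon.fxd, mem_filter, mem_univ, true_and]
  have hcomm : (g₀ : GL (Fin 3) F) * g = g * g₀ := by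
    have h1 := ((hU _).mp g₀.2).2
    have h2' := ((hU _).mp g.2).2
    have he : gam f a w ((g : GL (Fin 3) F) * g₀) = gam f a w ((g₀ : GL (Fin 3) F) * g) := by
      rw [gam_mul hf hu hw hwu hau haw haa hx h1 h2', gam_mul hf hu hw hwu hau haw haa hx h2' h1,
        add_comm]
    have := kernel_trivial hf hu hu0 hau haa hw hwu haw hx hN hU h2
      (mul_mem (inv_mem (mul_mem g.2 g₀.2)) (mul_mem g₀.2 g.2))
      (gam_inv_mul hf hu hu0 hau haa hw hwu haw hx hU (mul_mem g.2 g₀.2) (mul_mem g₀.2 g.2) he)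
    exact (inv_mul_eq_one.mp this).symm
  have hr := gam_ratio hf hu hw hwu hau haw haa hx ((hU _).mp g₀.2).2 ((hU _).mp g.2).2 hcomm
  rw [map_div₀, div_eq_div_iff ((map_ne_zero σ).mpr hg₀) hg₀]
  linear_combination -hr

omit hXI in
/-- In characteristic two the nonzero coordinates have one norm. -/
lemma norm_eq (h2 : (2 : F) = 0) {g h : GL (Fin 3) F} (hg : g ∈ U) (hh : h ∈ U)
    (hg0 : gam f a w g ≠ 0) (hh0 : gam f a w h ≠ 0) :
    gam f a w g * σ (gam f a w g) = gam f a w h * σ (gam f a w h) := by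
  have hA : σ (f a a) = f a a := by
    rw [skew_self hf]; linear_combination -(f a a) * h2
  have hne : ∀ γ : F, γ ≠ 0 → γ * σ γ * f a a ≠ 0 := fun γ hγ =>
    mul_ne_zero (mul_ne_zero hγ ((map_ne_zero σ).mpr hγ)) haa
  have hfix : ∀ γ : F, σ (γ * σ γ * f a a) = γ * σ γ * f a a := fun γ => by
    rw [map_mul, map_mul, hf.involutive, hA]; ring
  have hT : ∀ g ∈ U, T hf u (gam f a w g * σ (gam f a w g) * f a a) hu ∈ X := fun g hg => by
    rw [← sq_eq_T hf hu hw hwu hau haw haa hx h2 ((hU _).mp hg).2]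
    exact mul_mem ((hU _).mp hg).1 ((hU _).mp hg).1
  exact mul_right_cancel₀ haa
    ((hN u hu _ hu0 (hfix _) (hne _ hh0) (hT h hh)).2 _ (hfix _) (hne _ hg0) (hT g hg))

omit hXI in
/-- In characteristic two the ratios of nonzero coordinates are cube roots of unity. -/
lemma ratio_cube (h2 : (2 : F) = 0) {g h : GL (Fin 3) F} (hg : g ∈ U) (hh : h ∈ U)
    (hg0 : gam f a w g ≠ 0) (hh0 : gam f a w h ≠ 0) :
    (gam f a w g / gam f a w h) ^ 3 = 1 := by
  obtain ⟨r, hr⟩ : ∃ r, r = gam f a w g / gam f a w h := ⟨_, rfl⟩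
  have hgr : gam f a w g = r * gam f a w h := by rw [hr, div_mul_cancel₀ _ hh0]
  rw [← hr]
  by_cases h1 : r = 1
  · rw [h1, one_pow]
  have hN1 := norm_eq hf hu hu0 hau haa hw hwu haw hx hN hU h2 hg hh hg0 hh0
  have hσh : σ (gam f a w h) ≠ 0 := (map_ne_zero σ).mpr hh0
  have e1 : r * σ r = 1 := by
    rw [hgr, map_mul] at hN1
    exact mul_right_cancel₀ (mul_ne_zero hh0 hσh) (by linear_combination hN1)
  have hm := gam_mul hf hu hw hwu hau haw haa hx ((hU _).mp hg).2 ((hU _).mp hh).2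
  rw [hgr] at hm
  have hne : gam f a w (g * h) ≠ 0 := by
    rw [hm]
    intro e
    have : (r + 1) * gam f a w h = 0 := by linear_combination e
    exact h1 (by linear_combination (mul_eq_zero.mp this).resolve_right hh0 - h2)
  have hN2 := norm_eq hf hu hu0 hau haa hw hwu haw hx hN hU h2 (mul_mem hg hh) hh hne hh0
  rw [hm] at hN2
  simp only [map_add, map_mul] at hN2
  have e2 : (r + 1) * (σ r + 1) = 1 :=
    mul_right_cancel₀ (mul_ne_zero hh0 hσh) (by linear_combination hN2)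
  have e3 : r ^ 2 + r + 1 = 0 := by linear_combination r * e2 - (r + 1) * e1 + r * 0 * h2
  linear_combination (r - 1) * e3

omit hXI in
theorem card_uni_even [Fintype F] [DecidableEq F] (h2 : (2 : F) = 0) : Nat.card U ≤ 8 := by
  classical
  haveI : Fintype U := Fintype.ofFinite U
  rw [Nat.card_eq_fintype_card, ← Finset.card_univ]
  have h1 : (univ : Finset U).card ≤
      2 * ((univ : Finset U).image fun g : U => gam f a w (g : GL (Fin 3) F)).card := by
    refine card_le_mul_card_image univ 2 fun b hb => ?_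
    obtain ⟨g, -, rfl⟩ := mem_image.mp hb
    have huniq : ∀ s ∈ U, ∀ t ∈ U, gam f a w s = 0 → gam f a w t = 0 → s ≠ 1 → t ≠ 1 → s = t := by
      intro s hs t ht hs0 ht0 hs1 ht1
      obtain ⟨β, hβ, rfl⟩ := eq_T_of_gam hf hu hw hwu hau haw haa hx ((hU _).mp hs).2 hs0
      obtain ⟨γ, hγ, rfl⟩ := eq_T_of_gam hf hu hw hwu hau haw haa hx ((hU _).mp ht).2 ht0
      have hβ0 : β ≠ 0 := fun h => hs1 (by rw [h, T_zero])
      have hγ0 : γ ≠ 0 := fun h => ht1 (by rw [h, T_zero])
      rw [(hN u hu γ hu0 hγ hγ0 ((hU _).mp ht).1).2 β hβ hβ0 ((hU _).mp hs).1]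
    by_cases hk : ∃ t : U, gam f a w (t : GL (Fin 3) F) = 0 ∧ (t : GL (Fin 3) F) ≠ 1
    · obtain ⟨t, ht0, ht1⟩ := hk
      refine (card_le_card (t := {g, g * t}) fun h hh => ?_).trans card_le_two
      have he := (mem_filter.mp hh).2
      by_cases h1 : ((g⁻¹ * h : U) : GL (Fin 3) F) = 1
      · have : g⁻¹ * h = 1 := Subtype.ext h1
        simp [inv_mul_eq_one.mp this]
      · have := huniq _ (g⁻¹ * h).2 _ t.2
          (by rw [Subgroup.coe_mul, Subgroup.coe_inv]
              exact gam_inv_mul hf hu hu0 hau haa hw hwu haw hx hU g.2 h.2 he.symm) ht0 h1 ht1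
        rw [← Subtype.ext this, mul_inv_cancel_left]
        simp
    · push Not at hk
      refine (card_le_card (t := {g}) fun h hh => ?_).trans (by simp)
      have he := (mem_filter.mp hh).2
      have := hk (g⁻¹ * h) (by
        rw [Subgroup.coe_mul, Subgroup.coe_inv]
        exact gam_inv_mul hf hu hu0 hau haa hw hwu haw hx hU g.2 h.2 he.symm)
      rw [mem_singleton, inv_mul_eq_one.mp (Subtype.ext this : g⁻¹ * h = 1)]
  have h4 : ((univ : Finset U).image fun g : U => gam f a w (g : GL (Fin 3) F)).card ≤ 4 := by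
    by_cases hz : ∀ g : U, gam f a w (g : GL (Fin 3) F) = 0
    · refine (card_le_card (t := {0}) fun x hx' => ?_).trans (by simp)
      obtain ⟨g, -, rfl⟩ := mem_image.mp hx'
      simp [hz g]
    push Not at hz
    obtain ⟨g₀, hg₀⟩ := hz
    refine (card_le_card (t := insert 0 ((Polynomial.nthRoots 3 (1 : F)).toFinset.image
      (· * gam f a w g₀))) fun x hx' => ?_).trans ((card_insert_le _ _).trans ?_)
    · obtain ⟨g, -, rfl⟩ := mem_image.mp hx'
      rw [mem_insert]
      refine or_iff_not_imp_left.mpr fun hne => mem_image.mpr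
        ⟨_, ?_, div_mul_cancel₀ _ hg₀⟩
      rw [Multiset.mem_toFinset, Polynomial.mem_nthRoots (by norm_num)]
      exact ratio_cube hf hu hu0 hau haa hw hwu haw hx hN hU h2 g.2 g₀.2 hne hg₀
    · have := card_image_le (s := (Polynomial.nthRoots 3 (1 : F)).toFinset)
        (f := (· * gam f a w g₀))
      have := (Multiset.toFinset_card_le _).trans (Polynomial.card_nthRoots 3 (1 : F))
      omega
  omega

end CfsgLib.Geometric.SUThree.Frame

namespace CfsgLib.Geometric.SUThree.Frame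

open Matrix Finset CfsgLib.Geometric CfsgLib.Geometric.Unitary

variable {F : Type*} [Field F] [Finite F] {σ : F ≃+* F} {f : (Fin 3 → F) → (Fin 3 → F) → F}
  (hf : IsSkewForm σ f) {p : ℕ} [Fact p.Prime] [CharP F p] {P : Subgroup (GL (Fin 3) F)}
  (hP : IsPGroup p P)

include hP in
/-- A `p`-group fixes a nonzero vector of every invariant subspace. -/
lemma exists_fixed_mem (W : Submodule F (Fin 3 → F)) (hW : W ≠ ⊥)
    (hinv : ∀ g ∈ P, ∀ x ∈ W, ap g x ∈ W) : ∃ v ∈ W, v ≠ 0 ∧ ∀ g ∈ P, ap g v = v := by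
  letI : MulAction P W :=
    { smul := fun g x => ⟨ap (g : GL (Fin 3) F) x, hinv _ g.2 _ x.2⟩
      one_smul := fun x => Subtype.ext (ap_one _)
      mul_smul := fun g h x => Subtype.ext (ap_mul _ _ _) }
  haveI : Finite W := inferInstance
  have hdvd : p ∣ Nat.card W := by
    haveI := Fintype.ofFinite F
    obtain ⟨m, -, hm⟩ := FiniteField.card F p
    rw [Module.natCard_eq_pow_finrank (K := F) (V := W), Nat.card_eq_fintype_card, hm, ← pow_mul]
    refine dvd_pow_self p (mul_ne_zero m.ne_zero ?_)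
    rwa [Ne, Submodule.finrank_eq_zero]
  have h0 : (0 : W) ∈ MulAction.fixedPoints P W := fun g => Subtype.ext (ap_zero _)
  obtain ⟨v, hv, hne⟩ := hP.exists_fixed_point_of_prime_dvd_card_of_fixed_point W hdvd h0
  exact ⟨v, v.2, fun h => hne (Subtype.ext h.symm), fun g hg => congrArg Subtype.val (hv ⟨g, hg⟩)⟩

variable (hPI : P ≤ isom f)
include hf hP hPI

omit hP in
lemma inv_perp {v : Fin 3 → F} (hv : ∀ g ∈ P, ap g v = v) {g : GL (Fin 3) F} (hg : g ∈ P)
    {x : Fin 3 → F} (hxv : f x v = 0) : f (ap g x) v = 0 := by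
  rw [← hv g hg]
  exact (hPI hg x v).trans hxv

/-- A non-trivial `p`-group of isometries fixes an isotropic vector. -/
lemma exists_fixed_isotropic (hne : P ≠ ⊥) :
    ∃ u, f u u = 0 ∧ u ≠ 0 ∧ ∀ g ∈ P, ap g u = u := by
  obtain ⟨v, -, hv0, hv⟩ := exists_fixed_mem hP (⊤ : Submodule F (Fin 3 → F)) top_ne_bot
    fun _ _ _ _ => trivial
  by_cases hvv : f v v = 0
  · exact ⟨v, hvv, hv0, hv⟩
  obtain ⟨y, -, hy0, hy⟩ := exists_ne_zero_map_eq_zero (k := 1) (⊤ : Submodule F (Fin 3 → F))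
    (LinearMap.pi ![fl hf v]) (by simp [finrank_top])
  have hW : perp hf (Submodule.span F {v}) ≠ ⊥ := fun h => hy0 ((Submodule.mem_bot F).mp
    (h ▸ (mem_perp_span hf).mpr (congrFun hy 0)))
  obtain ⟨w, hwW, hw0, hw⟩ := exists_fixed_mem hP _ hW fun g hg x hx =>
    (mem_perp_span hf).mpr (inv_perp hf hPI hv hg ((mem_perp_span hf).mp hx))
  by_cases hww : f w w = 0
  · exact ⟨w, hww, hw0, hw⟩
  refine absurd ((Subgroup.eq_bot_iff_forall _).mpr fun g hg => ?_) hne
  have hwv : f w v = 0 := (mem_perp_span hf).mp hwW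
  have hvw := (eq_zero_comm hf).mp hwv
  obtain ⟨z, -, hz0, hz⟩ := exists_ne_zero_map_eq_zero (k := 2) (⊤ : Submodule F (Fin 3 → F))
    (LinearMap.pi ![fl hf v, fl hf w]) (by simp [finrank_top])
  have hzv : f z v = 0 := congrFun hz 0
  have hzw : f z w = 0 := congrFun hz 1
  have hli : LinearIndependent F ![v, w, z] := by
    rw [Fintype.linearIndependent_iff]
    intro c hc
    simp only [Fin.sum_univ_three, Matrix.cons_val_zero, Matrix.cons_val_one,
      Matrix.cons_val_two, Matrix.tail_cons, Matrix.head_cons] at hc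
    have h0 : c 0 = 0 := by
      have := congrArg (fun x => f x v) hc
      simpa [hf.add_left, hf.smul_left, hwv, hzv, zero_left hf, hvv] using this
    have h1 : c 1 = 0 := by
      have := congrArg (fun x => f x w) hc
      simpa [hf.add_left, hf.smul_left, hvw, hzw, zero_left hf, hww] using this
    rw [h0, h1, zero_smul, zero_smul, zero_add, zero_add] at hc
    intro l
    fin_cases l
    exacts [h0, h1, (smul_eq_zero.mp hc).resolve_right hz0]
  have hsp : Submodule.span F (Set.range ![v, w, z]) = ⊤ :=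
    hli.span_eq_top_of_card_eq_finrank (by simp)
  have hcoord : ∀ x, ∃ c : Fin 3 → F, x = c 0 • v + c 1 • w + c 2 • z := fun x => by
    obtain ⟨c, hc⟩ := (Submodule.mem_span_range_iff_exists_fun F).mp
      (hsp ▸ Submodule.mem_top : x ∈ Submodule.span F (Set.range ![v, w, z]))
    refine ⟨c, ?_⟩
    rw [← hc, Fin.sum_univ_three]
    rfl
  obtain ⟨c, hc⟩ := hcoord (ap g z)
  have h0 : c 0 = 0 := by
    have := inv_perp hf hPI hv hg hzv
    rw [hc, hf.add_left, hf.add_left, hf.smul_left, hf.smul_left, hf.smul_left, hwv, hzv] at this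
    simpa [hvv] using this
  have h1 : c 1 = 0 := by
    have := inv_perp hf hPI hw hg hzw
    rw [hc, hf.add_left, hf.add_left, hf.smul_left, hf.smul_left, hf.smul_left, hvw, hzw] at this
    simpa [hww] using this
  rw [h0, h1, zero_smul, zero_smul, zero_add, zero_add] at hc
  have hN : ∀ N, ap (g ^ N) z = c 2 ^ N • z := by
    intro N
    induction N with
    | zero => simp
    | succ N ih => rw [pow_succ', ap_mul, ih, ap_smul, hc, smul_smul, ← pow_succ]
  obtain ⟨e, he⟩ := hP ⟨g, hg⟩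
  have he' : g ^ p ^ e = 1 := congrArg Subtype.val he
  have hz1 := hN (p ^ e)
  rw [he', ap_one] at hz1
  have hce : c 2 ^ p ^ e = 1 := by
    have := sub_eq_zero.mpr hz1
    rw [← one_smul F z, smul_smul, mul_one, ← sub_smul] at this
    exact (sub_eq_zero.mp ((smul_eq_zero.mp this).resolve_right hz0)).symm
  have hc2 : c 2 = 1 := by
    have h2 : (c 2 - 1) ^ p ^ e = 0 := by rw [sub_pow_char_pow, one_pow, hce, sub_self]
    exact sub_eq_zero.mp (pow_eq_zero_iff (pow_ne_zero e (Fact.out : p.Prime).ne_zero) |>.mp h2)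
  rw [hc2, one_smul] at hc
  refine gl_ext fun x => ?_
  obtain ⟨d, rfl⟩ := hcoord x
  simp only [ap_add, ap_smul, hv g hg, hw g hg, hc, ap_one]

/-- A `p`-group fixing an isotropic vector is unipotent there. -/
lemma isUni_of_fix {u a : Fin 3 → F} (hu : f u u = 0) (hu0 : u ≠ 0) (hau : f a u = 0)
    (haa : f a a ≠ 0) {g : GL (Fin 3) F} (hg : g ∈ P) (hfix : ∀ h ∈ P, ap h u = u) :
    IsUni f u a g := by
  obtain ⟨w, hw, hwu, haw, hx⟩ := exists_frame_of_perp hf hu hu0 hau haa
  obtain ⟨e, he⟩ := hP ⟨g, hg⟩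
  refine isUni_of_pow hf hau haa (hPI hg) (hfix g hg) ⟨e, congrArg Subtype.val he⟩
    ⟨-f (ap g a) w, f (ap g a) a / f a a, ?_⟩
  have h := hx (ap g a)
  rwa [inv_perp hf hPI hfix hg hau, zero_smul, add_zero] at h

omit hPI in
/-- The orders of the `p`-subgroups. -/
theorem card_pGroup_dvd [Fintype F] [DecidableEq F] {q n : ℕ} (hσ : CfsgLib.UMon.IsConj σ q)
    (hqn : q = p ^ n) {X : Subgroup (GL (Fin 3) F)} (hXI : X ≤ isom f) (hN : NoPair hf X)
    (hPX : P ≤ X) :
    ((2 : F) ≠ 0 → Nat.card P ∣ q) ∧ ((2 : F) = 0 → Nat.card P ∣ 8) := by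
  by_cases hne : P = ⊥
  · simp [hne]
  have hPI : P ≤ isom f := hPX.trans hXI
  obtain ⟨u, hu, hu0, hfix⟩ := exists_fixed_isotropic hf hP hPI hne
  obtain ⟨w, hw, hwu⟩ := exists_partner hf hu hu0
  obtain ⟨a, hau, haw, haa, hx⟩ := exists_frame hf hu hw hwu
  obtain ⟨U, hU⟩ := uni_exists_sub hf (X := X) hu hu0 hau haa
  have hPU : P ≤ U := fun g hg =>
    (hU g).mpr ⟨hPX hg, isUni_of_fix hf hP hPI hu hu0 hau haa hg hfix⟩
  have hcard : Nat.card P ≤ Nat.card U :=
    Nat.card_le_card_of_injective (Subgroup.inclusion hPU) (Subgroup.inclusion_injective hPU)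
  obtain ⟨e, he⟩ := IsPGroup.iff_card.mp hP
  refine ⟨fun h2 => ?_, fun h2 => ?_⟩
  · have := hcard.trans (card_uni_odd hf hu hu0 hau haa hw hwu haw hx hN hU hσ h2)
    rw [he, hqn] at this ⊢
    exact pow_dvd_pow p ((Nat.pow_le_pow_iff_right (Fact.out : p.Prime).one_lt).mp this)
  · have := hcard.trans (card_uni_even hf hu hu0 hau haa hw hwu haw hx hN hU h2)
    have hp2 : p = 2 := by
      have h' : ((2 : ℕ) : F) = 0 := by exact_mod_cast h2
      exact (Nat.prime_dvd_prime_iff_eq Fact.out Nat.prime_two).mp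
        ((CharP.cast_eq_zero_iff F p 2).mp h')
    rw [he, hp2, show (8 : ℕ) = 2 ^ 3 from rfl] at this ⊢
    exact pow_dvd_pow 2 ((Nat.pow_le_pow_iff_right Nat.one_lt_two).mp this)

omit hP hPI in
/-- An involutory transvection which is unipotent at `u` has centre `u`. -/
lemma centre_eq {u w a : Fin 3 → F} (hu : f u u = 0) (hu0 : u ≠ 0) (hw : f w w = 0)
    (hwu : f w u = 1) (hau : f a u = 0) (haw : f a w = 0) (haa : f a a ≠ 0)
    (hx : ∀ x, x = (-f x w) • u + f x u • w + (f x a / f a a) • a) (h2 : (2 : F) = 0)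
    {v : Fin 3 → F} {c : F} (hv : f v v = 0) (hc : c ≠ 0) (hv0 : v ≠ 0)
    (ht : IsUni f u a (T hf v c hv)) : ∃ k : F, v = k • u := by
  have hsq : T hf v c hv * T hf v c hv = T hf u 0 hu := by
    rw [T_zero]
    refine gl_ext fun x => ?_
    rw [ap_mul, ap_T hf, ap_T hf, hf.add_left, hf.smul_left, hv, mul_zero, add_zero, ap_one,
      add_assoc, ← two_smul F, h2, zero_smul, add_zero]
  have h0 : gam f a w (T hf v c hv) = 0 := by
    have := T_inj hf hu hu0 ((sq_eq_T hf hu hw hwu hau haw haa hx h2 ht).symm.trans hsq)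
    rcases mul_eq_zero.mp ((mul_eq_zero.mp this).resolve_right haa) with h | h
    exacts [h, (map_eq_zero σ).mp h]
  obtain ⟨β, -, hβ⟩ := eq_T_of_gam hf hu hw hwu hau haw haa hx ht h0
  obtain ⟨⟨x, hxv⟩, -⟩ := hf.nondegenerate v hv0
  have h1 := congrArg (fun g => ap g x) hβ
  simp only [ap_T hf, add_right_inj] at h1
  refine ⟨(c * f x v)⁻¹ * (β * f x u), ?_⟩
  rw [mul_smul, ← h1, smul_smul, inv_mul_cancel₀ (mul_ne_zero hc hxv), one_smul]

end CfsgLib.Geometric.SUThree.Frame
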