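import Cfsg.Agent.Lib.Geometric.SUThree.FrameGroup
import Cfsg.Agent.Lib.Geometric.SUThree.FramePPart

/-!
The exceptional indices for `q = 4` and `q = 8` do not occur.
-/

set_option autoImplicit false

namespace CfsgLib.Geometric.SUThree.Frame

open Matrix Finset CfsgLib.UMon CfsgLib.Geometric CfsgLib.Geometric.Unitary

variable {F : Type*} [Field F] [Fintype F] [DecidableEq F] {σ : F ≃+* F} {q p n : ℕ} {ζ : F}

local notation "e[" j "]" => (Pi.single j (1 : _) : Fin 3 → _)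

variable {X : Subgroup (GL (Fin 3) F)} (hσ : IsConj σ q) [Fact p.Prime] [CharP F p]
  (hqn : q = p ^ n) (hq : 3 ≤ q) (hX : X ≤ GUs σ)
  (hXS : X ≤ Cfsg.Geo.specialLinear (Fin 3) F) (hM : MonIn σ X) (hζ : ζ ≠ 0) (hζσ : σ ζ = -ζ)
  (hf : IsSkewForm σ (fun u v : Fin 3 → F => ζ * hb σ u v)) (hT : ¬ HasT hf X)
include hσ hqn hq hX hXS hM hζ hζσ hf hT

omit hXS hζσ in
lemma noPair_of_not_hasT : NoPair hf X := by
  intro u hu c hu0 hc hc0 hmem
  have h2 : (2 : F) = 0 := by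
    by_contra h
    exact hT (hasT_of_T_mem hσ hX hζ hf hu hc hc0 hmem (Or.inl h) hqn hq hM hu0)
  refine ⟨h2, fun c' hc' hc'0 hmem' => ?_⟩
  by_contra h
  exact hT (hasT_of_T_mem hσ hX hζ hf hu hc hc0 hmem (Or.inr ⟨c', hc', hc'0, h, hmem'⟩) hqn hq hM
    hu0)

/-- The data of the involution in characteristic two. -/
structure Inv2 (hf : IsSkewForm σ (fun u v : Fin 3 → F => ζ * hb σ u v))
    (X : Subgroup (GL (Fin 3) F)) where
  two : (2 : F) = 0
  U : Subgroup (GL (Fin 3) F)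
  v : Fin 3 → F
  hv : ζ * hb σ v v = 0
  v0 : v ≠ 0
  hvd : ∀ {a b : F}, a ∈ cir σ → b ∈ cir σ →
    ap (dia (tri (0 : Fin 3) 1 a b b)) v = b • v
  ha : ζ * hb σ (e[(0 : Fin 3)] : Fin 3 → F) v = 0
  memT : T hf v ζ⁻¹ hv ∈ X
  hU : ∀ g, g ∈ U ↔ g ∈ X ∧ ap g v = v
  hUuni : ∀ g ∈ U, IsUni (fun u v : Fin 3 → F => ζ * hb σ u v) v (e[(0 : Fin 3)]) g

omit hqn hq hT [Fact p.Prime] [CharP F p] in
theorem exists_inv2 (h2 : (2 : F) = 0) : Nonempty (Inv2 hf X) := by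
  have hneg : ∀ y : F, -y = y := fun y => by linear_combination -y * h2
  let v : Fin 3 → F := tri 0 1 0 1 1
  have hv0' : v 0 = 0 := tri_fst _ _ _ _ _
  have hv1 : v 1 = 1 := tri_snd (by decide) _ _ _
  have hv2 : v 2 = 1 := tri_thd (by decide) (by decide) _ _ _
  have hsum : ∀ g : Fin 3 → F, ∑ l, g l = g 0 + g 1 + g 2 := fun g => Fin.sum_univ_three g
  have hv : ζ * hb σ v v = 0 := by
    rw [hb, hsum, hv0', hv1, hv2, map_one]; linear_combination ζ * h2
  have hd1 : ∀ l, tri (0 : Fin 3) 1 1 1 1 l ≠ (0 : F) := fun l => by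
    simp only [tri]; split_ifs <;> simp
  have hT : T hf v ζ⁻¹ hv ∈ X := by
    have e : T hf v ζ⁻¹ hv = mo (Equiv.swap 1 2) (tri (0 : Fin 3) 1 1 1 1) := by
      refine gl_ext fun y => funext fun m => ?_
      rw [ap_T hf, ap_mo hd1, Equiv.symm_swap, Pi.add_apply, Pi.smul_apply, smul_eq_mul,
        ← mul_assoc, inv_mul_cancel₀ hζ, one_mul, hb, hsum, hv0', hv1, hv2, map_zero, map_one]
      fin_cases m
      · simp [v, tri, Equiv.swap_apply_of_ne_of_ne]
      · simp [v, tri]; linear_combination y 1 * h2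
      · simp [v, tri]; linear_combination y 2 * h2
    rw [e]
    exact tri_swap_mem hM (by decide) (by decide) (by decide) one_mem_cir one_mem_cir one_mem_cir
      (by rw [one_mul, one_mul, hneg])
  have ha : ζ * hb σ (e[(0 : Fin 3)] : Fin 3 → F) v = 0 := by
    rw [hb_single_left, hv0', map_zero, mul_zero, mul_zero]
  have hvne : v ≠ 0 := fun h => one_ne_zero (α := F) (by rw [← hv1, h]; rfl)
  have haa : ζ * hb σ (e[(0 : Fin 3)] : Fin 3 → F) e[(0 : Fin 3)] ≠ 0 := by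
    rw [hb_single_self, mul_one]; exact hζ
  obtain ⟨w, hw, hwu, haw, hx⟩ := exists_frame_of_perp hf hv hvne ha haa
  let U : Subgroup (GL (Fin 3) F) :=
    { carrier := {g | g ∈ X ∧ ap g v = v}
      one_mem' := ⟨one_mem X, ap_one v⟩
      mul_mem' := fun {a b} ha hb => ⟨mul_mem ha.1 hb.1, by rw [ap_mul, hb.2, ha.2]⟩
      inv_mem' := fun {a} ha => ⟨inv_mem ha.1,
        (congrArg (ap a⁻¹) ha.2).symm.trans (ap_inv_ap a v)⟩ }
  refine ⟨⟨h2, U, v, hv, hvne, ?_, ha, hT, fun g => Iff.rfl, ?_⟩⟩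
  · intro a b ha hb'
    funext l
    rw [ap_dia (fun l => ne_zero_of_mem_cir (tri_mem_cir ha hb' hb' l)), Pi.smul_apply, smul_eq_mul]
    simp only [v, tri]
    split_ifs <;> simp
  rintro g ⟨hg, hgv⟩
  have hgI : g ∈ isom (fun u v : Fin 3 → F => ζ * hb σ u v) := by rw [isom_eq hζ]; exact hX hg
  refine ⟨hgI, hgv, ?_⟩
  have hw0 : w 0 = 0 := by
    change ζ * hb σ (e[(0 : Fin 3)] : Fin 3 → F) w = 0 at haw
    rw [hb_single_left, one_mul] at haw
    exact (map_eq_zero σ).mp ((mul_eq_zero.mp haw).resolve_left hζ)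
  have hww : w 1 + w 2 ≠ 0 := by
    change ζ * hb σ w v = 1 at hwu
    rw [hb, hsum, hw0, hv1, hv2, map_one, zero_mul, zero_add, mul_one, mul_one] at hwu
    intro h
    rw [h, mul_zero] at hwu
    exact zero_ne_one hwu
  obtain ⟨α, δ, hgα⟩ : ∃ α δ : F, ap g e[(0 : Fin 3)] = α • v + δ • e[(0 : Fin 3)] ∧
      ζ * hb σ (ap g e[(0 : Fin 3)]) e[(0 : Fin 3)] =
        δ * (ζ * hb σ (e[(0 : Fin 3)] : Fin 3 → F) e[(0 : Fin 3)]) := by
    have e := hx (ap g e[(0 : Fin 3)])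
    have h1 : ζ * hb σ (ap g e[(0 : Fin 3)]) v = 0 := by
      conv_lhs => rw [← hgv]
      exact (hgI _ v).trans ha
    rw [h1, zero_smul, add_zero] at e
    exact ⟨_, _, e, (div_mul_cancel₀ _ haa).symm⟩
  obtain ⟨hga, hδ⟩ := hgα
  have hgw := hx (ap g w)
  have hε : ζ * hb σ (ap g w) v = 1 := by
    conv_lhs => rw [← hgv]
    exact (hgI _ v).trans hwu
  rw [hε, one_smul] at hgw
  obtain ⟨β, γ, hgw⟩ : ∃ β γ : F, ap g w = β • v + w + γ • e[(0 : Fin 3)] := ⟨_, _, hgw⟩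
  let B : Matrix (Fin 3) (Fin 3) F := Matrix.of fun i c => (![v, w, e[(0 : Fin 3)]] c) i
  let N : Matrix (Fin 3) (Fin 3) F := !![1, β, α; 0, 1, 0; 0, γ, δ]
  have hBN : (g : Matrix (Fin 3) (Fin 3) F) * B = B * N := by
    ext i c
    have h : ((g : Matrix (Fin 3) (Fin 3) F) * B) i c = ap g (![v, w, e[(0 : Fin 3)]] c) i := rfl
    rw [h]
    fin_cases c
    · simp [hgv, B, N, Matrix.mul_apply, Fin.sum_univ_three]
    · simp [hgw, B, N, Matrix.mul_apply, Fin.sum_univ_three]; ring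
    · simp [hga, B, N, Matrix.mul_apply, Fin.sum_univ_three]; ring
  have hdet := congrArg Matrix.det hBN
  rw [Matrix.det_mul, Matrix.det_mul, (mem_specialLinear_iff _).mp (hXS hg), one_mul,
    show N.det = δ by simp [N, Matrix.det_fin_three]] at hdet
  have hB : B.det ≠ 0 := by
    have : B.det = w 2 - w 1 := by
      simp [B, Matrix.det_fin_three, hv0', hv1, hv2, hw0]
    rw [this, show w 2 - w 1 = w 1 + w 2 by linear_combination -(w 1) * h2]
    exact hww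
  have hδ1 : δ = 1 := mul_left_cancel₀ hB (by rw [← hdet, mul_one])
  show ζ * hb σ (ap g e[(0 : Fin 3)]) e[(0 : Fin 3)] = _
  rw [hδ, hδ1, one_mul]

/-- A frame at the centre. -/
lemma exists_frame_inv2 (I : Inv2 hf X) : ∃ w, ζ * hb σ w w = 0 ∧ ζ * hb σ w I.v = 1 ∧
    ζ * hb σ (e[(0 : Fin 3)] : Fin 3 → F) w = 0 ∧
    ∀ x, x = (-(ζ * hb σ x w)) • I.v + (ζ * hb σ x I.v) • w +
      (ζ * hb σ x e[(0 : Fin 3)] / (ζ * hb σ (e[(0 : Fin 3)] : Fin 3 → F) e[(0 : Fin 3)])) •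
        e[(0 : Fin 3)] :=
  exists_frame_of_perp hf I.hv I.v0 I.ha (by rw [hb_single_self, mul_one]; exact hζ)

lemma inv_fixed (h2 : (2 : F) = 0) : σ ζ⁻¹ = ζ⁻¹ := by
  rw [map_inv₀, hζσ, show -ζ = ζ by linear_combination -ζ * h2]

/-- Squares in the stabiliser. -/
lemma sq_mem (I : Inv2 hf X) {g : GL (Fin 3) F} (hg : g ∈ I.U) :
    g * g = 1 ∨ g * g = T hf I.v ζ⁻¹ I.hv := by
  obtain ⟨w, hw, hwu, haw, hx⟩ := exists_frame_inv2 hσ hqn hq hX hXS hM hζ hζσ hf hT I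
  have haa : ζ * hb σ (e[(0 : Fin 3)] : Fin 3 → F) e[(0 : Fin 3)] ≠ 0 := by
    rw [hb_single_self, mul_one]; exact hζ
  have e := sq_eq_T hf I.hv hw hwu I.ha haw haa hx I.two (I.hUuni g hg)
  set c := gam (fun u v : Fin 3 → F => ζ * hb σ u v) e[(0 : Fin 3)] w g *
    σ (gam (fun u v : Fin 3 → F => ζ * hb σ u v) e[(0 : Fin 3)] w g) *
    (ζ * hb σ (e[(0 : Fin 3)] : Fin 3 → F) e[(0 : Fin 3)]) with hc
  by_cases h0 : c = 0
  · left; rw [e, h0, T_zero]
  right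
  have hcσ : σ c = c := by
    rw [hc, hb_single_self, mul_one, map_mul, map_mul, hσ.invol, hζσ]
    linear_combination -(gam (fun u v : Fin 3 → F => ζ * hb σ u v) e[(0 : Fin 3)] w g *
      σ (gam (fun u v : Fin 3 → F => ζ * hb σ u v) e[(0 : Fin 3)] w g) * ζ) * I.two
  have hmem : T hf I.v c I.hv ∈ X := e ▸ mul_mem ((I.hU g).mp hg).1 ((I.hU g).mp hg).1
  rw [e, ((noPair_of_not_hasT hσ hqn hq hX hM hζ hf hT) I.v I.hv ζ⁻¹ I.v0
    (inv_fixed hσ hqn hq hX hXS hM hζ hζσ hf hT I.two) (inv_ne_zero hζ) I.memT).2 c hcσ h0 hmem]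

/-- The involution of the stabiliser is unique. -/
lemma eq_t (I : Inv2 hf X) {g : GL (Fin 3) F} (hg : g ∈ I.U) (h1 : g ≠ 1) (hgg : g * g = 1) :
    g = T hf I.v ζ⁻¹ I.hv := by
  obtain ⟨w, hw, hwu, haw, hx⟩ := exists_frame_inv2 hσ hqn hq hX hXS hM hζ hζσ hf hT I
  have haa : ζ * hb σ (e[(0 : Fin 3)] : Fin 3 → F) e[(0 : Fin 3)] ≠ 0 := by
    rw [hb_single_self, mul_one]; exact hζ
  have e := sq_eq_T hf I.hv hw hwu I.ha haw haa hx I.two (I.hUuni g hg)
  rw [hgg, ← T_zero hf I.hv] at e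
  have h0 := T_inj hf I.hv I.v0 e
  have hγ : gam (fun u v : Fin 3 → F => ζ * hb σ u v) e[(0 : Fin 3)] w g = 0 := by
    rcases mul_eq_zero.mp ((mul_eq_zero.mp h0.symm).resolve_right haa) with h | h
    exacts [h, (map_eq_zero σ).mp h]
  obtain ⟨β, hβ, rfl⟩ := eq_T_of_gam hf I.hv hw hwu I.ha haw haa hx (I.hUuni g hg) hγ
  have hβ0 : β ≠ 0 := fun h => h1 (by rw [h, T_zero])
  rw [((noPair_of_not_hasT hσ hqn hq hX hM hζ hf hT) I.v I.hv ζ⁻¹ I.v0
    (inv_fixed hσ hqn hq hX hXS hM hζ hζσ hf hT I.two) (inv_ne_zero hζ) I.memT).2 β hβ hβ0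
    ((I.hU _).mp hg).1]

lemma card_U_le (I : Inv2 hf X) : Nat.card I.U ≤ 8 := by
  obtain ⟨w, hw, hwu, haw, hx⟩ := exists_frame_inv2 hσ hqn hq hX hXS hM hζ hζσ hf hT I
  exact card_uni_even hf I.hv I.v0 I.ha (by rw [hb_single_self, mul_one]; exact hζ) hw hwu haw hx
    (noPair_of_not_hasT hσ hqn hq hX hM hζ hf hT)
    (fun g => ⟨fun hg => ⟨((I.hU g).mp hg).1, I.hUuni g hg⟩,
      fun hg => (I.hU g).mpr ⟨hg.1, hg.2.2.1⟩⟩) I.two

/-- The stabiliser carries the two-part of `X`. -/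
lemma two_pow_dvd (I : Inv2 hf X) {a : ℕ} (ha : 2 ^ a ∣ Nat.card X) : 2 ^ a ∣ Nat.card I.U := by
  have hp2 : p = 2 := (Nat.prime_dvd_prime_iff_eq Fact.out Nat.prime_two).mp
    ((CharP.cast_eq_zero_iff F p 2).mp (by exact_mod_cast I.two))
  subst hp2
  let t : X := ⟨T hf I.v ζ⁻¹ I.hv, I.memT⟩
  have ht2 : t * t = 1 := by
    refine Subtype.ext (gl_ext fun x => ?_)
    show ap (T hf I.v ζ⁻¹ I.hv * T hf I.v ζ⁻¹ I.hv) x = ap (1 : GL (Fin 3) F) x
    rw [ap_mul, ap_T hf, ap_T hf, hf.add_left, hf.smul_left, I.hv, mul_zero, add_zero, ap_one,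
      add_assoc, ← two_smul F, I.two, zero_smul, add_zero]
  have hz : IsPGroup 2 (Subgroup.zpowers t) := fun x => ⟨1, by
    obtain ⟨z, hz⟩ := x.2
    apply Subtype.ext
    show (x : X) ^ 2 ^ 1 = 1
    rw [← hz, pow_one, sq]
    change t ^ z * t ^ z = 1
    rw [← (Commute.refl t).mul_zpow, ht2, _root_.one_zpow]⟩
  obtain ⟨P, hP⟩ := hz.exists_le_sylow
  have hdvd : 2 ^ a ∣ Nat.card (P : Subgroup X) := by
    have hc : Nat.Coprime (2 ^ a) (P : Subgroup X).index :=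
      Nat.Coprime.pow_left a (Nat.prime_two.coprime_iff_not_dvd.mpr P.not_dvd_index)
    exact hc.dvd_of_dvd_mul_right (by rw [Subgroup.card_mul_index]; exact ha)
  let P' : Subgroup (GL (Fin 3) F) := (P : Subgroup X).map X.subtype
  have hP' : IsPGroup 2 P' := P.isPGroup'.map X.subtype
  have htP : T hf I.v ζ⁻¹ I.hv ∈ P' := ⟨t, hP (Subgroup.mem_zpowers t), rfl⟩
  have hPX : P' ≤ X := by rintro x ⟨y, -, rfl⟩; exact y.2
  have hXI : X ≤ isom (fun u v : Fin 3 → F => ζ * hb σ u v) := by rw [isom_eq hζ]; exact hX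
  have hne : P' ≠ ⊥ := by
    intro h
    rw [h, Subgroup.mem_bot, ← T_zero hf I.hv] at htP
    exact inv_ne_zero hζ (T_inj hf I.hv I.v0 htP)
  obtain ⟨u, hu, hu0, hfix⟩ := exists_fixed_isotropic hf hP' (hPX.trans hXI) hne
  obtain ⟨w, hw, hwu⟩ := exists_partner hf hu hu0
  obtain ⟨b, hbu, hbw, hbb, hx⟩ := exists_frame hf hu hw hwu
  obtain ⟨k, hk⟩ := centre_eq hf hu hu0 hw hwu hbu hbw hbb hx I.two I.hv (inv_ne_zero hζ) I.v0
    (isUni_of_fix hf hP' (hPX.trans hXI) hu hu0 hbu hbb htP hfix)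
  have hle : P' ≤ I.U := fun g hg => (I.hU g).mpr ⟨hPX hg, by rw [hk, ap_smul, hfix g hg]⟩
  have hcard : Nat.card (P : Subgroup X) = Nat.card P' :=
    Nat.card_congr ((P : Subgroup X).equivMapOfInjective _ X.subtype_injective).toEquiv
  exact (hcard ▸ hdvd).trans (Subgroup.card_dvd_of_le hle)

/-- For `q = 4` the stabiliser is small. -/
lemma card_U_four (I : Inv2 hf X) (h4 : q = 4) : Nat.card I.U ≤ 2 := by
  classical
  obtain ⟨w, hw, hwu, haw, hx⟩ := exists_frame_inv2 hσ hqn hq hX hXS hM hζ hζσ hf hT I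
  have haa : ζ * hb σ (e[(0 : Fin 3)] : Fin 3 → F) e[(0 : Fin 3)] ≠ 0 := by
    rw [hb_single_self, mul_one]; exact hζ
  obtain ⟨μ, hμ, hμ1⟩ := exists_ne_one hσ
  have hμ2 : (μ ^ 2)⁻¹ ∈ cir σ := inv_mem_cir (pow_mem_cir hμ 2)
  have hμ0 := ne_zero_of_mem_cir hμ
  set D := dia (tri (0 : Fin 3) 1 (μ ^ 2)⁻¹ μ μ) with hD
  have hDX : D ∈ X := tri_dia_mem hM (i := (0 : Fin 3)) (j := 1) (k := 2) (by decide) (by decide)
    (by decide) hμ2 hμ hμ (by field_simp)
  have hDv : ap D I.v = μ • I.v := I.hvd hμ2 hμ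
  have hd0 : ∀ l, tri (0 : Fin 3) 1 (μ ^ 2)⁻¹ μ μ l ≠ 0 := fun l =>
    ne_zero_of_mem_cir (tri_mem_cir hμ2 hμ hμ l)
  have hDe : ap D e[(0 : Fin 3)] = (μ ^ 2)⁻¹ • (e[(0 : Fin 3)] : Fin 3 → F) := by
    funext l
    rw [hD, ap_dia hd0]
    by_cases hl : l = 0
    · subst hl; simp [tri]
    · simp [hl]
  have hDiv : ap D⁻¹ I.v = μ⁻¹ • I.v := by
    apply ap_injective D
    rw [ap_ap_inv, ap_smul, hDv, smul_smul, inv_mul_cancel₀ hμ0, one_smul]
  have hDie : ap D⁻¹ e[(0 : Fin 3)] = (μ ^ 2) • (e[(0 : Fin 3)] : Fin 3 → F) := by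
    apply ap_injective D
    rw [ap_ap_inv, ap_smul, hDe, smul_smul, mul_inv_cancel₀ (pow_ne_zero 2 hμ0), one_smul]
  have hall : ∀ g ∈ I.U, g * g = 1 := by
    intro g hg
    by_contra hgg
    set f := fun u v : Fin 3 → F => ζ * hb σ u v with hfdef
    have hγ0 : gam f e[(0 : Fin 3)] w g ≠ 0 := by
      intro h
      apply hgg
      rw [sq_eq_T hf I.hv hw hwu I.ha haw haa hx I.two (I.hUuni g hg)]
      simp [h, T_zero]
    have hg' : D * g * D⁻¹ ∈ I.U := (I.hU _).mpr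
      ⟨mul_mem (mul_mem hDX ((I.hU g).mp hg).1) (inv_mem hDX), by
        rw [ap_mul, ap_mul, hDiv, ap_smul, ((I.hU g).mp hg).2, ap_smul, hDv, smul_smul,
          inv_mul_cancel₀ hμ0, one_smul]⟩
    have e1 := uni_a hf I.hv hw hwu I.ha haw haa hx (I.hUuni g hg)
    have e2 := uni_a hf I.hv hw hwu I.ha haw haa hx (I.hUuni _ hg')
    rw [ap_mul, ap_mul, hDie, ap_smul, e1, ap_smul, ap_add, ap_smul, hDe, hDv, smul_add,
      smul_smul, smul_smul, smul_smul, mul_inv_cancel₀ (pow_ne_zero 2 hμ0), one_smul,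
      add_right_inj] at e2
    have e3 := mul_right_cancel₀ haa (show μ ^ 3 * σ (gam f e[(0 : Fin 3)] w g) *
        f e[(0 : Fin 3)] e[(0 : Fin 3)] =
        σ (gam f e[(0 : Fin 3)] w (D * g * D⁻¹)) * f e[(0 : Fin 3)] e[(0 : Fin 3)] by
      rw [← smul_left_injective F I.v0 e2]; ring)
    have hγ'0 : gam f e[(0 : Fin 3)] w (D * g * D⁻¹) ≠ 0 := fun h => by
      rw [h, map_zero] at e3
      exact mul_ne_zero (pow_ne_zero 3 hμ0) ((map_ne_zero σ).mpr hγ0) e3
    have hr := ratio_cube hf I.hv I.v0 I.ha haa hw hwu haw hx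
      (noPair_of_not_hasT hσ hqn hq hX hM hζ hf hT)
      (fun g => ⟨fun hg => ⟨((I.hU g).mp hg).1, I.hUuni g hg⟩,
        fun hg => (I.hU g).mpr ⟨hg.1, hg.2.2.1⟩⟩) I.two hg' hg hγ'0 hγ0
    have hr' := congrArg σ hr
    rw [map_pow, map_div₀, ← e3, map_one, mul_div_assoc,
      div_self ((map_ne_zero σ).mpr hγ0), mul_one, ← pow_mul] at hr'
    have h5 := pow_card_cir hσ hμ
    have h1 : μ ^ Nat.gcd (3 * 3) (q + 1) = 1 := pow_gcd_eq_one.mpr ⟨hr', h5⟩
    subst h4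
    simp at h1
    exact hμ1 h1
  haveI : Fintype I.U := Fintype.ofFinite _
  rw [Nat.card_eq_fintype_card, ← Finset.card_univ]
  refine (card_le_card (t := {1, ⟨T hf I.v ζ⁻¹ I.hv, (I.hU _).mpr
    ⟨I.memT, ap_T_fix hf I.hv I.hv⟩⟩}) fun g _ => ?_).trans card_le_two
  by_cases h : (g : GL (Fin 3) F) = 1
  · have : g = 1 := Subtype.ext h
    simp [this]
  · have := eq_t hσ hqn hq hX hXS hM hζ hζσ hf hT I g.2 h (hall g g.2)
    rw [mem_insert, mem_singleton]
    exact Or.inr (Subtype.ext this)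

/-- The centraliser of the involution. -/
lemma exists_centraliser (I : Inv2 hf X) : ∃ C : Subgroup (GL (Fin 3) F), C ≤ X ∧ I.U ≤ C ∧
    (∀ g, g ∈ C ↔ g ∈ X ∧ g * T hf I.v ζ⁻¹ I.hv = T hf I.v ζ⁻¹ I.hv * g) ∧
    Nat.card C = Nat.card I.U * (q + 1) ∧
    (∀ s ∈ C, s * s = 1 → s ∈ I.U) := by
  have hXI : X ≤ isom (fun u v : Fin 3 → F => ζ * hb σ u v) := by rw [isom_eq hζ]; exact hX
  set t := T hf I.v ζ⁻¹ I.hv with ht
  let C : Subgroup (GL (Fin 3) F) := X ⊓ Subgroup.centralizer {t}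
  have hC : ∀ g, g ∈ C ↔ g ∈ X ∧ g * t = t * g := fun g => by
    simp [C, Subgroup.mem_inf, Subgroup.mem_centralizer_singleton_iff]
  have hlam : ∀ g ∈ C, ∃ μ ∈ cir σ, ap g I.v = μ • I.v := by
    intro g hg
    obtain ⟨hgX, hgt⟩ := (hC g).mp hg
    have hiso : ζ * hb σ (ap g I.v) (ap g I.v) = 0 := isotropic_ap hf (hXI hgX) I.hv
    have e : T hf (ap g I.v) ζ⁻¹ hiso = t := by
      rw [← conj_T hf (hXI hgX) I.hv, ← ht, hgt, mul_inv_cancel_right]
    obtain ⟨⟨x, hx⟩, -⟩ := hf.nondegenerate _ I.v0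
    have e1 := congrArg (fun z => ap z x) e
    simp only [ht, ap_T hf, add_right_inj] at e1
    have hne : ζ * hb σ x (ap g I.v) ≠ 0 := fun h => by
      rw [h, mul_zero, zero_smul] at e1
      exact smul_ne_zero (mul_ne_zero (inv_ne_zero hζ) hx) I.v0 e1.symm
    obtain ⟨μ, hμ⟩ : ∃ μ, ap g I.v = μ • I.v :=
      ⟨(ζ⁻¹ * (ζ * hb σ x (ap g I.v)))⁻¹ * (ζ⁻¹ * (ζ * hb σ x I.v)), by
        rw [mul_smul, ← e1, smul_smul, inv_mul_cancel₀ (mul_ne_zero (inv_ne_zero hζ) hne),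
          one_smul]⟩
    refine ⟨μ, mem_cir.mpr ?_, hμ⟩
    have e2 : T hf (μ • I.v) ζ⁻¹ (isotropic_smul hf I.hv μ) = t := by
      simpa only [hμ] using e
    rw [T_smul hf I.hv, ht] at e2
    exact mul_right_cancel₀ (inv_ne_zero hζ) (by rw [one_mul]; exact T_inj hf I.hv I.v0 e2)
  have hUC : I.U ≤ C := fun g hg => by
    obtain ⟨hgX, hgv⟩ := (I.hU g).mp hg
    refine (hC g).mpr ⟨hgX, ?_⟩
    have := conj_T hf (hXI hgX) I.hv ζ⁻¹
    have e : g * t * g⁻¹ = t := by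
      rw [ht, this]; simp only [hgv]
    calc g * t = g * t * g⁻¹ * g := by group
      _ = t * g := by rw [e]
  let D : cir σ → GL (Fin 3) F := fun μ => dia (tri (0 : Fin 3) 1 ((μ : F) ^ 2)⁻¹ μ μ)
  have hDv : ∀ μ : cir σ, ap (D μ) I.v = (μ : F) • I.v := fun μ =>
    I.hvd (inv_mem_cir (pow_mem_cir μ.2 2)) μ.2
  have hDC : ∀ μ : cir σ, D μ ∈ C := by
    intro μ
    have hμ0 := ne_zero_of_mem_cir μ.2
    have hDX : D μ ∈ X := tri_dia_mem hM (i := (0 : Fin 3)) (j := 1) (k := 2) (by decide)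
      (by decide) (by decide) (inv_mem_cir (pow_mem_cir μ.2 2)) μ.2 μ.2 (by field_simp)
    refine (hC _).mpr ⟨hDX, ?_⟩
    have hiso : ζ * hb σ (ap (D μ) I.v) (ap (D μ) I.v) = 0 := isotropic_ap hf (hXI hDX) I.hv
    have e : D μ * t * (D μ)⁻¹ = t := by
      rw [ht, conj_T hf (hXI hDX) I.hv ζ⁻¹]
      simp only [hDv]
      rw [T_smul hf I.hv, mem_cir.mp μ.2, one_mul]
    calc D μ * t = D μ * t * (D μ)⁻¹ * D μ := by group
      _ = t * D μ := by rw [e]
  let Φ : I.U × cir σ → C := fun x => ⟨D x.2 * x.1, mul_mem (hDC x.2) (hUC x.1.2)⟩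
  have hΦ : Function.Bijective Φ := by
    constructor
    · rintro ⟨g, μ⟩ ⟨g', μ'⟩ h
      have h' : D μ * (g : GL (Fin 3) F) = D μ' * g' := congrArg Subtype.val h
      have hv := congrArg (fun z => ap z I.v) h'
      simp only [ap_mul, ((I.hU _).mp g.2).2, ((I.hU _).mp g'.2).2, hDv] at hv
      have hμ : μ = μ' := Subtype.ext (smul_left_injective F I.v0 hv)
      subst hμ
      exact Prod.ext (Subtype.ext (mul_left_cancel h')) rfl
    · rintro ⟨g, hg⟩
      obtain ⟨μ, hμ, hgv⟩ := hlam g hg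
      have hu : (D ⟨μ, hμ⟩)⁻¹ * g ∈ I.U := by
        refine (I.hU _).mpr ⟨mul_mem (inv_mem ((hC _).mp (hDC _)).1) ((hC g).mp hg).1, ?_⟩
        rw [ap_mul, hgv, ap_smul]
        apply ap_injective (D ⟨μ, hμ⟩)
        rw [ap_smul, ap_ap_inv, hDv]
      exact ⟨⟨⟨_, hu⟩, ⟨μ, hμ⟩⟩, Subtype.ext (mul_inv_cancel_left _ g)⟩
  refine ⟨C, inf_le_left, hUC, hC, ?_, fun s hs hss => ?_⟩
  · rw [← Nat.card_congr (Equiv.ofBijective Φ hΦ), Nat.card_prod, Nat.card_eq_finsetCard,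
      card_cir hσ]
  · obtain ⟨μ, hμ, hsv⟩ := hlam s hs
    refine (I.hU s).mpr ⟨((hC s).mp hs).1, ?_⟩
    have h := congrArg (fun z => ap z I.v) hss
    simp only [ap_mul, hsv, ap_smul, ap_one, smul_smul] at h
    have hμ2 : μ * μ = 1 := smul_left_injective F I.v0 (h.trans (one_smul F I.v).symm)
    have : μ = 1 := by
      have hh : (μ - 1) ^ 2 = 0 := by linear_combination hμ2 + (1 - μ) * I.two
      exact sub_eq_zero.mp (pow_eq_zero_iff two_ne_zero |>.mp hh)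
    rw [hsv, this, one_smul]

/-- The exceptional indices do not occur. -/
theorem false_of_exception {k : ℕ} (hcard : Nat.card X = 6 * (q + 1) ^ 2 * k)
    (hex : (q = 4 ∧ k = 26) ∨ (q = 8 ∧ (k = 19 ∨ k = 28 ∨ k = 532))) : False := by
  classical
  have h2 : (2 : F) = 0 := by
    have h0 : (q : F) = 0 := by
      rw [hqn, Nat.cast_pow, CharP.cast_eq_zero F p, zero_pow]
      rintro rfl
      simp at hqn
      omega
    rcases hex with ⟨rfl, -⟩ | ⟨rfl, -⟩
    · exact pow_eq_zero_iff two_ne_zero |>.mp (by norm_num at h0 ⊢; exact h0 : (2 : F) ^ 2 = 0)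
    · exact pow_eq_zero_iff (three_ne_zero (α := ℕ)) |>.mp
        (by norm_num at h0 ⊢; exact h0 : (2 : F) ^ 3 = 0)
  obtain ⟨I⟩ := exists_inv2 hσ hX hXS hM hζ hζσ hf h2
  rcases hex with ⟨rfl, rfl⟩ | ⟨rfl, hk⟩
  · have h := two_pow_dvd hσ hqn hq hX hXS hM hζ hζσ hf hT I (a := 2) (by rw [hcard]; norm_num)
    have := card_U_four hσ hqn hq hX hXS hM hζ hζσ hf hT I rfl
    have := Nat.le_of_dvd Nat.card_pos h
    omega
  by_cases hk19 : k = 19
  · subst hk19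
    haveI : Fact (Nat.Prime 19) := ⟨by norm_num⟩
    obtain ⟨R⟩ : Nonempty (Sylow 19 X) := inferInstance
    have hR : Nat.card (R : Subgroup X) = 19 := by
      rw [R.card_eq_multiplicity, hcard]
      have : (6 * (8 + 1) ^ 2 * 19).factorization 19 = 1 := by
        rw [Nat.factorization_mul (by norm_num) (by norm_num), Finsupp.add_apply,
          Nat.Prime.factorization_self (by norm_num), Nat.factorization_eq_zero_of_not_dvd
          (by norm_num)]
      rw [this, pow_one]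
    have hidx : (R : Subgroup X).index = 486 := by
      have := (R : Subgroup X).card_mul_index
      rw [hR, hcard] at this
      omega
    have hone : Nat.card (Sylow 19 X) = 1 := by
      have h1 : Nat.card (Sylow 19 X) ∣ 2 * 243 := by
        have := Sylow.card_dvd_index R; rwa [hidx] at this
      have h2' := card_sylow_modEq_one 19 X
      obtain ⟨a, b, ha, hb', hab⟩ := exists_dvd_and_dvd_of_dvd_mul h1
      obtain ⟨i, hi, rfl⟩ := (Nat.dvd_prime_pow (Nat.prime_three)).mp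
        (show b ∣ 3 ^ 5 from hb')
      rw [hab] at h2' ⊢
      rcases (Nat.dvd_prime Nat.prime_two).mp ha with rfl | rfl <;> interval_cases i <;>
        simp_all [Nat.ModEq]
    haveI : Subsingleton (Sylow 19 X) := (Nat.card_eq_one_iff_unique.mp hone).1
    haveI hnorm : (R : Subgroup X).Normal := Sylow.normal_of_subsingleton R
    obtain ⟨r, hr, hr1⟩ : ∃ r ∈ (R : Subgroup X), r ≠ 1 := by
      by_contra hall
      push Not at hall
      rw [(Subgroup.eq_bot_iff_forall _).mpr hall, Subgroup.card_bot] at hR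
      omega
    haveI : Fintype (diaG σ) := Fintype.ofFinite _
    haveI : Fintype (R : Subgroup X) := Fintype.ofFinite _
    have hAX : diaG σ ≤ X := fun g hg => monG_le hM hg.1
    let φ : diaG σ → (R : Subgroup X) := fun a =>
      ⟨(⟨a.1, hAX a.2⟩ : X) * r * (⟨a.1, hAX a.2⟩ : X)⁻¹, hnorm.conj_mem r hr _⟩
    obtain ⟨b, -, hb'⟩ : ∃ b ∈ (univ : Finset (R : Subgroup X)),
        4 < ((univ : Finset (diaG σ)).filter fun a => φ a = b).card := by
      refine exists_lt_card_fiber_of_mul_lt_card_of_maps_to (fun a _ => mem_univ _) ?_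
      rw [card_univ, card_univ, ← Nat.card_eq_fintype_card, ← Nat.card_eq_fintype_card, hR,
        card_diaG hσ]
      norm_num
    obtain ⟨a₀, ha₀⟩ := card_pos.mp (by omega : 0 < ((univ : Finset (diaG σ)).filter
      fun a => φ a = b).card)
    have hcom : ∀ a ∈ (univ : Finset (diaG σ)).filter (fun a => φ a = b),
        Commute ((a₀⁻¹ * a : diaG σ) : GL (Fin 3) F) ((r : X) : GL (Fin 3) F) := by
      intro a ha
      have h := congrArg (fun z : (R : Subgroup X) => ((z : X) : GL (Fin 3) F))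
        ((mem_filter.mp ha).2.trans (mem_filter.mp ha₀).2.symm)
      simp only [φ, Subgroup.coe_mul, Subgroup.coe_inv] at h
      rw [commute_iff_eq, Subgroup.coe_mul, Subgroup.coe_inv]
      calc ((a₀ : GL (Fin 3) F))⁻¹ * a * (r : X)
          = ((a₀ : GL (Fin 3) F))⁻¹ * ((a : GL (Fin 3) F) * (r : X) * (a : GL (Fin 3) F)⁻¹) * a := by
            group
        _ = _ := by rw [h]; group
    have hrmon : ((r : X) : GL (Fin 3) F) ∈ monG σ := by
      by_contra hr'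
      have hall : ∀ a ∈ (univ : Finset (diaG σ)).filter (fun a => φ a = b),
          ∃ d : Fin 3 → F, (∀ l, d l ∈ cir σ) ∧ ∏ l, d l = 1 ∧
            ((a₀⁻¹ * a : diaG σ) : GL (Fin 3) F) = dia d ∧ ∀ x y, d x = d y := by
        intro a ha
        obtain ⟨d, hd, hp', he⟩ := mem_diaG.mp (a₀⁻¹ * a).2
        refine ⟨d, hd, hp', he, ?_⟩
        by_contra hne
        obtain ⟨i, hi⟩ := exists_simple hne
        exact hr' (mem_monG_of_commute hσ hqn hq hX hXS hM hζ hζσ hf hT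
          (fun l => ne_zero_of_mem_cir (hd l)) hi r.2 (he ▸ hcom a ha)).1
      choose! d hd hp' he hcst using hall
      have := card_le_card_of_injOn (fun a => d a 0)
        (t := (Polynomial.nthRoots 3 (1 : F)).toFinset) (fun a ha => ?_) (fun a ha a' ha' h => ?_)
        (s := (univ : Finset (diaG σ)).filter (fun a => φ a = b))
      · have := (Multiset.toFinset_card_le _).trans (Polynomial.card_nthRoots 3 (1 : F))
        omega
      · simp only [Finset.mem_coe, Multiset.mem_toFinset, Polynomial.mem_nthRoots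
          (show 0 < 3 by norm_num)]
        have h := hp' a ha
        rw [Fin.prod_univ_three, hcst a ha 1 0, hcst a ha 2 0] at h
        linear_combination h
      · have e : d a = d a' := funext fun l => by
          rw [hcst a ha l 0, hcst a' ha' l 0]; exact h
        exact mul_left_cancel (Subtype.ext ((he a ha).trans (e ▸ (he a' ha').symm)) :
          a₀⁻¹ * a = a₀⁻¹ * a')
    have hord : orderOf r = 19 := by
      refine orderOf_eq_prime ?_ hr1
      have := pow_card_eq_one' (x := (⟨r, hr⟩ : (R : Subgroup X)))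
      rw [hR] at this
      exact congrArg Subtype.val this
    have hdvd := orderOf_dvd_natCard (⟨_, hrmon⟩ : monG σ)
    rw [Subgroup.orderOf_mk, Subgroup.orderOf_coe, hord, card_monG hσ] at hdvd
    norm_num at hdvd
  have hk' : k = 28 ∨ k = 532 := hk.resolve_left hk19
  have hU8 : Nat.card I.U = 8 := by
    have h := two_pow_dvd hσ hqn hq hX hXS hM hζ hζσ hf hT I (a := 3)
      (by rw [hcard]; rcases hk' with rfl | rfl <;> norm_num)
    have := card_U_le hσ hqn hq hX hXS hM hζ hζσ hf hT I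
    have := Nat.le_of_dvd Nat.card_pos h
    omega
  obtain ⟨C, hCX, hUC, hC, hCcard, hinv⟩ :=
    exists_centraliser hσ hqn hq hX hXS hM hζ hζσ hf hT I
  have hmod : C.relIndex X ≡ 1 [MOD 8] := by
    refine relIndex_modEq hUC hCX fun g hg hgC S hS => ?_
    have hbot : S = ⊥ := by
      rw [Subgroup.eq_bot_iff_forall]
      intro x hx
      by_contra hx1
      have htS : T hf I.v ζ⁻¹ I.hv ∈ S := by
        rcases sq_mem hσ hqn hq hX hXS hM hζ hζσ hf hT I ((hS x).mp hx).1 with h | h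
        · exact eq_t hσ hqn hq hX hXS hM hζ hζσ hf hT I ((hS x).mp hx).1 hx1 h ▸ hx
        · exact h ▸ mul_mem hx hx
      obtain ⟨htU, hs⟩ := (hS _).mp htS
      have htt : T hf I.v ζ⁻¹ I.hv * T hf I.v ζ⁻¹ I.hv = 1 := by
        refine gl_ext fun x => ?_
        rw [ap_mul, ap_T hf, ap_T hf, hf.add_left, hf.smul_left, I.hv, mul_zero, add_zero, ap_one,
          add_assoc, ← two_smul F, I.two, zero_smul, add_zero]
      have hne : g⁻¹ * T hf I.v ζ⁻¹ I.hv * g ≠ 1 := by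
        intro e
        have : T hf I.v ζ⁻¹ I.hv = T hf I.v 0 I.hv := by
          rw [T_zero, show T hf I.v ζ⁻¹ I.hv = g * (g⁻¹ * T hf I.v ζ⁻¹ I.hv * g) * g⁻¹ by group, e]
          group
        exact inv_ne_zero hζ (T_inj hf I.hv I.v0 this)
      have hsq : (g⁻¹ * T hf I.v ζ⁻¹ I.hv * g) * (g⁻¹ * T hf I.v ζ⁻¹ I.hv * g) = 1 := by
        rw [show (g⁻¹ * T hf I.v ζ⁻¹ I.hv * g) * (g⁻¹ * T hf I.v ζ⁻¹ I.hv * g) =
          g⁻¹ * (T hf I.v ζ⁻¹ I.hv * T hf I.v ζ⁻¹ I.hv) * g by group, htt]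
        group
      have e := eq_t hσ hqn hq hX hXS hM hζ hζσ hf hT I (hinv _ hs hsq) hne hsq
      refine hgC ((hC g).mpr ⟨hg, ?_⟩)
      conv_lhs => rw [← e]
      group
    rw [hbot, Subgroup.card_bot, hU8]
  have hprod : Nat.card C * C.relIndex X = Nat.card X := by
    rw [← Nat.card_congr (Subgroup.subgroupOfEquivOfLe hCX).toEquiv]
    exact Subgroup.card_mul_index _
  rw [hCcard, hU8, hcard] at hprod
  rcases hk' with rfl | rfl <;> · unfold Nat.ModEq at hmod; omega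

end CfsgLib.Geometric.SUThree.Frame
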