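import Cfsg.Agent.Lib.Geometric.SUThree.FrameKey
import Cfsg.Agent.Lib.SUMult.Orders

/-!
The monomial group of the standard frame, and the congruence for its index in an overgroup.
-/

set_option autoImplicit false

namespace CfsgLib.Geometric.SUThree.Frame

section Congruence

/-- If every non-trivial suborbit has length a multiple of `e`, the index is `1` modulo `e`. -/
theorem relIndex_modEq {G : Type*} [Group G] [Finite G] {A H X : Subgroup G} (hAH : A ≤ H)
    (hHX : H ≤ X) {e : ℕ}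
    (h : ∀ g ∈ X, g ∉ H → ∀ S : Subgroup G, (∀ x, x ∈ S ↔ x ∈ A ∧ g⁻¹ * x * g ∈ H) →
      e * Nat.card S ∣ Nat.card A) :
    H.relIndex X ≡ 1 [MOD e] := by
  classical
  let A' := A.subgroupOf X
  let H' := H.subgroupOf X
  have hA : Nat.card A' = Nat.card A :=
    Nat.card_congr (Subgroup.subgroupOfEquivOfLe (hAH.trans hHX)).toEquiv
  let Q := ↥X ⧸ H'
  haveI : Fintype (MulAction.orbitRel.Quotient A' Q) := Fintype.ofFinite _
  change Nat.card Q ≡ 1 [MOD e]
  rw [Nat.card_congr (MulAction.selfEquivSigmaOrbits A' Q), Nat.card_sigma]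
  let ω₀ : MulAction.orbitRel.Quotient A' Q := Quotient.mk'' ((1 : ↥X) : Q)
  have hfix : ∀ a : A', a • ((1 : ↥X) : Q) = ((1 : ↥X) : Q) := fun a => by
    show (((a : ↥X) * 1 : ↥X) : Q) = _
    rw [QuotientGroup.eq]
    simp only [mul_one, H', Subgroup.mem_subgroupOf, Subgroup.coe_inv]
    exact inv_mem (hAH a.2)
  have hout : ω₀.out = ((1 : ↥X) : Q) := by
    have : MulAction.orbitRel A' Q ω₀.out ((1 : ↥X) : Q) :=
      Quotient.exact' (Quotient.out_eq' ω₀)
    obtain ⟨a, ha⟩ := this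
    exact ha ▸ hfix a
  rw [← Finset.add_sum_erase _ _ (Finset.mem_univ ω₀)]
  have h1 : Nat.card (MulAction.orbit A' ω₀.out) = 1 := by
    rw [hout, Nat.card_eq_one_iff_unique]
    refine ⟨⟨fun x y => ?_⟩, ⟨⟨_, MulAction.mem_orbit_self _⟩⟩⟩
    obtain ⟨a, ha⟩ := x.2
    obtain ⟨b, hb⟩ := y.2
    apply Subtype.ext
    rw [← ha, ← hb]
    exact (hfix a).trans (hfix b).symm
  rw [h1]
  suffices hd : e ∣ ∑ x ∈ Finset.univ.erase ω₀, Nat.card (MulAction.orbit A' x.out) by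
    simpa using (Nat.ModEq.refl 1).add (Nat.modEq_zero_iff_dvd.mpr hd)
  refine Finset.dvd_sum fun ω hω => ?_
  obtain ⟨g, hg⟩ : ∃ g : ↥X, (g : Q) = ω.out := ⟨ω.out.out, QuotientGroup.out_eq' _⟩
  have hgH : (g : G) ∉ H := by
    intro hgH
    apply (Finset.mem_erase.mp hω).1
    have : ω.out = ((1 : ↥X) : Q) := by
      rw [← hg, QuotientGroup.eq]
      simpa [H', Subgroup.mem_subgroupOf] using inv_mem hgH
    rw [← Quotient.out_eq' ω, this]
  let S : Subgroup G := A ⊓ H.comap (MulAut.conj (g : G)⁻¹).toMonoidHom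
  have hS : ∀ x, x ∈ S ↔ x ∈ A ∧ (g : G)⁻¹ * x * g ∈ H := fun x => by
    simp [S, Subgroup.mem_inf]
  have hmem : ∀ a : A', a ∈ MulAction.stabilizer A' ω.out ↔
      (g : G)⁻¹ * ((a : ↥X) : G) * g ∈ H := by
    intro a
    rw [MulAction.mem_stabilizer_iff, ← hg]
    show (((a : ↥X) * g : ↥X) : Q) = (g : Q) ↔ _
    rw [QuotientGroup.eq, Subgroup.mem_subgroupOf, ← inv_mem_iff]
    simp [mul_assoc]
  have hst : Nat.card (MulAction.stabilizer A' ω.out) = Nat.card S := Nat.card_congr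
    { toFun := fun a => ⟨((a : A') : ↥X), (hS _).mpr ⟨a.1.2, (hmem _).mp a.2⟩⟩
      invFun := fun x => ⟨⟨⟨x.1, hAH.trans hHX ((hS _).mp x.2).1⟩, ((hS _).mp x.2).1⟩,
        (hmem _).mpr ((hS _).mp x.2).2⟩
      left_inv := fun a => Subtype.ext (Subtype.ext (Subtype.ext rfl))
      right_inv := fun x => Subtype.ext rfl }
  have hdiv := h g g.2 hgH S hS
  have horb : Nat.card (MulAction.orbit A' ω.out) * Nat.card S = Nat.card A := by
    rw [← hst, ← hA, Nat.card_congr (MulAction.orbitEquivQuotientStabilizer A' _)]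
    exact (Subgroup.card_eq_card_quotient_mul_card_subgroup _).symm
  rw [← horb] at hdiv
  exact Nat.dvd_of_mul_dvd_mul_right Nat.card_pos hdiv

end Congruence

open Matrix Finset CfsgLib.UMon CfsgLib.Geometric CfsgLib.Geometric.Unitary

variable {F : Type*} [Field F] [Fintype F] [DecidableEq F] {σ : F ≃+* F} {q p n : ℕ} {ζ : F}

local notation "e[" j "]" => (Pi.single j (1 : _) : Fin 3 → _)

/-- The determinant one monomial isometries. -/
def monG (σ : F ≃+* F) : Subgroup (GL (Fin 3) F) where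
  carrier := {g | IsMon g ∧ g ∈ GUs σ ∧ g ∈ Cfsg.Geo.specialLinear (Fin 3) F}
  one_mem' := ⟨⟨1, 1, mon_one.symm⟩, one_mem _, one_mem _⟩
  mul_mem' := fun ha hb => ⟨ha.1.mul hb.1, mul_mem ha.2.1 hb.2.1, mul_mem ha.2.2 hb.2.2⟩
  inv_mem' := fun ha => ⟨ha.1.inv, inv_mem ha.2.1, inv_mem ha.2.2⟩

omit [Fintype F] in
lemma ap_mo_single {π : Equiv.Perm (Fin 3)} {d : Fin 3 → F} (hd : ∀ l, d l ≠ 0) (j : Fin 3) :
    ap (mo π d) e[j] = Pi.single (π j) (d (π j)) := by
  ext m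
  rw [ap_mo hd]
  by_cases h : m = π j
  · subst h; simp
  · have : π.symm m ≠ j := fun e => h (by rw [← e, Equiv.apply_symm_apply])
    simp [h, this]

lemma sign_mem_cir (π : Equiv.Perm (Fin 3)) : ((Equiv.Perm.sign π : ℤ) : F) ∈ cir σ := by
  rcases Int.units_eq_one_or (Equiv.Perm.sign π) with h | h <;> rw [h] <;>
    simp [one_mem_cir, neg_mem_cir]

lemma mem_monG {g : GL (Fin 3) F} : g ∈ monG σ ↔ ∃ π d, (∀ l, d l ∈ cir σ) ∧
    ((Equiv.Perm.sign π : ℤ) : F) * ∏ l, d l = 1 ∧ g = mo π d := by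
  constructor
  · rintro ⟨⟨π, c, rfl⟩, hI, hS⟩
    have hd : ∀ l, (c l : F) ≠ 0 := fun l => (c l).ne_zero
    have e : mon π c = mo π fun l => (c l : F) := by
      rw [mo]
      congr 1
      funext l
      exact Units.ext (coe_uu hd l).symm
    refine ⟨π, fun l => (c l : F), fun l => ?_, ?_, e⟩
    · have h := hb_ap hI (e[π.symm l] : Fin 3 → F) e[π.symm l]
      rw [hb_single_self, e, ap_mo_single hd, Equiv.apply_symm_apply, hb_single_left,
        Pi.single_eq_same] at h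
      exact mem_cir.mpr h
    · rw [← det_mo hd, ← e]
      exact (mem_specialLinear_iff _).mp hS
  · rintro ⟨π, d, hd, hp, rfl⟩
    refine ⟨isMon_mo π d, mo_mem_GUs hd, (mem_specialLinear_iff _).mpr ?_⟩
    rw [det_mo fun l => ne_zero_of_mem_cir (hd l), hp]

lemma monG_le {X : Subgroup (GL (Fin 3) F)} (hM : MonIn σ X) : monG σ ≤ X := fun g hg => by
  obtain ⟨π, d, hd, hp, rfl⟩ := mem_monG.mp hg
  exact mo_mem hM hd hp

/-- The diagonal part. -/
def diaG (σ : F ≃+* F) : Subgroup (GL (Fin 3) F) where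
  carrier := {g | g ∈ monG σ ∧ ∀ j m : Fin 3, m ≠ j → ap g e[j] m = 0}
  one_mem' := ⟨one_mem _, fun j m h => by simp [h]⟩
  mul_mem' := by
    rintro a b ⟨ha, ha'⟩ ⟨hb, hb'⟩
    refine ⟨mul_mem ha hb, fun j m h => ?_⟩
    rw [ap_mul, show ap b e[j] = (ap b e[j] j) • (e[j] : Fin 3 → F) by
      ext l
      by_cases hl : l = j
      · subst hl; simp
      · simp [hl, hb' j l hl], ap_smul]
    simp [ha' j m h]
  inv_mem' := by
    rintro a ⟨ha, ha'⟩
    refine ⟨inv_mem ha, fun j m h => ?_⟩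
    rw [ap_inv_entry ha.2.1 m j, ha' m j h.symm, map_zero]

lemma mem_diaG {g : GL (Fin 3) F} :
    g ∈ diaG σ ↔ ∃ d, (∀ l, d l ∈ cir σ) ∧ ∏ l, d l = 1 ∧ g = dia d := by
  constructor
  · rintro ⟨hg, hg'⟩
    obtain ⟨π, d, hd, hp, rfl⟩ := mem_monG.mp hg
    have hπ : π = 1 := by
      refine Equiv.ext fun j => ?_
      by_contra h
      have := hg' j (π j) h
      rw [ap_mo_single (fun l => ne_zero_of_mem_cir (hd l)), Pi.single_eq_same] at this
      exact ne_zero_of_mem_cir (hd _) this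
    subst hπ
    exact ⟨d, hd, by simpa using hp, rfl⟩
  · rintro ⟨d, hd, hp, rfl⟩
    refine ⟨mem_monG.mpr ⟨1, d, hd, by simpa using hp, rfl⟩, fun j m h => ?_⟩
    rw [ap_mo_single fun l => ne_zero_of_mem_cir (hd l)]
    simp [h]

omit [DecidableEq F] in
lemma card_gus (hσ : IsConj σ q) :
    Nat.card (GUs σ ⊓ Cfsg.Geo.specialLinear (Fin 3) F : Subgroup (GL (Fin 3) F)) =
      q ^ 3 * ((q ^ 2 - 1) * (q ^ 3 + 1)) := by
  classical
  rw [← CfsgLib.SUMult.card_su_three (F := F) hσ.card]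
  have hhb : (hb σ : (Fin 3 → F) → (Fin 3 → F) → F) = Cfsg.hermForm 3 F q := by
    funext u v; simp [hb, Cfsg.hermForm, hσ.pow]
  have hmem : ∀ g : GL (Fin 3) F, g ∈ Cfsg.GU 3 F q ↔ g ∈ GUs σ := fun g => by
    rw [GUs, hhb]; rfl
  refine (Nat.card_congr ?_).symm
  exact
    { toFun := fun s => ⟨(CfsgLib.ClassicalForms.suToGU s : GL (Fin 3) F),
        Subgroup.mem_inf.mpr ⟨(hmem _).mp (CfsgLib.ClassicalForms.suToGU s).2,
          (mem_specialLinear_iff _).mpr s.1.2⟩⟩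
      invFun := fun g => ⟨⟨(g : GL (Fin 3) F).1,
        (mem_specialLinear_iff _).mp (Subgroup.mem_inf.mp g.2).2⟩,
        (hmem _).mpr (Subgroup.mem_inf.mp g.2).1⟩
      left_inv := fun s => Subtype.ext (Subtype.ext rfl)
      right_inv := fun g => Subtype.ext (Units.ext rfl) }

/-- Parameters of the monomial group. -/
lemma tri_param {π : Equiv.Perm (Fin 3)} (μ ν : cir σ) :
    (∀ l, tri 0 1 (μ : F) (ν : F) (((Equiv.Perm.sign π : ℤ) : F) * ((μ : F) * ν)⁻¹) l ∈ cir σ) ∧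
      ((Equiv.Perm.sign π : ℤ) : F) *
        ∏ l, tri 0 1 (μ : F) (ν : F) (((Equiv.Perm.sign π : ℤ) : F) * ((μ : F) * ν)⁻¹) l = 1 := by
  refine ⟨tri_mem_cir μ.2 ν.2 (mul_mem_cir (sign_mem_cir π) (inv_mem_cir (mul_mem_cir μ.2 ν.2))), ?_⟩
  have hs : ((Equiv.Perm.sign π : ℤ) : F) * ((Equiv.Perm.sign π : ℤ) : F) = 1 := by
    rw [← Int.cast_mul, Int.units_coe_mul_self, Int.cast_one]
  have hm : (μ : F) * ν ≠ 0 := mul_ne_zero (ne_zero_of_mem_cir μ.2) (ne_zero_of_mem_cir ν.2)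
  rw [prod3 (i := 0) (j := 1) (k := 2) (by decide) (by decide) (by decide), tri_fst,
    tri_snd (by decide), tri_thd (by decide) (by decide)]
  linear_combination (μ : F) * ν * ((μ : F) * ν)⁻¹ * hs + mul_inv_cancel₀ hm

lemma mo_inj {π π' : Equiv.Perm (Fin 3)} {d d' : Fin 3 → F} (hd : ∀ l, d l ≠ 0)
    (hd' : ∀ l, d' l ≠ 0) (h : mo π d = mo π' d') : π = π' ∧ d = d' := by
  have h1 := fun j => (ap_mo_single hd j).symm.trans
    ((congrArg (fun g => ap g e[j]) h).trans (ap_mo_single hd' j))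
  have hπ : π = π' := Equiv.ext fun j => by
    by_contra hne
    have := congrFun (h1 j) (π j)
    rw [Pi.single_eq_same, Pi.single_eq_of_ne hne] at this
    exact hd _ this
  subst hπ
  refine ⟨rfl, funext fun l => ?_⟩
  have := congrFun (h1 (π.symm l)) (π (π.symm l))
  rwa [Pi.single_eq_same, Pi.single_eq_same, Equiv.apply_symm_apply] at this

lemma param_eq {π : Equiv.Perm (Fin 3)} {d : Fin 3 → F} (hd : ∀ l, d l ∈ cir σ)
    (hp : ((Equiv.Perm.sign π : ℤ) : F) * ∏ l, d l = 1) :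
    d = tri 0 1 (d 0) (d 1) (((Equiv.Perm.sign π : ℤ) : F) * (d 0 * d 1)⁻¹) := by
  have hm : d 0 * d 1 ≠ 0 := mul_ne_zero (ne_zero_of_mem_cir (hd 0)) (ne_zero_of_mem_cir (hd 1))
  have hs : ((Equiv.Perm.sign π : ℤ) : F) * ((Equiv.Perm.sign π : ℤ) : F) = 1 := by
    rw [← Int.cast_mul, Int.units_coe_mul_self, Int.cast_one]
  rw [Fin.prod_univ_three] at hp
  funext l
  fin_cases l
  · simp [tri]
  · simp [tri]
  · simp only [tri, Fin.reduceFinMk, Fin.reduceEq, ↓reduceIte]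
    exact (eq_mul_inv_iff_mul_eq₀ hm).mpr
      (by linear_combination ((Equiv.Perm.sign π : ℤ) : F) * hp - d 0 * d 1 * d 2 * hs)

lemma card_monG (hσ : IsConj σ q) : Nat.card (monG σ) = 6 * (q + 1) ^ 2 := by
  let Φ : Equiv.Perm (Fin 3) × cir σ × cir σ → monG σ := fun x =>
    ⟨mo x.1 _, mem_monG.mpr ⟨x.1, _, (tri_param (π := x.1) x.2.1 x.2.2).1,
      (tri_param (π := x.1) x.2.1 x.2.2).2, rfl⟩⟩
  have hΦ : Function.Bijective Φ := by
    constructor
    · rintro ⟨π, μ, ν⟩ ⟨π', μ', ν'⟩ h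
      obtain ⟨rfl, h2⟩ := mo_inj (fun l => ne_zero_of_mem_cir ((tri_param μ ν).1 l))
        (fun l => ne_zero_of_mem_cir ((tri_param μ' ν').1 l)) (congrArg Subtype.val h)
      have h0 := congrFun h2 0
      have h1 := congrFun h2 1
      simp [tri] at h0 h1
      simp [h0, h1]
    · rintro ⟨g, hg⟩
      obtain ⟨π, d, hd, hp, rfl⟩ := mem_monG.mp hg
      exact ⟨⟨π, ⟨d 0, hd 0⟩, ⟨d 1, hd 1⟩⟩, Subtype.ext (by
        show mo π _ = mo π d
        rw [← param_eq hd hp])⟩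
  rw [← Nat.card_congr (Equiv.ofBijective Φ hΦ), Nat.card_prod, Nat.card_prod,
    Nat.card_eq_finsetCard, card_cir hσ, Nat.card_perm, Nat.card_fin]
  rw [show Nat.factorial 3 = 6 from rfl, sq]

lemma card_diaG (hσ : IsConj σ q) : Nat.card (diaG σ) = (q + 1) ^ 2 := by
  let Φ : cir σ × cir σ → diaG σ := fun x =>
    ⟨dia _, mem_diaG.mpr ⟨_, (tri_param (π := 1) x.1 x.2).1,
      by simpa using (tri_param (π := 1) x.1 x.2).2, rfl⟩⟩
  have hΦ : Function.Bijective Φ := by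
    constructor
    · rintro ⟨μ, ν⟩ ⟨μ', ν'⟩ h
      obtain ⟨-, h2⟩ := mo_inj (fun l => ne_zero_of_mem_cir ((tri_param μ ν).1 l))
        (fun l => ne_zero_of_mem_cir ((tri_param μ' ν').1 l)) (congrArg Subtype.val h)
      have h0 := congrFun h2 0
      have h1 := congrFun h2 1
      simp [tri] at h0 h1
      simp [h0, h1]
    · rintro ⟨g, hg⟩
      obtain ⟨d, hd, hp, rfl⟩ := mem_diaG.mp hg
      exact ⟨⟨⟨d 0, hd 0⟩, ⟨d 1, hd 1⟩⟩, Subtype.ext (by
        show dia _ = dia d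
        rw [← param_eq (π := 1) hd (by simpa using hp)])⟩
  rw [← Nat.card_congr (Equiv.ofBijective Φ hΦ), Nat.card_prod,
    Nat.card_eq_finsetCard, card_cir hσ, sq]

variable {X : Subgroup (GL (Fin 3) F)} (hσ : IsConj σ q) [Fact p.Prime] [CharP F p]
  (hqn : q = p ^ n) (hq : 3 ≤ q) (hX : X ≤ GUs σ)
  (hXS : X ≤ Cfsg.Geo.specialLinear (Fin 3) F) (hM : MonIn σ X) (hζ : ζ ≠ 0) (hζσ : σ ζ = -ζ)
  (hf : IsSkewForm σ (fun u v : Fin 3 → F => ζ * hb σ u v)) (hT : ¬ HasT hf X)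
include hσ hqn hq hX hXS hM hζ hζσ hf hT

/-- An element of `X` with a fixed axis lies in the monomial group. -/
lemma mem_monG_of_axis {x : GL (Fin 3) F} (hx : x ∈ X) {i : Fin 3}
    (hax : ∀ m, m ≠ i → ap x e[i] m = 0) : x ∈ monG σ :=
  ⟨(isMon_or_hasT hσ hX hM hζ hf hqn hq hζσ hx hax).resolve_right hT, hX hx, hXS hx⟩

/-- An element commuting with a diagonal one with a simple eigenvalue is monomial. -/
lemma mem_monG_of_commute {d : Fin 3 → F} (hd : ∀ l, d l ≠ 0) {i : Fin 3}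
    (hi : ∀ l, l ≠ i → d l ≠ d i) {z : GL (Fin 3) F} (hz : z ∈ X)
    (hc : dia d * z = z * dia d) : z ∈ monG σ ∧ ∀ m, m ≠ i → ap z e[i] m = 0 := by
  have hax : ∀ m, m ≠ i → ap z e[i] m = 0 := by
    intro m hm
    have h := congrArg (fun g => ap g e[i] m) hc
    simp only [ap_mul, ap_dia hd] at h
    rw [show ap (dia d) e[i] = d i • (e[i] : Fin 3 → F) by
      funext l; rw [ap_dia hd]; by_cases hl : l = i
      · subst hl; simp
      · simp [hl], ap_smul] at h
    simp only [Pi.smul_apply, smul_eq_mul] at h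
    exact (mul_eq_mul_right_iff.mp h).resolve_left (hi m hm)
  exact ⟨mem_monG_of_axis hσ hqn hq hX hXS hM hζ hζσ hf hT hz hax, hax⟩

omit hσ hqn hq hX hXS hM hζ hζσ hf hT [Fintype F] [DecidableEq F] [Fact p.Prime] [CharP F p] in
lemma exists_simple {d : Fin 3 → F} (h : ¬ ∀ a b, d a = d b) : ∃ i, ∀ l, l ≠ i → d l ≠ d i := by
  by_cases h01 : d 0 = d 1
  · refine ⟨2, fun l hl e => h ?_⟩
    have h02 : d 0 = d 2 := by fin_cases l <;> simp_all
    intro a b
    fin_cases a <;> fin_cases b <;> simp_all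
  · by_cases h02 : d 0 = d 2
    · refine ⟨1, fun l hl => ?_⟩
      fin_cases l <;> simp_all
    · refine ⟨0, fun l hl e => ?_⟩
      obtain rfl | rfl | rfl : l = 0 ∨ l = 1 ∨ l = 2 := by clear h hl e h01 h02; decide +revert
      exacts [hl rfl, h01 e.symm, h02 e.symm]

/-- Conjugate diagonal elements are scalar, outside the monomial group. -/
lemma const_of_conj {g : GL (Fin 3) F} (hg : g ∈ X) (hgm : g ∉ monG σ) {d : Fin 3 → F}
    (hd : ∀ l, d l ≠ 0) (hy : g⁻¹ * dia d * g ∈ diaG σ) : ∀ a b, d a = d b := by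
  by_contra hne
  obtain ⟨i, hi⟩ := exists_simple hne
  obtain ⟨d', hd', -, he⟩ := mem_diaG.mp hy
  have hd'0 : ∀ l, d' l ≠ 0 := fun l => ne_zero_of_mem_cir (hd' l)
  have hcomm : dia d * g = g * dia d' := by rw [← he]; group
  have hcol : ∀ m l, (d l - d' m) * ap g e[m] l = 0 := by
    intro m l
    have h := congrArg (fun x => ap x e[m] l) hcomm
    simp only [ap_mul, ap_dia hd] at h
    rw [ap_mo_single hd'0] at h
    rw [show (Pi.single ((1 : Equiv.Perm (Fin 3)) m) (d' ((1 : Equiv.Perm (Fin 3)) m)) : Fin 3 → F)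
      = d' m • e[m] from by ext a; by_cases ha : a = m <;> simp [ha], ap_smul,
      Pi.smul_apply, smul_eq_mul] at h
    linear_combination h
  obtain ⟨m, hm⟩ : ∃ m, ap g e[m] i ≠ 0 := by
    by_contra hc
    push Not at hc
    have h := ap_expand g (ap g⁻¹ e[i]) i
    rw [ap_ap_inv, Pi.single_eq_same] at h
    simp [hc] at h
  have hdm : d i = d' m := sub_eq_zero.mp ((mul_eq_zero.mp (hcol m i)).resolve_right hm)
  obtain ⟨P, hP, hPm, hPe, -⟩ := exists_move hM i m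
  have hgP : g * P ∈ monG σ := mem_monG_of_axis hσ hqn hq hX hXS hM hζ hζσ hf hT
    (mul_mem hg hP) (i := i) fun l hl => by
      rw [ap_mul, hPe]
      exact (mul_eq_zero.mp (hcol m l)).resolve_left
        (sub_ne_zero.mpr (hdm ▸ hi l hl))
  have hPM : P ∈ monG σ := ⟨hPm, hX hP, hXS hP⟩
  exact hgm (by simpa using mul_mem hgP (inv_mem hPM))

/-- The permutation of a conjugate of a diagonal element fixes no point, or is trivial. -/
lemma perm_conj (h5 : q ≠ 5) {g : GL (Fin 3) F} (hg : g ∈ X) (hgm : g ∉ monG σ) {d : Fin 3 → F}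
    (hd : ∀ l, d l ∈ cir σ) {π : Equiv.Perm (Fin 3)} {d' : Fin 3 → F}
    (hd' : ∀ l, d' l ∈ cir σ) (hy : g⁻¹ * dia d * g = mo π d') :
    π = 1 ∨ ∀ i, π i ≠ i := by
  by_contra hc
  push Not at hc
  obtain ⟨hπ1, i, hi⟩ := hc
  obtain ⟨j, k, hji, hki, hjk⟩ := third i
  have hd0 : ∀ l, d l ≠ 0 := fun l => ne_zero_of_mem_cir (hd l)
  have hd'0 : ∀ l, d' l ≠ 0 := fun l => ne_zero_of_mem_cir (hd' l)
  have hne : ¬ ∀ a b, d a = d b := by
    intro hcst
    have e : dia d * g = g * dia d := by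
      refine gl_ext fun x => funext fun m => ?_
      rw [ap_mul, ap_mul, ap_dia hd0]
      have : ap (dia d) x = d 0 • x := by
        funext l; rw [ap_dia hd0, Pi.smul_apply, smul_eq_mul, hcst l 0]
      rw [this, ap_smul, Pi.smul_apply, smul_eq_mul, hcst m 0]
    have h1 : g⁻¹ * dia d * g = dia d := by rw [mul_assoc, e, inv_mul_cancel_left]
    rw [h1] at hy
    exact hπ1 (mo_inj hd0 hd'0 hy).1.symm
  obtain ⟨μ, hμ, hμ6⟩ : ∃ μ ∈ cir σ, μ ^ 6 ≠ 1 := by
    by_contra hall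
    push Not at hall
    have hsub : cir σ ⊆ (Polynomial.nthRoots 6 (1 : F)).toFinset := fun x hx => by
      rw [Multiset.mem_toFinset, Polynomial.mem_nthRoots (by norm_num)]; exact hall x hx
    have hle := (card_le_card hsub).trans ((Multiset.toFinset_card_le _).trans
      (Polynomial.card_nthRoots 6 (1 : F)))
    rw [card_cir hσ] at hle
    obtain ⟨c, hc, hc2⟩ := exists_sq_ne_one hσ
    have h6 := hall c hc
    have hp := pow_card_cir hσ hc
    rcases (show q = 3 ∨ q = 4 by omega) with h | h <;> subst h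
    · exact hc2 (by simpa using (pow_gcd_eq_one.mpr ⟨h6, hp⟩ : c ^ Nat.gcd 6 (3 + 1) = 1))
    · have : c = 1 := by
        simpa using (pow_gcd_eq_one.mpr ⟨h6, hp⟩ : c ^ Nat.gcd 6 (4 + 1) = 1)
      exact hc2 (by rw [this, one_pow])
  have hμ2 : (μ ^ 2)⁻¹ ∈ cir σ := inv_mem_cir (pow_mem_cir hμ 2)
  have hμ0 := ne_zero_of_mem_cir hμ
  set D := dia (tri i j (μ ^ 2)⁻¹ μ μ) with hDdef
  have hDA : D ∈ diaG σ := mem_diaG.mpr ⟨_, tri_mem_cir hμ2 hμ hμ, by
    rw [prod3 hji hki hjk, tri_fst, tri_snd hji, tri_thd hki hjk]; field_simp, rfl⟩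
  have hDd : ∀ l, tri i j (μ ^ 2)⁻¹ μ μ l ≠ 0 := fun l =>
    ne_zero_of_mem_cir (tri_mem_cir hμ2 hμ hμ l)
  have hinv : ∀ m, tri i j (μ ^ 2)⁻¹ μ μ (π.symm m) = tri i j (μ ^ 2)⁻¹ μ μ m := by
    intro m
    have hsi : π.symm i = i := by rw [Equiv.symm_apply_eq, hi]
    by_cases hmi : m = i
    · rw [hmi, hsi]
    · have : π.symm m ≠ i := fun e => hmi (by rw [← hi, ← e, Equiv.apply_symm_apply])
      simp [tri, this, hmi]
  have hcomm : mo π d' * D = D * mo π d' := by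
    refine gl_ext fun x => funext fun m => ?_
    rw [ap_mul, ap_mul, ap_mo hd'0, hDdef, ap_dia hDd, ap_dia hDd, ap_mo hd'0, hinv]
    ring
  have hDX : D ∈ X := monG_le hM hDA.1
  set z := g * D * g⁻¹ with hzdef
  have hz : z ∈ X := mul_mem (mul_mem hg hDX) (inv_mem hg)
  have hzc : dia d * z = z * dia d := by
    rw [show dia d = g * mo π d' * g⁻¹ by rw [← hy]; group, hzdef]
    simp only [mul_assoc, inv_mul_cancel_left]
    rw [← mul_assoc (mo π d') D, hcomm, mul_assoc]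
  obtain ⟨l, hl⟩ := exists_simple hne
  obtain ⟨hzM, hzl⟩ := mem_monG_of_commute hσ hqn hq hX hXS hM hζ hζσ hf hT hd0 hl hz hzc
  obtain ⟨ρ, c, hcc, hcp, hzρ⟩ := mem_monG.mp hzM
  have hc0 : ∀ a, c a ≠ 0 := fun a => ne_zero_of_mem_cir (hcc a)
  have hρl : ρ l = l := by
    by_contra h
    have := hzl (ρ l) h
    rw [hzρ, ap_mo_single hc0, Pi.single_eq_same] at this
    exact hc0 _ this
  have hρ2 : ∀ (ρ : Equiv.Perm (Fin 3)) l, ρ l = l → ∀ a, ρ (ρ a) = a := by decide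
  have hzz : z * z ∈ diaG σ := by
    refine ⟨mul_mem hzM hzM, fun a m hm => ?_⟩
    rw [ap_mul, hzρ, ap_mo_single hc0, ap_mo hc0]
    have : ρ.symm m ≠ ρ a := fun e => hm (by
      rw [← hρ2 ρ l hρl a, ← e, Equiv.apply_symm_apply])
    simp [this]
  obtain ⟨c', hc', -, hzz'⟩ := mem_diaG.mp hzz
  have hc'0 : ∀ a, c' a ≠ 0 := fun a => ne_zero_of_mem_cir (hc' a)
  have hback : g⁻¹ * dia c' * g = D * D := by rw [← hzz', hzdef]; group
  have hcst := const_of_conj hσ hqn hq hX hXS hM hζ hζσ hf hT hg hgm hc'0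
    (by rw [hback]; exact mul_mem hDA hDA)
  have e1 : dia c' * g = g * dia c' := by
    refine gl_ext fun x => funext fun m => ?_
    rw [ap_mul, ap_mul, ap_dia hc'0]
    have : ap (dia c') x = c' 0 • x := by
      funext a; rw [ap_dia hc'0, Pi.smul_apply, smul_eq_mul, hcst a 0]
    rw [this, ap_smul, Pi.smul_apply, smul_eq_mul, hcst m 0]
  have e2 : D * D = dia c' := by rw [← hback, mul_assoc, e1, inv_mul_cancel_left]
  have hv : ∀ a, tri i j (μ ^ 2)⁻¹ μ μ a * tri i j (μ ^ 2)⁻¹ μ μ a = c' a := by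
    intro a
    have := congrArg (fun y => ap y (e[a] : Fin 3 → F) a) e2
    simpa [ap_mul, hDdef, ap_dia hDd, ap_dia hc'0] using this
  have hij := (hv j).trans ((hcst j i).trans (hv i).symm)
  rw [tri_fst, tri_snd hji] at hij
  field_simp at hij
  exact hμ6 (by linear_combination hij)

/-- The suborbit lengths. -/
theorem stab_dvd (h5 : q ≠ 5) {g : GL (Fin 3) F} (hg : g ∈ X) (hgm : g ∉ monG σ)
    (S : Subgroup (GL (Fin 3) F)) (hS : ∀ x, x ∈ S ↔ x ∈ diaG σ ∧ g⁻¹ * x * g ∈ monG σ) :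
    (¬ 3 ∣ q + 1 → (q + 1) ^ 2 * Nat.card S ∣ Nat.card (diaG σ)) ∧
      (3 ∣ q + 1 → ((q + 1) / 3) ^ 2 * Nat.card S ∣ Nat.card (diaG σ)) := by
  classical
  rw [card_diaG hσ]
  have hfp : ∀ π : Equiv.Perm (Fin 3), (π = 1 ∨ ∀ i, π i ≠ i) → π * π * π = 1 := by decide
  have huniq : ∀ π π' : Equiv.Perm (Fin 3), (π = 1 ∨ ∀ i, π i ≠ i) → (π' = 1 ∨ ∀ i, π' i ≠ i) →
      π 0 = π' 0 → π = π' := by decide
  have hdata : ∀ x : S, ∃ d π d', (∀ l, d l ∈ cir σ) ∧ ∏ l, d l = 1 ∧ (x : GL (Fin 3) F) = dia d ∧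
      (∀ l, d' l ∈ cir σ) ∧ g⁻¹ * (x : GL (Fin 3) F) * g = mo π d' ∧
      (π = 1 ∨ ∀ i, π i ≠ i) := by
    intro x
    obtain ⟨hxA, hxH⟩ := (hS _).mp x.2
    obtain ⟨d, hd, hp, hxd⟩ := mem_diaG.mp hxA
    obtain ⟨π, d', hd', -, hy⟩ := mem_monG.mp hxH
    exact ⟨d, π, d', hd, hp, hxd, hd', hy,
      perm_conj hσ hqn hq hX hXS hM hζ hζσ hf hT h5 hg hgm hd hd' (hxd ▸ hy)⟩
  choose d π d' hd hp hxd hd' hy hπ using hdata
  have hd0 : ∀ x l, d x l ≠ 0 := fun x l => ne_zero_of_mem_cir (hd x l)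
  have hd'0 : ∀ x l, d' x l ≠ 0 := fun x l => ne_zero_of_mem_cir (hd' x l)
  -- elements with a diagonal conjugate are scalars
  have hscal : ∀ x : S, π x = 1 → ∀ a b, d x a = d x b := fun x hx =>
    const_of_conj hσ hqn hq hX hXS hM hζ hζσ hf hT hg hgm (hd0 x) (by
      rw [← hxd, hy, hx]
      refine ⟨hx ▸ hy x ▸ ((hS _).mp x.2).2, fun j m hm => ?_⟩
      rw [ap_mo_single (hd'0 x)]
      simp [hm])
  have hπmul : ∀ x y : S, π (x * y) = π x * π y := by
    intro x y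
    have h1 := hy (x * y)
    rw [Subgroup.coe_mul, show g⁻¹ * ((x : GL (Fin 3) F) * y) * g =
      (g⁻¹ * x * g) * (g⁻¹ * y * g) by group, hy, hy] at h1
    have h2 := congrArg (fun z => fun j : Fin 3 => ap z (e[j] : Fin 3 → F)) h1
    refine Equiv.ext fun j => ?_
    by_contra hne
    have h3 := congrFun (congrFun h2 j) ((π x * π y) j)
    simp only [ap_mul, ap_mo_single (hd'0 y), ap_mo_single (hd'0 (x * y))] at h3
    rw [Pi.single_eq_of_ne (Ne.symm hne), ap_mo (hd'0 x), Equiv.Perm.mul_apply,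
      Equiv.symm_apply_apply, Pi.single_eq_same] at h3
    exact mul_ne_zero (hd'0 x _) (hd'0 y _) h3
  have hcube : ∀ x : S, ∀ l, d x l ^ 9 = 1 := by
    intro x
    have hπ3 : π (x * x * x) = 1 := by rw [hπmul, hπmul]; exact hfp _ (hπ x)
    have hs := hscal _ hπ3
    have hval : ∀ l, d (x * x * x) l = d x l ^ 3 := by
      intro l
      have h1 := congrArg (fun y => ap y (e[l] : Fin 3 → F) l) (hxd (x * x * x))
      simp only [Subgroup.coe_mul, ap_mul, hxd x, ap_dia (hd0 x), ap_dia (hd0 (x * x * x)),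
        Pi.single_eq_same, mul_one] at h1
      rw [← h1]; ring
    intro l
    have h3 := hp (x * x * x)
    rw [Fin.prod_univ_three, hs 0 l, hs 1 l, hs 2 l, hval] at h3
    linear_combination h3
  refine ⟨fun h3 => ?_, fun h3 => ?_⟩
  · have : S = ⊥ := by
      rw [Subgroup.eq_bot_iff_forall]
      intro x hx
      have h9 := hcube ⟨x, hx⟩
      rw [show x = dia (d ⟨x, hx⟩) from hxd ⟨x, hx⟩]
      refine gl_ext fun y => funext fun l => ?_
      have hg : Nat.Coprime 9 (q + 1) :=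
        (Nat.prime_three.coprime_iff_not_dvd.mpr h3).pow_left 2
      have h1 : d ⟨x, hx⟩ l ^ Nat.gcd 9 (q + 1) = 1 :=
        pow_gcd_eq_one.mpr ⟨h9 l, pow_card_cir hσ (hd _ l)⟩
      rw [hg.gcd_eq_one, pow_one] at h1
      rw [ap_dia (hd0 _), ap_one, h1, one_mul]
    simp [this]
  · haveI : Fintype S := Fintype.ofFinite S
    have hle : Nat.card S ≤ 9 := by
      rw [Nat.card_eq_fintype_card, ← Finset.card_univ]
      refine (card_le_mul_card_image (f := fun x : S => π x 0) univ 3 fun b hb => ?_).trans ?_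
      · obtain ⟨x₀, -, rfl⟩ := mem_image.mp hb
        refine le_trans (le_of_le_of_eq (card_le_card_of_injOn
          (fun x => d (x₀⁻¹ * x) 0) (t := (Polynomial.nthRoots 3 (1 : F)).toFinset)
          (fun x hx => ?_) (fun x hx y hy' hxy => ?_)) rfl) ((Multiset.toFinset_card_le _).trans
            (Polynomial.card_nthRoots 3 (1 : F)))
        · have hx' : π x = π x₀ := huniq _ _ (hπ _) (hπ _) (mem_filter.mp hx).2
          have h1 : π (x₀⁻¹ * x) = 1 := by
            have := hπmul x₀ (x₀⁻¹ * x)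
            rw [mul_inv_cancel_left, hx'] at this
            exact mul_eq_left.mp this.symm
          have h2 := hp (x₀⁻¹ * x)
          rw [Fin.prod_univ_three, hscal _ h1 1 0, hscal _ h1 2 0] at h2
          simp only [Finset.mem_coe, Multiset.mem_toFinset, Polynomial.mem_nthRoots
            (show 0 < 3 by norm_num)]
          linear_combination h2
        · have hsc : ∀ z, z ∈ (univ : Finset S).filter (fun x => π x 0 = π x₀ 0) →
              π (x₀⁻¹ * z) = 1 := fun z hz => by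
            have hz' : π z = π x₀ := huniq _ _ (hπ _) (hπ _) (mem_filter.mp hz).2
            have := hπmul x₀ (x₀⁻¹ * z)
            rw [mul_inv_cancel_left, hz'] at this
            exact mul_eq_left.mp this.symm
          have e : d (x₀⁻¹ * x) = d (x₀⁻¹ * y) := funext fun l => by
            rw [hscal _ (hsc x hx) l 0, hscal _ (hsc y hy') l 0]; exact hxy
          have : x₀⁻¹ * x = x₀⁻¹ * y := Subtype.ext (by rw [hxd, hxd, e])
          exact mul_left_cancel this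
      · have := (image (fun x : S => π x 0) univ).card_le_univ
        rw [Fintype.card_fin] at this
        omega
    haveI : Fact (Nat.Prime 3) := ⟨Nat.prime_three⟩
    have h3g : IsPGroup 3 S := fun x => ⟨2, by
      apply Subtype.ext
      rw [Subgroup.coe_pow, hxd x, OneMemClass.coe_one]
      refine gl_ext fun y => funext fun l => ?_
      have : ∀ N : ℕ, ap (dia (d x) ^ N) y l = d x l ^ N * y l := by
        intro N
        induction N with
        | zero => simp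
        | succ N ih => rw [pow_succ', ap_mul, ap_dia (hd0 x), ih]; ring
      rw [this, show 3 ^ 2 = 9 from rfl, hcube x l, one_mul, ap_one]⟩
    obtain ⟨e, he⟩ := IsPGroup.iff_card.mp h3g
    rw [he, show (9 : ℕ) = 3 ^ 2 from rfl] at hle
    obtain ⟨r, hr⟩ := h3
    rw [he, hr, Nat.mul_div_cancel_left r (by norm_num), mul_pow, mul_comm (3 ^ 2)]
    exact Nat.mul_dvd_mul_left _
      (pow_dvd_pow 3 ((Nat.pow_le_pow_iff_right (by norm_num)).mp hle))

end CfsgLib.Geometric.SUThree.Frame
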