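import Cfsg.Agent.Lib.Geometric.SUThree.FrameTransv
import Cfsg.Agent.Lib.Geometric.SUThree.C6

/-!
An element fixing a coordinate axis is monomial, unless every transvection occurs.
-/

set_option autoImplicit false

namespace CfsgLib.Geometric.SUThree.Frame

open Matrix Finset CfsgLib.UMon CfsgLib.Geometric CfsgLib.Geometric.Unitary

variable {F : Type*} [Field F] [Fintype F] [DecidableEq F] {σ : F ≃+* F} {q p n : ℕ}
variable {ζ : F}

local notation "e[" j "]" => (Pi.single j (1 : _) : Fin 3 → _)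

omit [Fintype F] [DecidableEq F] in
lemma ap_expand (g : GL (Fin 3) F) (x : Fin 3 → F) (m : Fin 3) :
    ap g x m = ∑ l, x l * ap g e[l] m := by
  conv_lhs => rw [show x = ∑ l, x l • (e[l] : Fin 3 → F) from pi_eq_sum_univ' x]
  rw [Fin.sum_univ_three, ap_add, ap_add, ap_smul, ap_smul, ap_smul, Fin.sum_univ_three]
  simp only [Pi.add_apply, Pi.smul_apply, smul_eq_mul]

variable {X : Subgroup (GL (Fin 3) F)} (hσ : IsConj σ q) (hX : X ≤ GUs σ) (hM : MonIn σ X)
  (hζ : ζ ≠ 0) (hf : IsSkewForm σ (fun u v : Fin 3 → F => ζ * hb σ u v))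
include hσ hX hM hζ hf

omit hσ hM hζ hf in
/-- The row of a fixed axis vanishes off the diagonal. -/
lemma row_zero {x : GL (Fin 3) F} (hx : x ∈ X) {i : Fin 3} (hax : ∀ m, m ≠ i → ap x e[i] m = 0)
    {m : Fin 3} (hm : m ≠ i) : ap x e[m] i = 0 := by
  have hxi : ap x e[i] = (ap x e[i] i) • (e[i] : Fin 3 → F) := by
    ext l
    by_cases h : l = i
    · subst h; simp
    · simp [h, hax l h]
  have h := hb_ap (hX hx) (e[m] : Fin 3 → F) e[i]
  rw [hb_single_left, one_mul, Pi.single_eq_of_ne hm, map_zero, hxi, hb_smul_right,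
    hb_single_right, map_one, mul_one] at h
  refine (mul_eq_zero.mp h).resolve_left fun h0 => ?_
  refine ap_ne_zero x (x := (e[i] : Fin 3 → F)) (by simp) ?_
  rw [hxi, (map_eq_zero σ).mp h0, zero_smul]

omit hσ hM hζ hf in
/-- A fixed axis and a vanishing entry give a monomial element. -/
lemma isMon_of_block {x : GL (Fin 3) F} (hx : x ∈ X) {i j k : Fin 3} (hji : j ≠ i) (hki : k ≠ i)
    (hjk : j ≠ k) (hax : ∀ m, m ≠ i → ap x e[i] m = 0)
    (h : ap x e[j] j = 0 ∨ ap x e[j] k = 0) : IsMon x := by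
  have hrj := row_zero hX hx hax hji
  have hrk := row_zero hX hx hax hki
  have horth := hb_ap (hX hx) (e[j] : Fin 3 → F) e[k]
  rw [hb_single_left, Pi.single_eq_of_ne hjk, map_zero, mul_zero, hb, sum3 hji hki hjk, hrj,
    zero_mul, zero_add] at horth
  have hne : ∀ l, ap x e[l] ≠ 0 := fun l => ap_ne_zero x (by simp)
  rcases h with h | h
  · have h2 : ap x e[j] k ≠ 0 := fun h2 => hne j (funext fun l => by
      rcases cases3 hji hki hjk l with rfl | rfl | rfl
      exacts [hrj, h, h2])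
    rw [h, zero_mul, zero_add] at horth
    have h3 : ap x e[k] k = 0 :=
      (map_eq_zero σ).mp ((mul_eq_zero.mp horth).resolve_left h2)
    refine isMon_of_cols (fun l => if l = i then i else if l = j then k else j) fun l m hm => ?_
    rcases cases3 hji hki hjk l with rfl | rfl | rfl
    · simp only [↓reduceIte] at hm; exact hax m hm
    · simp only [hji, ↓reduceIte] at hm
      rcases cases3 hji hki hjk m with rfl | rfl | rfl
      exacts [hrj, h, absurd rfl hm]
    · simp only [hki, hjk.symm, ↓reduceIte] at hm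
      rcases cases3 hji hki hjk m with rfl | rfl | rfl
      exacts [hrk, absurd rfl hm, h3]
  · have h2 : ap x e[j] j ≠ 0 := fun h2 => hne j (funext fun l => by
      rcases cases3 hji hki hjk l with rfl | rfl | rfl
      exacts [hrj, h2, h])
    rw [h, zero_mul, add_zero] at horth
    have h3 : ap x e[k] j = 0 :=
      (map_eq_zero σ).mp ((mul_eq_zero.mp horth).resolve_left h2)
    refine isMon_of_cols id fun l m hm => ?_
    rcases cases3 hji hki hjk l with rfl | rfl | rfl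
    · exact hax m hm
    · rcases cases3 hji hki hjk m with rfl | rfl | rfl
      exacts [hrj, absurd rfl hm, h]
    · rcases cases3 hji hki hjk m with rfl | rfl | rfl
      exacts [hrk, h3, absurd rfl hm]

/-- Even characteristic. -/
lemma key_even [Fact p.Prime] [CharP F p] (hqn : q = p ^ n) (hq : 3 ≤ q) (h2 : (2 : F) = 0)
    (hζσ : σ ζ = -ζ) {x : GL (Fin 3) F} (hx : x ∈ X) {i : Fin 3}
    (hax : ∀ m, m ≠ i → ap x e[i] m = 0) : IsMon x ∨ HasT hf X := by
  by_cases hT : HasT hf X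
  · exact Or.inr hT
  refine Or.inl ?_
  obtain ⟨j, k, hji, hki, hjk⟩ := third i
  have hneg : ∀ y : F, -y = y := fun y => by linear_combination -y * h2
  have hζ' : σ ζ⁻¹ = ζ⁻¹ := by rw [map_inv₀, hζσ, hneg]
  -- the involutions of the monomial group
  have hsw : ∀ c ∈ cir σ, ∃ hv : ζ * hb σ (tri i j 0 1 c) (tri i j 0 1 c) = 0,
      T hf (tri i j 0 1 c) ζ⁻¹ hv ∈ X := by
    intro c hc
    have hd : ∀ l, tri i j 1 (σ c) c l ≠ 0 := fun l => ne_zero_of_mem_cir (tri_mem_cir one_mem_cir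
      (inv_eq_of_mem_cir hc ▸ inv_mem_cir hc) hc l)
    have hcc := mem_cir.mp hc
    have hv : ζ * hb σ (tri i j 0 1 c) (tri i j 0 1 c) = 0 := by
      rw [hb, sum3 hji hki hjk, tri_fst, tri_snd hji, tri_thd hki hjk, map_one]
      linear_combination ζ * hcc + ζ * h2
    refine ⟨hv, ?_⟩
    have e : T hf (tri i j 0 1 c) ζ⁻¹ hv = mo (Equiv.swap j k) (tri i j 1 (σ c) c) := by
      refine gl_ext fun y => funext fun m => ?_
      rw [ap_T hf, ap_mo hd, Equiv.symm_swap, Pi.add_apply, Pi.smul_apply, smul_eq_mul,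
        ← mul_assoc, inv_mul_cancel₀ hζ, one_mul, hb, sum3 hji hki hjk, tri_fst, tri_snd hji,
        tri_thd hki hjk, map_zero, map_one]
      rcases cases3 hji hki hjk m with rfl | rfl | rfl
      · rw [Equiv.swap_apply_of_ne_of_ne hji.symm hki.symm, tri_fst, tri_fst]; ring
      · rw [Equiv.swap_apply_left, tri_snd hji, tri_snd hji]
        linear_combination y m * h2
      · rw [Equiv.swap_apply_right, tri_thd hki hjk, tri_thd hki hjk]
        linear_combination (y m) * hcc + y m * h2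
    rw [e]
    exact tri_swap_mem hM hji hki hjk one_mem_cir (inv_eq_of_mem_cir hc ▸ inv_mem_cir hc) hc
      (by rw [one_mul, mul_comm, hcc, hneg])
  have hXI : X ≤ isom (fun u v : Fin 3 → F => ζ * hb σ u v) := by rw [isom_eq hζ]; exact hX
  have hrj := row_zero hX hx hax hji
  have hrk := row_zero hX hx hax hki
  have hnorm : ∀ c ∈ cir σ, nv σ (ap x e[j] j) (ap x e[k] j) c = 1 := by
    intro c hc
    obtain ⟨hv, hTc⟩ := hsw c hc
    set w := ap x (tri i j 0 1 c) with hw
    have hwl : ∀ l, w l = ap x e[j] l + c * ap x e[k] l := fun l => by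
      rw [hw, ap_expand, sum3 hji hki hjk, tri_fst, tri_snd hji, tri_thd hki hjk, zero_mul,
        zero_add, one_mul]
    have hwi : w i = 0 := by rw [hwl, hrj, hrk, mul_zero, zero_add]
    have hwv : ζ * hb σ w w = 0 := isotropic_ap hf (hXI hx) hv
    have hTw : T hf w ζ⁻¹ hwv ∈ X := by
      rw [← conj_T hf (hXI hx) hv]
      exact mul_mem (mul_mem hx hTc) (inv_mem hx)
    have hN : w j * σ (w j) + w k * σ (w k) = 0 := by
      have := (mul_eq_zero.mp hwv).resolve_left hζ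
      rwa [hb, sum3 hji hki hjk, hwi, zero_mul, zero_add] at this
    have hwj : w j ≠ 0 := by
      intro h
      rw [h, zero_mul, zero_add] at hN
      have hwk : w k = 0 := by
        rcases mul_eq_zero.mp hN with e | e
        exacts [e, (map_eq_zero σ).mp e]
      refine ap_ne_zero x (x := tri i j (0 : F) 1 c) (fun h0 => ?_) (funext fun l => ?_)
      · have := congrFun h0 j
        rw [tri_snd hji] at this
        simp at this
      · rcases cases3 hji hki hjk l with rfl | rfl | rfl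
        exacts [hwi, h, hwk]
    have hc' : w k / w j ∈ cir σ := by
      rw [mem_cir, map_div₀, div_mul_div_comm,
        div_eq_one_iff_eq (mul_ne_zero hwj ((map_ne_zero σ).mpr hwj))]
      linear_combination hN - (w j * σ (w j)) * h2
    obtain ⟨hv', hTc'⟩ := hsw _ hc'
    have hwe : w = w j • tri i j 0 1 (w k / w j) := by
      funext l
      rw [Pi.smul_apply, smul_eq_mul]
      rcases cases3 hji hki hjk l with rfl | rfl | rfl
      · rw [tri_fst, hwi, mul_zero]
      · rw [tri_snd hji, mul_one]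
      · rw [tri_thd hki hjk, mul_div_cancel₀ _ hwj]
    have hsm : ζ * hb σ (w j • tri i j 0 1 (w k / w j)) (w j • tri i j 0 1 (w k / w j)) = 0 :=
      hwe ▸ hwv
    have hTw' : T hf (w j • tri i j 0 1 (w k / w j)) ζ⁻¹ hsm ∈ X := by
      simpa only [← hwe] using hTw
    rw [T_smul hf hv', mul_comm (w j * σ (w j)) ζ⁻¹] at hTw'
    rw [nv, mul_comm (ap x e[k] j) c, ← hwl]
    by_contra hne
    refine hT (hasT_of_T_mem hσ hX hζ hf hv' hζ' (inv_ne_zero hζ) hTc'
      (Or.inr ⟨ζ⁻¹ * (w j * σ (w j)), ?_, ?_, ?_, hTw'⟩) hqn hq hM fun h0 => ?_)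
    · rw [map_mul, map_mul, hσ.invol, hζ']; ring
    · exact mul_ne_zero (inv_ne_zero hζ) (mul_ne_zero hwj ((map_ne_zero σ).mpr hwj))
    · intro e
      exact hne (mul_left_cancel₀ (inv_ne_zero hζ) (by rw [e, mul_one]))
    · have := congrFun h0 j
      rw [tri_snd hji] at this
      simp at this
  have hzero : ap x e[j] j = 0 ∨ ap x e[k] j = 0 := by
    by_contra h
    push Not at h
    obtain ⟨c, hc, hne⟩ := exists_nv_ne hσ h.1 h.2 1
    exact hne (hnorm c hc)
  rcases hzero with h | h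
  · exact isMon_of_block hX hx hji hki hjk hax (Or.inl h)
  · exact isMon_of_block hX hx hki hji hjk.symm hax (Or.inr h)

omit hM hζ hf hX in
/-- A nonsquare of the fixed field among the norms of `r + (1 - r) ν`. -/
lemma exists_nonsquare (hodd : q % 2 = 1) {r : F} (hr : σ r = r) (hr0 : r ≠ 0) (hr1 : r ≠ 1) :
    ∃ ν ∈ cir σ, nv σ r (1 - r) ν ≠ 0 ∧ ∀ s, σ s = s → s * s ≠ nv σ r (1 - r) ν := by
  by_contra hc
  push Not at hc
  have hq2 := hσ.two_le
  have hx0 : r ≠ 0 := hr0
  have hy0 : 1 - r ≠ 0 := sub_ne_zero.mpr (Ne.symm hr1)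
  -- the values
  set V := (cir σ).image (nv σ r (1 - r)) with hV
  have hVcard : q + 3 ≤ 2 * V.card := by
    have h1 : (1 : F) ∈ V := mem_image.mpr ⟨1, one_mem_cir, by simp [nv]⟩
    have hnot : (1 : F) ∉ ((cir σ).erase 1).image (nv σ r (1 - r)) := by
      intro h
      obtain ⟨ν, hν, hν'⟩ := mem_image.mp h
      obtain ⟨hν1, hνc⟩ := mem_erase.mp hν
      have hνn := mem_cir.mp hνc
      rw [nv_eq _ _ _ hνn, map_mul, map_sub, map_one, hr] at hν'
      have : r * (1 - r) * (σ ν + ν - 2) = 0 := by linear_combination hν'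
      have h' : σ ν + ν - 2 = 0 := (mul_eq_zero.mp this).resolve_left (mul_ne_zero hr0 hy0)
      exact hν1 (sub_eq_zero.mp (pow_eq_zero_iff two_ne_zero |>.mp
        (show (ν - 1) ^ 2 = 0 by linear_combination ν * h' - hνn)))
    have hsub : insert (1 : F) (((cir σ).erase 1).image (nv σ r (1 - r))) ⊆ V := by
      rw [insert_subset_iff]
      exact ⟨h1, image_subset_image (erase_subset _ _)⟩
    have := card_le_card hsub
    rw [card_insert_of_notMem hnot] at this
    have h3 := card_le_two_mul_image (σ := σ) hx0 hy0 (s := (cir σ).erase 1) (erase_subset _ _)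
    rw [card_erase_of_mem one_mem_cir, card_cir hσ] at h3
    omega
  have hsub : V ⊆ insert 0 (Polynomial.nthRoots ((q - 1) / 2) (1 : F)).toFinset := by
    intro x hx
    obtain ⟨ν, hν, rfl⟩ := mem_image.mp hx
    rw [mem_insert]
    refine or_iff_not_imp_left.mpr fun hne => ?_
    rw [Multiset.mem_toFinset, Polynomial.mem_nthRoots (by omega)]
    obtain ⟨s, hs, hss⟩ := hc ν hν hne
    have hs0 : s ≠ 0 := fun h => hne (by rw [← hss, h, mul_zero])
    have h1 : s ^ q = s := by rw [← hσ.pow, hs]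
    have h2' : s ^ (q - 1) = 1 := by
      have h3 : s ^ (q - 1) * s = 1 * s := by
        rw [← pow_succ, Nat.sub_add_cancel (by omega), h1, one_mul]
      exact mul_right_cancel₀ hs0 h3
    rw [← hss, ← sq, ← pow_mul, Nat.two_mul_div_two_of_even ?_, h2']
    rw [Nat.even_iff]; omega
  have h4 := (card_le_card hsub).trans (card_insert_le _ _)
  have h5 := (Multiset.toFinset_card_le _).trans
    (Polynomial.card_nthRoots ((q - 1) / 2) (1 : F))
  omega

omit [Fintype F] [DecidableEq F] hσ hX hM hζ hf in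
/-- The equation making the block have equal eigenvalues. -/
lemma trace_sq {a d Δ μ ρ t lam : F} (ht0 : t ≠ 0) (hρ : ρ * t = 2 - t + 2 * lam)
    (hlam : lam * lam = 1 - t) (e1 : μ * a = ρ * d) (hμΔ : μ * Δ * t = ρ * d * d) :
    (μ * a + d) ^ 2 = 4 * (μ * Δ) := by
  have key : (ρ + 1) ^ 2 * t = 4 * ρ := mul_right_cancel₀ ht0
    (by linear_combination (ρ * t + t + 2 + 2 * lam - 4) * hρ + 4 * hlam)
  refine mul_right_cancel₀ ht0 ?_
  rw [e1]
  linear_combination d ^ 2 * key - 4 * hμΔ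

omit [Fintype F] [DecidableEq F] hσ hX hM hζ hf in
lemma ap_pow_block {w : GL (Fin 3) F} {i : Fin 3} {v : Fin 3 → F} {φ : (Fin 3 → F) →ₗ[F] F}
    {θ η : F} (hvi : v i = 0) (hφv : φ v = 0) (hφi : φ e[i] = 0)
    (hw : ∀ y, ap w y = θ • (y + φ y • v) + ((η - θ) * y i) • (e[i] : Fin 3 → F)) (N : ℕ)
    (y : Fin 3 → F) :
    ap (w ^ N) y = θ ^ N • (y + ((N : F) * φ y) • v) + ((η ^ N - θ ^ N) * y i) • e[i] := by
  induction N with
  | zero => simp
  | succ N ih =>
    rw [pow_succ', ap_mul, ih, ap_add, ap_smul, ap_smul, ap_add, ap_smul, hw, hw, hw, hvi, hφi,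
      hφv, Pi.single_eq_same]
    simp only [mul_zero, zero_smul, add_zero, mul_one]
    push_cast
    module

/-- An element with a fixed axis and a suitable corner gives a transvection. -/
lemma hasT_of_block [Fact p.Prime] [CharP F p] (hqn : q = p ^ n) (hq : 3 ≤ q) (h2 : (2 : F) ≠ 0)
    {z : GL (Fin 3) F} (hz : z ∈ X) {i j k : Fin 3} (hji : j ≠ i) (hki : k ≠ i) (hjk : j ≠ k)
    (hax : ∀ m, m ≠ i → ap z e[i] m = 0) {lam : F}
    (ht0 : ap z e[j] j * σ (ap z e[j] j) ≠ 0)
    (ht1 : 1 - ap z e[j] j * σ (ap z e[j] j) ≠ 0)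
    (hlam : lam * lam = 1 - ap z e[j] j * σ (ap z e[j] j)) (hlamσ : σ lam = -lam) :
    HasT hf X := by
  have hXI : X ≤ isom (fun u v : Fin 3 → F => ζ * hb σ u v) := by rw [isom_eq hζ]; exact hX
  have hrj := row_zero hX hz hax hji
  have hrk := row_zero hX hz hax hki
  have hηc : ap z e[i] i ∈ cir σ := by
    have h := hb_ap (hX hz) (e[i] : Fin 3 → F) e[i]
    rw [hb_single_self, hb, sum3 hji hki hjk, hax j hji, hax k hki, zero_mul, add_zero,
      add_zero] at h
    exact mem_cir.mpr h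
  have hcol : ap z e[j] j * σ (ap z e[j] j) + ap z e[j] k * σ (ap z e[j] k) = 1 := by
    have h := hb_ap (hX hz) (e[j] : Fin 3 → F) e[j]
    rwa [hb_single_self, hb, sum3 hji hki hjk, hrj, zero_mul, zero_add] at h
  have hcol2 : ap z e[k] j * σ (ap z e[k] j) + ap z e[k] k * σ (ap z e[k] k) = 1 := by
    have h := hb_ap (hX hz) (e[k] : Fin 3 → F) e[k]
    rwa [hb_single_self, hb, sum3 hji hki hjk, hrk, zero_mul, zero_add] at h
  have horth : ap z e[k] j * σ (ap z e[j] j) + ap z e[k] k * σ (ap z e[j] k) = 0 := by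
    have h := hb_ap (hX hz) (e[k] : Fin 3 → F) e[j]
    rwa [hb_single_left, Pi.single_eq_of_ne hjk.symm, map_zero, mul_zero, hb, sum3 hji hki hjk,
      hrk, zero_mul, zero_add] at h
  obtain ⟨a, ha⟩ : ∃ a, a = ap z e[j] j := ⟨_, rfl⟩
  obtain ⟨b, hb'⟩ : ∃ b, b = ap z e[k] j := ⟨_, rfl⟩
  obtain ⟨c, hc'⟩ : ∃ c, c = ap z e[j] k := ⟨_, rfl⟩
  obtain ⟨d, hd'⟩ : ∃ d, d = ap z e[k] k := ⟨_, rfl⟩
  rw [← ha] at hcol horth ht0 ht1 hlam
  rw [← hc'] at hcol horth
  rw [← hb', ← hd'] at hcol2 horth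
  have hrow : a * σ a + b * σ b = 1 := by
    have hinv : ∀ l, ap z⁻¹ e[j] l = σ (ap z e[l] j) := fun l => ap_inv_entry (hX hz) l j
    have h' := hb_ap (inv_mem (hX hz)) (e[j] : Fin 3 → F) e[j]
    rw [hb_single_self, hb, sum3 hji hki hjk, hinv, hinv, hinv, hax j hji, map_zero, zero_mul,
      zero_add, hσ.invol, hσ.invol, ← ha, ← hb'] at h'
    linear_combination h'
  have hb0 : b ≠ 0 := fun h => ht1 (by rw [h, zero_mul, add_zero] at hrow; rw [hrow, sub_self])
  have ha0 : a ≠ 0 := fun h => ht0 (by rw [h, zero_mul])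
  obtain ⟨ρ, hρ⟩ : ∃ ρ, ρ * (a * σ a) = 2 - a * σ a + 2 * lam := ⟨_, div_mul_cancel₀ _ ht0⟩
  have hρc : ρ ∈ cir σ := by
    rw [mem_cir]
    have h1 := congrArg σ hρ
    simp only [map_mul, map_add, map_sub, map_ofNat, hσ.invol, hlamσ] at h1
    refine mul_right_cancel₀ (mul_ne_zero ht0 ht0) ?_
    linear_combination (σ ρ * (a * σ a)) * hρ + (2 - a * σ a + 2 * lam) * h1 - 4 * hlam
  obtain ⟨Δ, hΔ⟩ : ∃ Δ, Δ = a * d - b * c := ⟨_, rfl⟩
  have hdΔ : d = Δ * σ a := by rw [hΔ]; linear_combination c * horth - d * hcol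
  have hΔc : Δ ∈ cir σ := by
    rw [mem_cir, hΔ, map_sub, map_mul, map_mul]
    linear_combination (b * σ b + d * σ d) * hcol + hcol2 - (σ b * a + σ d * c) * horth
  have hσa : σ a ≠ 0 := (map_ne_zero σ).mpr ha0
  obtain ⟨μ, hμdef⟩ : ∃ μ, μ = ρ * Δ * (σ a / a) := ⟨_, rfl⟩
  have hμc : μ ∈ cir σ := by
    rw [hμdef]
    refine mul_mem_cir (mul_mem_cir hρc hΔc) ?_
    rw [mem_cir, map_div₀, hσ.invol]
    field_simp
  have hμ0 := ne_zero_of_mem_cir hμc
  have htr : (μ * a + d) ^ 2 = 4 * (μ * Δ) :=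
    trace_sq ht0 hρ hlam (by rw [hμdef, hdΔ]; field_simp) (by rw [hμdef, hdΔ]; field_simp)
  obtain ⟨θ, hθ⟩ : ∃ θ, θ * 2 = μ * a + d := ⟨_, div_mul_cancel₀ _ h2⟩
  have hdet : θ * θ = μ * Δ := by
    refine mul_right_cancel₀ (mul_ne_zero h2 h2) ?_
    linear_combination (θ * 2 + μ * a + d) * hθ + htr
  have hθc : θ * θ ∈ cir σ := hdet ▸ mul_mem_cir hμc hΔc
  have hθ0 : θ ≠ 0 := fun h => ne_zero_of_mem_cir hθc (by rw [h, zero_mul])
  have hd3 : ∀ l, tri i j μ⁻¹ μ 1 l ≠ 0 := fun l =>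
    ne_zero_of_mem_cir (tri_mem_cir (inv_mem_cir hμc) hμc one_mem_cir l)
  have hD3 := tri_dia_mem hM hji hki hjk (inv_mem_cir hμc) hμc one_mem_cir
    (by rw [inv_mul_cancel₀ hμ0, one_mul])
  set w := z * dia (tri i j μ⁻¹ μ 1) with hw
  have hwX : w ∈ X := mul_mem hz hD3
  obtain ⟨η, hη⟩ : ∃ η, η = ap z e[i] i * μ⁻¹ := ⟨_, rfl⟩
  obtain ⟨v, hv⟩ : ∃ v : Fin 3 → F, v = tri i j 0 (b / θ) (1 - μ * a / θ) := ⟨_, rfl⟩
  let φ : (Fin 3 → F) →ₗ[F] F :=
    ((μ * a - θ) / b) • (LinearMap.proj j : (Fin 3 → F) →ₗ[F] F) + LinearMap.proj k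
  have hφ : ∀ y, φ y = (μ * a - θ) / b * y j + y k := fun y => rfl
  have hφv : φ v = 0 := by
    rw [hφ, hv, tri_snd hji, tri_thd hki hjk]; field_simp; ring
  have hvi : v i = 0 := by rw [hv, tri_fst]
  have hφi : φ e[i] = 0 := by
    rw [hφ, Pi.single_eq_of_ne hji, Pi.single_eq_of_ne hki, mul_zero, add_zero]
  have f1 : θ * (b / θ) = b := mul_div_cancel₀ b hθ0
  have f2 : θ * (1 - μ * a / θ) = θ - μ * a := by rw [mul_sub, mul_one, mul_div_cancel₀ _ hθ0]
  have f3 : (μ * a - θ) / b * b = μ * a - θ := div_mul_cancel₀ _ hb0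
  have f4 : (μ * a - θ) / b * (θ - μ * a) = μ * c := by
    refine mul_right_cancel₀ hb0 ?_
    linear_combination (θ - μ * a) * f3 - hdet + μ * a * hθ - μ * hΔ
  have hwy : ∀ y, ap w y = θ • (y + φ y • v) + ((η - θ) * y i) • (e[i] : Fin 3 → F) := by
    intro y
    funext m
    rw [hw, ap_mul, ap_expand z, sum3 hji hki hjk, ap_dia hd3, ap_dia hd3, ap_dia hd3, tri_fst,
      tri_snd hji, tri_thd hki hjk, Pi.add_apply, Pi.smul_apply, Pi.smul_apply, Pi.add_apply,
      Pi.smul_apply, smul_eq_mul, smul_eq_mul, smul_eq_mul, hφ, hv]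
    rcases cases3 hji hki hjk m with h | h | h <;> subst m
    · rw [hrj, hrk, tri_fst, Pi.single_eq_same, hη]; ring
    · rw [hax j hji, tri_snd hji, Pi.single_eq_of_ne hji, ← ha, ← hb']
      linear_combination -((μ * a - θ) / b * y j + y k) * f1 - y j * f3
    · rw [hax k hki, tri_thd hki hjk, Pi.single_eq_of_ne hki, ← hc', ← hd']
      linear_combination -((μ * a - θ) / b * y j + y k) * f2 - y j * f4 - y k * hθ
  have hqF : (q : F) = 0 := by
    rw [hqn, Nat.cast_pow, CharP.cast_eq_zero F p, zero_pow]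
    rintro rfl
    simp at hqn
    omega
  have hθe : θ ^ (2 * (q + 1)) = 1 := by rw [pow_mul, sq, pow_card_cir hσ hθc]
  have hηe : η ^ (2 * (q + 1)) = 1 := by
    rw [mul_comm, pow_mul, pow_card_cir hσ (hη ▸ mul_mem_cir hηc (inv_mem_cir hμc)), one_pow]
  have hh : ((2 : F) • φ) v = 0 := by rw [LinearMap.smul_apply, hφv, smul_zero]
  have htv : tv v ((2 : F) • φ) hh = w ^ (2 * (q + 1)) := by
    refine gl_ext fun y => ?_
    rw [ap_tv, ap_pow_block hvi hφv hφi hwy, hθe, hηe, sub_self, zero_mul, zero_smul, add_zero,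
      one_smul, LinearMap.smul_apply, smul_eq_mul, Nat.cast_mul, Nat.cast_ofNat, Nat.cast_add,
      hqF, Nat.cast_one, zero_add, mul_one]
  have hne : tv v ((2 : F) • φ) hh ≠ 1 := by
    intro e
    have := congrArg (fun g => ap g (e[k] : Fin 3 → F) j) e
    simp only [ap_tv, ap_one, Pi.add_apply, Pi.smul_apply, LinearMap.smul_apply, smul_eq_mul,
      hφ, hv, tri_snd hji, Pi.single_eq_same, Pi.single_eq_of_ne hjk, mul_zero, zero_add,
      mul_one] at this
    exact mul_ne_zero h2 (div_ne_zero hb0 hθ0) this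
  have hmem : tv v ((2 : F) • φ) hh ∈ X := htv ▸ pow_mem hwX _
  obtain ⟨hvv, c₀, hc₀, hc₀0, hv0, hT⟩ := exists_T_of_tv hf hh (hXI hmem) hne
  exact hasT_of_T_mem hσ hX hζ hf hvv hc₀ hc₀0 (hT ▸ hmem) (Or.inl h2) hqn hq hM hv0

/-- Odd characteristic. -/
lemma key_odd [Fact p.Prime] [CharP F p] (hqn : q = p ^ n) (hq : 3 ≤ q) (h2 : (2 : F) ≠ 0)
    {x : GL (Fin 3) F} (hx : x ∈ X) {i : Fin 3} (hax : ∀ m, m ≠ i → ap x e[i] m = 0) :
    IsMon x ∨ HasT hf X := by
  by_cases hxm : IsMon x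
  · exact Or.inl hxm
  refine Or.inr ?_
  have hXI : X ≤ isom (fun u v : Fin 3 → F => ζ * hb σ u v) := by rw [isom_eq hζ]; exact hX
  obtain ⟨j, k, hji, hki, hjk⟩ := third i
  have hrj := row_zero hX hx hax hji
  have hrk := row_zero hX hx hax hki
  have hN : ap x e[j] j * σ (ap x e[j] j) + ap x e[j] k * σ (ap x e[j] k) = 1 := by
    have h := hb_ap (hX hx) (e[j] : Fin 3 → F) e[j]
    rw [hb_single_self, hb, sum3 hji hki hjk, hrj, zero_mul, zero_add] at h
    exact h
  set r := ap x e[j] j * σ (ap x e[j] j) with hr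
  have hjj : ap x e[j] j ≠ 0 := fun h => hxm (isMon_of_block hX hx hji hki hjk hax (Or.inl h))
  have hjk0 : ap x e[j] k ≠ 0 := fun h => hxm (isMon_of_block hX hx hji hki hjk hax (Or.inr h))
  have hrσ : σ r = r := by rw [hr, map_mul, hσ.invol, mul_comm]
  have hr0 : r ≠ 0 := mul_ne_zero hjj ((map_ne_zero σ).mpr hjj)
  have hr1 : r ≠ 1 := fun h => mul_ne_zero hjk0 ((map_ne_zero σ).mpr hjk0)
    (by linear_combination hN - h)
  have hqodd : q % 2 = 1 := Nat.odd_iff.mp (by
    rw [hqn]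
    refine ((Fact.out : p.Prime).odd_of_ne_two ?_).pow
    intro e; subst e; exact h2 CharTwo.two_eq_zero)
  obtain ⟨ν, hν, hns0, hns⟩ := exists_nonsquare hσ hqodd hrσ hr0 hr1
  -- an element with a nonsquare norm in the corner
  have hν0 := ne_zero_of_mem_cir hν
  have hd1 : ∀ l, tri i j ν⁻¹ 1 ν l ≠ 0 := fun l =>
    ne_zero_of_mem_cir (tri_mem_cir (inv_mem_cir hν) one_mem_cir hν l)
  have hD := tri_dia_mem hM hji hki hjk (inv_mem_cir hν) one_mem_cir hν
    (by rw [mul_one, inv_mul_cancel₀ hν0])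
  have hd2 : ∀ l, tri i j (-1) 1 1 l ≠ (0 : F) := fun l => by
    simp only [tri]; split_ifs <;> simp
  have hPm := tri_swap_mem hM hji hki hjk (neg_mem_cir one_mem_cir) one_mem_cir one_mem_cir
    (σ := σ) (by simp)
  set y := x * dia (tri i j ν⁻¹ 1 ν) * x⁻¹ with hy
  set z := y * mo (Equiv.swap j k) (tri i j (-1) 1 1) with hz
  have hyX : y ∈ X := mul_mem (mul_mem hx hD) (inv_mem hx)
  have hzX : z ∈ X := mul_mem hyX hPm
  have hinv : ∀ l, ap x⁻¹ e[j] l = σ (ap x e[l] j) := fun l => ap_inv_entry (hX hx) l j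
  have hxinv_i : ap x⁻¹ e[i] = (ap x e[i] i)⁻¹ • (e[i] : Fin 3 → F) := by
    have hxi : ap x e[i] = (ap x e[i] i) • (e[i] : Fin 3 → F) := by
      ext l
      by_cases h : l = i
      · subst h; simp
      · simp [h, hax l h]
    have h0 : ap x e[i] i ≠ 0 := fun h => ap_ne_zero x (x := (e[i] : Fin 3 → F)) (by simp)
      (by rw [hxi, h, zero_smul])
    apply ap_injective x
    rw [ap_ap_inv, ap_smul]
    nth_rw 2 [hxi]
    rw [smul_smul, inv_mul_cancel₀ h0, one_smul]
  have hDi : ap (dia (tri i j ν⁻¹ 1 ν)) e[i] = ν⁻¹ • (e[i] : Fin 3 → F) := by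
    funext l
    rw [ap_dia hd1]
    by_cases h : l = i
    · subst h; simp [tri]
    · simp [h]
  have hyi : ∀ m, m ≠ i → ap y e[i] m = 0 := by
    intro m hm
    rw [hy, ap_mul, ap_mul, hxinv_i, ap_smul, hDi, ap_smul, ap_smul]
    simp [hax m hm]
  have hPi : ap (mo (Equiv.swap j k) (tri i j (-1 : F) 1 1)) e[i] = -(e[i] : Fin 3 → F) := by
    funext l
    rw [ap_mo hd2, Equiv.symm_swap]
    rcases cases3 hji hki hjk l with rfl | rfl | rfl
    · simp [Equiv.swap_apply_of_ne_of_ne hji.symm hki.symm, tri]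
    · simp [hki, hji]
    · simp [hji, hki]
  have hzax : ∀ m, m ≠ i → ap z e[i] m = 0 := by
    intro m hm
    rw [hz, ap_mul, hPi, ← neg_one_smul F (e[i] : Fin 3 → F), ap_smul]
    simp [hyi m hm]
  have hyj : ap y e[j] j = r + (1 - r) * ν := by
    rw [hy, ap_mul, ap_mul, ap_expand x, sum3 hji hki hjk, ap_dia hd1, ap_dia hd1, ap_dia hd1,
      hinv, hinv, hinv, tri_snd hji, tri_thd hki hjk, hax j hji]
    have e1 : ap x e[k] j * σ (ap x e[k] j) = 1 - r := by
      have h := hb_ap_left (hX hx) (e[j] : Fin 3 → F) e[j]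
      have h' := hb_ap (inv_mem (hX hx)) (e[j] : Fin 3 → F) e[j]
      rw [hb_single_self, hb, sum3 hji hki hjk, hinv, hinv, hinv, hax j hji, map_zero, zero_mul,
        zero_add, hσ.invol, hσ.invol, mul_comm (σ _), mul_comm (σ _), ← hr] at h'
      linear_combination h'
    linear_combination ν * e1
  have hzk : ap z e[k] j * σ (ap z e[k] j) = nv σ r (1 - r) ν := by
    have : ap (mo (Equiv.swap j k) (tri i j (-1 : F) 1 1)) e[k] = (e[j] : Fin 3 → F) := by
      funext l
      rw [ap_mo hd2, Equiv.symm_swap]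
      rcases cases3 hji hki hjk l with rfl | rfl | rfl
      · simp [Equiv.swap_apply_of_ne_of_ne hji.symm hki.symm, hki.symm, hji.symm]
      · simp [tri, hji]
      · simp [hjk.symm]
    rw [hz, ap_mul, this, hyj, nv]
  clear_value z
  clear hz hyi hyj hPi hPm hDi hxinv_i hinv hD
  -- now work with `z`
  set t := ap z e[j] j * σ (ap z e[j] j) with ht
  have hzrj := row_zero hX hzX hzax hji
  have hzrk := row_zero hX hzX hzax hki
  have hrow : t + ap z e[k] j * σ (ap z e[k] j) = 1 := by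
    have hinv' : ∀ l, ap z⁻¹ e[j] l = σ (ap z e[l] j) := fun l => ap_inv_entry (hX hzX) l j
    have h' := hb_ap (inv_mem (hX hzX)) (e[j] : Fin 3 → F) e[j]
    rw [hb_single_self, hb, sum3 hji hki hjk, hinv', hinv', hinv', hzax j hji, map_zero, zero_mul,
      zero_add, hσ.invol, hσ.invol] at h'
    linear_combination h'
  have hts : ∀ s, σ s = s → s * s ≠ 1 - t := fun s hs e => hns s hs (by
    rw [← hzk, e]; linear_combination -hrow)
  have ht1 : 1 - t ≠ 0 := fun e => hns0 (by rw [← hzk]; linear_combination hrow + e)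
  have ht0 : t ≠ 0 := by
    intro e
    exact hts 1 (map_one σ) (by rw [e]; ring)
  have htσ : σ t = t := by rw [ht, map_mul, hσ.invol, mul_comm]
  obtain ⟨lam, hlam⟩ : ∃ lam : F, lam * lam = 1 - t := by
    have hsq : IsSquare (1 - t) := by
      rw [FiniteField.isSquare_iff (fun e => h2 (by
        haveI := ringChar.charP F
        rw [← Nat.cast_ofNat, ← e]; exact CharP.cast_eq_zero F (ringChar F))) ht1]
      have hq1 : (1 - t) ^ (q - 1) = 1 := by
        have h1 : (1 - t) ^ q = 1 - t := by rw [← hσ.pow, map_sub, map_one, htσ]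
        have h3 : (1 - t) ^ (q - 1) * (1 - t) = 1 * (1 - t) := by
          rw [← pow_succ, Nat.sub_add_cancel (by omega), h1, one_mul]
        exact mul_right_cancel₀ ht1 h3
      obtain ⟨m, hm⟩ : (q - 1) ∣ Fintype.card F / 2 := by
        rw [hσ.card]
        refine ⟨(q + 1) / 2, ?_⟩
        obtain ⟨w, hw⟩ : ∃ w, q = 2 * w + 1 := ⟨q / 2, by omega⟩
        subst hw
        rw [show 2 * w + 1 + 1 = 2 * (w + 1) by ring, Nat.mul_div_cancel_left _ two_pos,
          show (2 * w + 1) ^ 2 = 1 + 2 * ((2 * w + 1 - 1) * (w + 1)) by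
            rw [Nat.add_sub_cancel]; ring,
          Nat.add_mul_div_left _ _ two_pos]
        simp
      rw [hm, pow_mul, hq1, one_pow]
    obtain ⟨l, hl⟩ := hsq
    exact ⟨l, hl.symm⟩
  have hlamσ : σ lam = -lam := by
    have h1 : (σ lam - lam) * (σ lam + lam) = 0 := by
      have := congrArg σ hlam
      rw [map_mul, map_sub, map_one, htσ] at this
      linear_combination this - hlam
    rcases mul_eq_zero.mp h1 with h | h
    · exact absurd hlam (hts lam (sub_eq_zero.mp h))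
    · linear_combination h
  exact hasT_of_block hσ hX hM hζ hf hqn hq h2 hzX hji hki hjk hzax ht0 ht1 hlam hlamσ

/-- An element of `X` fixing an axis is monomial, unless `X` has every transvection. -/
theorem isMon_or_hasT [Fact p.Prime] [CharP F p] (hqn : q = p ^ n) (hq : 3 ≤ q) (hζσ : σ ζ = -ζ)
    {x : GL (Fin 3) F} (hx : x ∈ X) {i : Fin 3} (hax : ∀ m, m ≠ i → ap x e[i] m = 0) :
    IsMon x ∨ HasT hf X := by
  by_cases h2 : (2 : F) = 0
  · exact key_even hσ hX hM hζ hf hqn hq h2 hζσ hx hax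
  · exact key_odd hσ hX hM hζ hf hqn hq h2 hx hax

end CfsgLib.Geometric.SUThree.Frame
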