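import Cfsg.Agent.Lib.Geometric.SUThree.Pair
import Cfsg.Agent.Lib.Geometric.SUThree.FrameBasic

/-!
A transvection in a subgroup containing the monomial elements gives every transvection.
-/

set_option autoImplicit false

namespace CfsgLib.Geometric.SUThree.Frame

open Matrix Finset CfsgLib.UMon CfsgLib.Geometric CfsgLib.Geometric.Unitary

variable {F : Type*} [Field F] [Fintype F] [DecidableEq F] {σ : F ≃+* F} {q p n : ℕ}

lemma card_fixedK (hσ : IsConj σ q) : Nat.card (fixedK σ) = q := by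
  rw [← card_fxd hσ]
  exact Nat.subtype_card _ fun x => by simp [fxd, mem_fixedK]

/-- A good generator in a set containing enough elements of the fixed field. -/
lemma exists_good (hσ : IsConj σ q) [Fact p.Prime] [CharP F p] (hqn : q = p ^ n) {h : ℕ}
    (hh : ∀ i, i ∣ n → i < n → i ≤ h) (S : Finset F) (hS : ∀ x ∈ S, σ x = x ∧ x ≠ 0)
    (h1 : ∑ i ∈ Icc 1 h, (p ^ i - 1) < S.card)
    (h2 : q = 9 → ∑ i ∈ Icc 1 h, (p ^ i - 1) + 2 < S.card) :
    ∃ γ ∈ S, Gen σ γ ∧ (Nat.card (fixedK σ) = 9 → γ ^ 2 ≠ -1) := by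
  classical
  have hK : Nat.card (fixedK σ) = p ^ n := by rw [card_fixedK hσ, hqn]
  by_cases h9 : q = 9
  · have hbad : (S.filter fun x => x ^ 2 = -1).card ≤ 2 := by
      refine (card_le_card ?_).trans ((Multiset.toFinset_card_le _).trans
        (Polynomial.card_nthRoots 2 (-1 : F)))
      intro x hx
      rw [Multiset.mem_toFinset, Polynomial.mem_nthRoots two_pos]
      exact (mem_filter.mp hx).2
    have := card_filter_add_card_filter_not (s := S) (fun x => x ^ 2 = -1)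
    obtain ⟨γ, hγ, hg⟩ := exists_gen hK hh (S.filter fun x => ¬ x ^ 2 = -1)
      (fun x hx => hS x (mem_filter.mp hx).1) (by have := h2 h9; omega)
    exact ⟨γ, (mem_filter.mp hγ).1, hg, fun _ => (mem_filter.mp hγ).2⟩
  · obtain ⟨γ, hγ, hg⟩ := exists_gen hK hh S hS h1
    exact ⟨γ, hγ, hg, fun e => absurd (card_fixedK hσ ▸ e) h9⟩

/-- At least half of the fixed field suffices. -/
lemma exists_good_half (hσ : IsConj σ q) [Fact p.Prime] [CharP F p] (hqn : q = p ^ n)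
    (S : Finset F) (hS : ∀ x ∈ S, σ x = x ∧ x ≠ 0) (hcard : q ≤ 2 * S.card) :
    ∃ γ ∈ S, Gen σ γ ∧ (Nat.card (fixedK σ) = 9 → γ ^ 2 ≠ -1) := by
  have hp := (Fact.out : p.Prime)
  have hh : ∀ i, i ∣ n → i < n → i ≤ n / 2 := by
    rintro i ⟨m, rfl⟩ hi
    rcases m with _ | _ | m
    · simp at hi
    · simp at hi
    · rw [Nat.le_div_iff_mul_le two_pos]; exact Nat.mul_le_mul_left i (by omega)
  have hsum := sum_pow_sub_one_le hp.two_le (n / 2)
  have hq2 := hσ.two_le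
  have hb : (p ^ (n / 2)) ^ 2 ≤ q := by
    rw [hqn, ← pow_mul]; exact Nat.pow_le_pow_right hp.pos (Nat.div_mul_le_self n 2)
  refine exists_good hσ hqn hh S hS ?_ fun h9 => ?_
  · by_cases h0 : n / 2 = 0
    · rw [h0, Finset.Icc_eq_empty (by omega), Finset.sum_empty]; omega
    · have : 4 * p ^ (n / 2) ≤ (p ^ (n / 2)) ^ 2 + 4 := by
        generalize p ^ (n / 2) = x
        rcases le_or_gt 2 x with hx | hx
        · obtain ⟨y, rfl⟩ := Nat.exists_eq_add_of_le hx; nlinarith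
        · interval_cases x <;> simp
      omega
  · subst h9
    have hn0 : n ≠ 0 := by rintro rfl; simp at hqn
    have hp3 : p = 3 := by
      have h3 : Nat.Prime 3 := Nat.prime_three
      have : p ∣ 3 := hp.dvd_of_dvd_pow (n := 2) (by
        rw [show (3 : ℕ) ^ 2 = p ^ n from hqn]; exact dvd_pow_self p hn0)
      exact (Nat.prime_dvd_prime_iff_eq hp h3).mp this
    subst hp3
    have : n = 2 := Nat.pow_right_injective (show 2 ≤ 3 by omega)
      (show 3 ^ n = 3 ^ 2 by omega)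
    subst this
    rw [show 2 / 2 = 1 from rfl, Finset.Icc_self, Finset.sum_singleton]
    omega

/-- A sixth of the fixed field suffices in degree prime to two, with one exception. -/
lemma exists_good_sixth (hσ : IsConj σ q) [Fact p.Prime] [CharP F p] (hqn : q = p ^ n)
    (h3 : 3 ∣ q + 1) (h8 : q ≠ 8) (hq : 3 ≤ q)
    (S : Finset F) (hS : ∀ x ∈ S, σ x = x ∧ x ≠ 0) (hcard : q ≤ 6 * S.card + 2) :
    ∃ γ ∈ S, Gen σ γ ∧ (Nat.card (fixedK σ) = 9 → γ ^ 2 ≠ -1) := by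
  have hp := (Fact.out : p.Prime)
  have hodd : ¬ 2 ∣ n := by
    rintro ⟨r, rfl⟩
    rw [mul_comm, pow_mul] at hqn
    generalize p ^ r = x at hqn
    subst hqn
    have : x ^ 2 % 3 ≠ 2 := by
      rw [Nat.pow_mod]; have := Nat.mod_lt x (show 3 > 0 by norm_num)
      interval_cases x % 3 <;> simp
    omega
  have hh : ∀ i, i ∣ n → i < n → i ≤ n / 3 := by
    rintro i ⟨m, rfl⟩ hi
    rw [Nat.le_div_iff_mul_le (by norm_num)]
    refine Nat.mul_le_mul_left i ?_
    rcases m with _ | _ | _ | m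
    · simp at hi
    · simp at hi
    · exact absurd (dvd_mul_left 2 i) hodd
    · omega
  have hsum := sum_pow_sub_one_le hp.two_le (n / 3)
  refine exists_good hσ hqn hh S hS ?_ fun h9 => by omega
  by_cases h0 : n / 3 = 0
  · rw [h0, Finset.Icc_eq_empty (by omega), Finset.sum_empty]; omega
  have hb : (p ^ (n / 3)) ^ 3 ≤ q := by
    rw [hqn, ← pow_mul]; exact Nat.pow_le_pow_right hp.pos (Nat.div_mul_le_self n 3)
  rcases le_or_gt 4 (p ^ (n / 3)) with hx | hx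
  · have : 16 * p ^ (n / 3) ≤ (p ^ (n / 3)) ^ 3 := by
      generalize p ^ (n / 3) = x at hx ⊢
      have := Nat.mul_le_mul hx hx
      nlinarith
    omega
  · have hle : p ≤ p ^ (n / 3) := Nat.le_self_pow h0 p
    have hp2 : p = 2 := by
      have := hp.two_le
      rcases (show p = 2 ∨ p = 3 by omega) with h | h
      · exact h
      · exfalso
        subst h
        have : 3 ∣ q := hqn ▸ dvd_pow_self 3 (by omega)
        omega
    subst hp2
    have hn3 : n / 3 = 1 := by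
      by_contra hne
      have : 2 ^ 2 ≤ 2 ^ (n / 3) := Nat.pow_le_pow_right (by norm_num) (by omega)
      omega
    have hn : n = 5 := by
      have : n ≠ 3 := fun h => h8 (by rw [hqn, h]; norm_num)
      omega
    subst hn
    rw [hn3, Finset.Icc_self, Finset.sum_singleton]
    omega

/-- The values `N (μ - 1)` for `μ` in a set of norm-one elements. -/
lemma card_values (hσ : IsConj σ q) {W : Finset F} (hW : W ⊆ cir σ) (h1 : (1 : F) ∉ W) {R : F}
    (hR : σ R = R) (hR0 : R ≠ 0) :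
    (∀ x ∈ W.image (fun μ => R * nv σ (-1) 1 μ), σ x = x ∧ x ≠ 0) ∧
      W.card ≤ 2 * (W.image (fun μ => R * nv σ (-1) 1 μ)).card := by
  refine ⟨fun x hx => ?_, ?_⟩
  · obtain ⟨μ, hμ, rfl⟩ := mem_image.mp hx
    have h := nv_mem_fxd hσ (-1) 1 μ
    simp only [fxd, mem_filter] at h
    refine ⟨by rw [map_mul, hR, h.2], mul_ne_zero hR0 ?_⟩
    have : -1 + 1 * μ ≠ 0 := fun e => h1 (by
      rw [show (1 : F) = μ by linear_combination -e]; exact hμ)
    exact mul_ne_zero this ((map_ne_zero σ).mpr this)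
  · have h := card_le_two_mul_image (σ := σ) (x := -1) (y := 1) (by simp) one_ne_zero hW
    rwa [show (fun μ => R * nv σ (-1) 1 μ) = (R * ·) ∘ nv σ (-1) 1 from rfl, ← image_image,
      card_image_of_injective _ (mul_right_injective₀ hR0)]

/-- Cubes of norm-one elements. -/
lemma card_cubes (hσ : IsConj σ q) :
    q ≤ 3 * (((cir σ).image (· ^ 3)).erase 1).card + 2 ∧
      (¬ 3 ∣ q + 1 → q ≤ (((cir σ).image (· ^ 3)).erase 1).card) := by
  have hone : (1 : F) ∈ (cir σ).image (· ^ 3) := mem_image.mpr ⟨1, one_mem_cir, one_pow 3⟩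
  have hc := card_cir hσ
  have he := card_erase_add_one hone
  constructor
  · have : (cir σ).card ≤ 3 * ((cir σ).image (· ^ 3)).card := by
      refine card_le_mul_card_image (f := (· ^ 3)) (cir σ) 3 fun b _ => ?_
      refine (card_le_card ?_).trans ((Multiset.toFinset_card_le _).trans
        (Polynomial.card_nthRoots 3 b))
      intro x hx
      rw [Multiset.mem_toFinset, Polynomial.mem_nthRoots (by norm_num)]
      exact (mem_filter.mp hx).2
    omega
  · intro h3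
    have : ((cir σ).image (· ^ 3)).card = (cir σ).card := by
      refine card_image_of_injOn fun x hx y hy hxy => ?_
      have hy0 := ne_zero_of_mem_cir hy
      have h1 : (x / y) ^ 3 = 1 := by
        rw [div_pow, div_eq_one_iff_eq (pow_ne_zero _ hy0)]; exact hxy
      have h2 := pow_card_cir hσ (div_mem_cir hx hy)
      have h4 : (x / y) ^ Nat.gcd 3 (q + 1) = 1 := pow_gcd_eq_one.mpr ⟨h1, h2⟩
      rw [(Nat.prime_three.coprime_iff_not_dvd.mpr h3).gcd_eq_one, pow_one,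
        div_eq_one_iff_eq hy0] at h4
      exact h4
    omega

variable {ζ : F}

/-- The invariant of a transvection and its conjugate under a diagonal element, up to the factor
`N (μ - 1)`. -/
def rr (σ : F ≃+* F) (ζ c d a : F) : F := c * d * (ζ * σ ζ * (a * σ a) ^ 2)

omit [Fintype F] [DecidableEq F] in
lemma rr_ne_zero {c d a : F} (hζ : ζ ≠ 0) (hc : c ≠ 0) (hd : d ≠ 0) (ha : a ≠ 0) :
    rr σ ζ c d a ≠ 0 :=
  mul_ne_zero (mul_ne_zero hc hd) (mul_ne_zero (mul_ne_zero hζ ((map_ne_zero σ).mpr hζ))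
    (pow_ne_zero _ (mul_ne_zero ha ((map_ne_zero σ).mpr ha))))

omit [DecidableEq F] in
lemma rr_fixed (hσ : IsConj σ q) {c d a : F} (hc : σ c = c) (hd : σ d = d) :
    σ (rr σ ζ c d a) = rr σ ζ c d a := by
  simp only [rr, map_mul, map_pow, hσ.invol, hc, hd]
  ring

/-- A good value on the cubes. -/
lemma exists_cube_value (hσ : IsConj σ q) [Fact p.Prime] [CharP F p] (hqn : q = p ^ n) (hq : 3 ≤ q)
    (hζ : ζ ≠ 0) {a : F} (ha : a ≠ 0) {c : F} (hc : σ c = c) (hc0 : c ≠ 0) {P : F → Prop}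
    (hPc : P c) (hex : (2 : F) ≠ 0 ∨ ∃ c', σ c' = c' ∧ c' ≠ 0 ∧ c' ≠ c ∧ P c') :
    ∃ d, σ d = d ∧ d ≠ 0 ∧ P d ∧ ∃ μ ∈ ((cir σ).image (· ^ 3)).erase 1,
      rr σ ζ c d a * nv σ (-1) 1 μ ≠ 0 ∧ Gen σ (rr σ ζ c d a * nv σ (-1) 1 μ) ∧
      (Nat.card (fixedK σ) = 9 → (rr σ ζ c d a * nv σ (-1) 1 μ) ^ 2 ≠ -1) := by
  obtain ⟨hW3, hWn⟩ := card_cubes hσ
  have hWc : ((cir σ).image (· ^ 3)).erase 1 ⊆ cir σ := (erase_subset _ _).trans fun x hx => by
    obtain ⟨y, hy, rfl⟩ := mem_image.mp hx; exact pow_mem_cir hy 3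
  have hval := fun d (hd : σ d = d) (hd0 : d ≠ 0) => card_values hσ hWc (notMem_erase _ _)
    (rr_fixed (ζ := ζ) (a := a) hσ hc hd) (rr_ne_zero hζ hc0 hd0 ha)
  obtain ⟨hS, hcard⟩ := hval c hc hc0
  by_cases h3 : 3 ∣ q + 1
  swap
  · have := hWn h3
    obtain ⟨γ, hγ, hg⟩ := exists_good_half hσ hqn _ hS (by omega)
    have hγ0 := (hS γ hγ).2
    obtain ⟨μ, hμ, rfl⟩ := mem_image.mp hγ
    exact ⟨c, hc, hc0, hPc, μ, hμ, hγ0, hg⟩
  by_cases h8 : q = 8
  swap
  · obtain ⟨γ, hγ, hg⟩ := exists_good_sixth hσ hqn h3 h8 hq _ hS (by omega)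
    have hγ0 := (hS γ hγ).2
    obtain ⟨μ, hμ, rfl⟩ := mem_image.mp hγ
    exact ⟨c, hc, hc0, hPc, μ, hμ, hγ0, hg⟩
  subst h8
  have hn0 : n ≠ 0 := by rintro rfl; simp at hqn
  have hp2 : p = 2 := (Nat.prime_dvd_prime_iff_eq Fact.out Nat.prime_two).mp
    ((Fact.out : p.Prime).dvd_of_dvd_pow (n := 3) (by
      rw [show (2 : ℕ) ^ 3 = p ^ n from hqn]; exact dvd_pow_self p hn0))
  subst hp2
  have hn : n = 3 := Nat.pow_right_injective le_rfl (show 2 ^ n = 2 ^ 3 by omega)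
  subst hn
  obtain ⟨c', hc', hc'0, hcc, hPc'⟩ := hex.resolve_left (not_not.mpr CharTwo.two_eq_zero)
  obtain ⟨μ, hμ⟩ : (((cir σ).image (· ^ 3)).erase 1).Nonempty := card_pos.mp (by omega)
  obtain ⟨hS', -⟩ := hval c' hc' hc'0
  have m1 := hS _ (mem_image_of_mem _ hμ)
  have m2 := hS' _ (mem_image_of_mem _ hμ)
  have hne : rr σ ζ c c a * nv σ (-1) 1 μ ≠ rr σ ζ c c' a * nv σ (-1) 1 μ := by
    intro e
    have h0 : (c - c') * (rr σ ζ c c a * nv σ (-1) 1 μ) = 0 := by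
      simp only [rr] at e ⊢
      linear_combination c * e
    exact m1.2 ((mul_eq_zero.mp h0).resolve_left (sub_ne_zero.mpr hcc.symm))
  obtain ⟨γ, hγ, hg⟩ := exists_good hσ hqn (h := 1)
    (fun i hi hi3 => by
      rcases (Nat.dvd_prime Nat.prime_three).mp hi with h | h <;> omega)
    {rr σ ζ c c a * nv σ (-1) 1 μ, rr σ ζ c c' a * nv σ (-1) 1 μ}
    (fun x hx => by
      rcases mem_insert.mp hx with h | h
      · rw [h]; exact m1
      · rw [mem_singleton.mp h]; exact m2)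
    (by rw [card_pair hne, Finset.Icc_self, Finset.sum_singleton]; norm_num) (by norm_num)
  rcases mem_insert.mp hγ with h | h
  · subst h; exact ⟨c, hc, hc0, hPc, μ, hμ, m1.2, hg⟩
  · rw [mem_singleton] at h
    subst h; exact ⟨c', hc', hc'0, hPc', μ, hμ, m2.2, hg⟩

variable {X : Subgroup (GL (Fin 3) F)} (hσ : IsConj σ q) (hX : X ≤ GUs σ) (hζ : ζ ≠ 0)
  (hf : IsSkewForm σ (fun u v : Fin 3 → F => ζ * hb σ u v))
  {v : Fin 3 → F} (hv : ζ * hb σ v v = 0) {c : F} (hc : σ c = c) (hc0 : c ≠ 0)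
  (hT : T hf v c hv ∈ X)
  (hex : (2 : F) ≠ 0 ∨ ∃ c', σ c' = c' ∧ c' ≠ 0 ∧ c' ≠ c ∧ T hf v c' hv ∈ X)
include hX hζ hf hc hc0 hT hex

omit hσ in
/-- Two centres from a diagonal element and a good value. -/
lemma pair_centres {a : GL (Fin 3) F} (ha : a ∈ X) {d : F} (hd : σ d = d) (hd0 : d ≠ 0)
    (hTd : T hf v d hv ∈ X) {γ : F}
    (hγ : γ = c * d * (ζ * hb σ v (ap a v) * σ (ζ * hb σ v (ap a v)))) (hγ0 : γ ≠ 0)
    (hgen : Gen σ γ) (h9 : Nat.card (fixedK σ) = 9 → γ ^ 2 ≠ -1) :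
    InX hf X v ∧ InX hf X (ap a v) ∧ ζ * hb σ v (ap a v) ≠ 0 := by
  have hXI : X ≤ isom (fun u v : Fin 3 → F => ζ * hb σ u v) := by rw [isom_eq hζ]; exact hX
  have haI := hXI ha
  have hav : ζ * hb σ (ap a v) (ap a v) = 0 := isotropic_ap hf haI hv
  have hne : ζ * hb σ v (ap a v) ≠ 0 := fun h => hγ0 (by rw [hγ, h]; simp)
  have hT2 : T hf (ap a v) d hav ∈ X := by
    rw [← conj_T hf haI hv d]
    exact mul_mem (mul_mem ha hTd) (inv_mem ha)
  subst hγ
  obtain ⟨h1, h2⟩ := inX_of_pair hf hXI hv hav hne hc hc0 hd hd0 hT hT2 hgen (by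
    by_cases h2 : (2 : F) = 0
    · exact Or.inr ⟨h2, hex.resolve_left (not_not.mpr h2)⟩
    · exact Or.inl ⟨h2, h9⟩)
  exact ⟨h1, h2, hne⟩

include hσ

/-- The case of a centre with a zero coordinate. -/
lemma hasT_of_zero [Fact p.Prime] [CharP F p] (hqn : q = p ^ n) (hM : MonIn σ X) (hv0 : v ≠ 0)
    {i : Fin 3} (hi : v i = 0) : HasT hf X := by
  have hXI : X ≤ isom (fun u v : Fin 3 → F => ζ * hb σ u v) := by rw [isom_eq hζ]; exact hX
  have hsumN : hb σ v v = 0 := (mul_eq_zero.mp hv).resolve_left hζ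
  obtain ⟨j, k, hji, hki, hjk⟩ := third i
  have hNk : v k * σ (v k) = -(v j * σ (v j)) := by
    have h := hsumN
    rw [hb, sum3 hji hki hjk, hi, zero_mul, zero_add] at h
    linear_combination h
  have hj0 : v j ≠ 0 := by
    intro h
    apply hv0
    funext l
    rcases cases3 hji hki hjk l with rfl | rfl | rfl
    · exact hi
    · exact h
    · rw [h, zero_mul, neg_zero] at hNk
      rcases mul_eq_zero.mp hNk with e | e
      · exact e
      · exact (map_eq_zero σ).mp e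
  obtain ⟨hS, hcard⟩ := card_values hσ (W := (cir σ).erase 1) (erase_subset _ _)
    (notMem_erase _ _) (rr_fixed (ζ := ζ) (a := v j) hσ hc hc) (rr_ne_zero hζ hc0 hc0 hj0)
  rw [card_erase_of_mem one_mem_cir, card_cir hσ] at hcard
  obtain ⟨γ, hγ, hgen, h9⟩ := exists_good_half hσ hqn _ hS (by omega)
  have hγ0 := (hS γ hγ).2
  obtain ⟨μ, hμ, rfl⟩ := mem_image.mp hγ
  have hμc := (mem_erase.mp hμ).2
  have hμ0 := ne_zero_of_mem_cir hμc
  have hd : ∀ l, tri i j μ⁻¹ μ 1 l ≠ 0 := fun l =>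
    ne_zero_of_mem_cir (tri_mem_cir (inv_mem_cir hμc) hμc one_mem_cir l)
  have ha := tri_dia_mem hM hji hki hjk (inv_mem_cir hμc) hμc one_mem_cir
    (by rw [inv_mul_cancel₀ hμ0, one_mul])
  have e : hb σ v (ap (dia (tri i j μ⁻¹ μ 1)) v) = v j * σ (v j) * (σ μ - 1) := by
    rw [hb, sum3 hji hki hjk, ap_dia hd, ap_dia hd, ap_dia hd, hi, tri_snd hji,
      tri_thd hki hjk, zero_mul, zero_add, map_mul, map_mul, map_one]
    linear_combination hNk
  obtain ⟨hXv, hXa, hne⟩ := pair_centres hX hζ hf hv hc hc0 hT hex ha hc hc0 hT (by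
    rw [e]
    simp only [rr, nv, map_add, map_mul, map_sub, map_neg, map_one, hσ.invol]
    ring) hγ0 hgen h9
  obtain ⟨P, hP, -, -, hPv⟩ := exists_move hM j i
  refine hasT_of_three hf hXv hXa (inX_ap hf hP (hXI hP) hXv) hne fun hmem => hj0 ?_
  obtain ⟨α, β, hαβ⟩ := Submodule.mem_span_pair.mp hmem
  have := congrFun hαβ i
  rw [Pi.add_apply, Pi.smul_apply, Pi.smul_apply, ap_dia hd, hi, hPv] at this
  simpa using this.symm

/-- The case of a centre without zero coordinates. -/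
lemma hasT_of_no_zero [Fact p.Prime] [CharP F p] (hqn : q = p ^ n) (hq : 3 ≤ q) (hM : MonIn σ X)
    (hz : ∀ l, v l ≠ 0) : HasT hf X := by
  have hXI : X ≤ isom (fun u v : Fin 3 → F => ζ * hb σ u v) := by rw [isom_eq hζ]; exact hX
  have hsumN : hb σ v v = 0 := (mul_eq_zero.mp hv).resolve_left hζ
  obtain ⟨i, j, k, hji, hki, hjk⟩ : ∃ i j k : Fin 3, j ≠ i ∧ k ≠ i ∧ j ≠ k :=
    ⟨0, 1, 2, by decide, by decide, by decide⟩
  obtain ⟨d, hd, hd0, hTd, μ, hμ, hγ0, hgen, h9⟩ :=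
    exists_cube_value (P := fun d => T hf v d hv ∈ X) hσ hqn hq hζ (hz i) hc hc0 hT hex
  obtain ⟨hμ1, hμim⟩ := mem_erase.mp hμ
  obtain ⟨ν, hν, hνμ⟩ := mem_image.mp hμim
  have hν0 := ne_zero_of_mem_cir hν
  have hνσ := mem_cir.mp hν
  have hsq : ν⁻¹ ^ 2 ∈ cir σ := pow_mem_cir (inv_mem_cir hν) 2
  have hdd : ∀ l, tri i j (ν⁻¹ ^ 2) ν ν l ≠ 0 := fun l =>
    ne_zero_of_mem_cir (tri_mem_cir hsq hν hν l)
  have ha := tri_dia_mem hM hji hki hjk hsq hν hν (by field_simp)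
  have e : hb σ v (ap (dia (tri i j (ν⁻¹ ^ 2) ν ν)) v) = v i * σ (v i) * σ ν * (μ - 1) := by
    rw [hb, sum3 hji hki hjk, ap_dia hdd, ap_dia hdd, ap_dia hdd, tri_fst, tri_snd hji,
      tri_thd hki hjk, inv_eq_of_mem_cir hν, map_mul, map_mul, map_mul, map_pow, hσ.invol]
    have h := hsumN
    rw [hb, sum3 hji hki hjk] at h
    rw [← hνμ]
    linear_combination σ ν * h - (v i * σ (v i) * ν ^ 2) * hνσ
  have hγeq : rr σ ζ c d (v i) * nv σ (-1) 1 μ =
      c * d * (ζ * hb σ v (ap (dia (tri i j (ν⁻¹ ^ 2) ν ν)) v) *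
        σ (ζ * hb σ v (ap (dia (tri i j (ν⁻¹ ^ 2) ν ν)) v))) := by
    rw [e]
    simp only [rr, nv, map_add, map_mul, map_sub, map_neg, map_one, hσ.invol]
    linear_combination -(c * d * ζ * σ ζ * (v i * σ (v i)) ^ 2 * (μ - 1) * (σ μ - 1)) * hνσ
  obtain ⟨hXv, hXa, hne⟩ := pair_centres hX hζ hf hv hc hc0 hT hex ha hd hd0 hTd hγeq hγ0 hgen h9
  obtain ⟨κ, hκ, hκ1⟩ := exists_ne_one hσ
  have hκ0 := ne_zero_of_mem_cir hκ
  have hdk : ∀ l, tri i j κ⁻¹ κ 1 l ≠ 0 := fun l =>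
    ne_zero_of_mem_cir (tri_mem_cir (inv_mem_cir hκ) hκ one_mem_cir l)
  have hb' := tri_dia_mem hM hji hki hjk (inv_mem_cir hκ) hκ one_mem_cir
    (by rw [inv_mul_cancel₀ hκ0, one_mul])
  refine hasT_of_three hf hXv hXa (inX_ap hf hb' (hXI hb') hXv) hne fun hmem => hκ1 ?_
  obtain ⟨α, β, hαβ⟩ := Submodule.mem_span_pair.mp hmem
  have ej := congrFun hαβ j
  have ek := congrFun hαβ k
  rw [Pi.add_apply, Pi.smul_apply, Pi.smul_apply, ap_dia hdd, ap_dia hdk, tri_snd hji,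
    tri_snd hji, smul_eq_mul, smul_eq_mul] at ej
  rw [Pi.add_apply, Pi.smul_apply, Pi.smul_apply, ap_dia hdd, ap_dia hdk, tri_thd hki hjk,
    tri_thd hki hjk, smul_eq_mul, smul_eq_mul] at ek
  have ej' : α + β * ν = κ := mul_right_cancel₀ (hz j) (by linear_combination ej)
  have ek' : α + β * ν = 1 := mul_right_cancel₀ (hz k) (by linear_combination ek)
  rw [← ej', ek']

/-- A transvection in `X`, with a second one at the same centre in characteristic two, gives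
every transvection. -/
theorem hasT_of_T_mem [Fact p.Prime] [CharP F p] (hqn : q = p ^ n) (hq : 3 ≤ q)
    (hM : MonIn σ X) (hv0 : v ≠ 0) : HasT hf X := by
  by_cases hz : ∃ i, v i = 0
  · obtain ⟨i, hi⟩ := hz
    exact hasT_of_zero hσ hX hζ hf hv hc hc0 hT hex hqn hM hv0 hi
  · push Not at hz
    exact hasT_of_no_zero hσ hX hζ hf hv hc hc0 hT hex hqn hq hM hz

end CfsgLib.Geometric.SUThree.Frame
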