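import Cfsg.Agent.Lib.Geometric.SUThree.Basic
import Cfsg.Agent.Lib.Geometric.UnitarySubfield

/-!
`SU₃` in a rational frame of the orthogonal subfield structure: coordinates, the rational subgroup,
and the stabiliser of an isotropic point in an overgroup without transvections.
-/

set_option autoImplicit false

namespace CfsgLib.Geometric.SUThree.Orth

open Matrix

variable {F : Type*} [Field F]

local notation "M₃" => Matrix (Fin 3) (Fin 3) F
local notation "V₃" => Fin 3 → F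

/-- The hermitian form with antidiagonal Gram matrix. -/
def hJ (σ : F ≃+* F) (x y : V₃) : F := x 0 * σ (y 2) + x 1 * σ (y 1) + x 2 * σ (y 0)

/-- Its bilinear companion. -/
def bB (x y : V₃) : F := x 0 * y 2 + x 1 * y 1 + x 2 * y 0

/-- The special unitary group in this frame. -/
abbrev sS (σ : F ≃+* F) : Subgroup (GL (Fin 3) F) :=
  isom (hJ σ) ⊓ Cfsg.Geo.specialLinear (Fin 3) F

/-- The hypotheses on the field. -/
structure Fld (σ : F ≃+* F) (F₀ : Subfield F) : Prop where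
  inv : ∀ x, σ (σ x) = x
  ne : σ ≠ RingEquiv.refl F
  fix : ∀ x, σ x = x ↔ x ∈ F₀
  two : (2 : F) ≠ 0

/-- The rational elements of determinant one. -/
def ratGrp (σ : F ≃+* F) (F₀ : Subfield F) : Subgroup (GL (Fin 3) F) :=
  (Matrix.GeneralLinearGroup.map (F₀.subtype : F₀ →+* F)).range ⊓ sS σ

/-- Rational vectors. -/
def IsRat (F₀ : Subfield F) (x : V₃) : Prop := ∀ i, x i ∈ F₀

/-- Vectors spanning rational lines. -/
def IsRatLine (F₀ : Subfield F) (x : V₃) : Prop := ∃ (c : F) (r : V₃), IsRat F₀ r ∧ x = c • r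

/-! ### Elements -/

/-- An upper unitriangular matrix. -/
noncomputable def up (σ : F ≃+* F) (b c : F) : GL (Fin 3) F :=
  Matrix.GeneralLinearGroup.mkOfDetNeZero !![1, -σ b, c; 0, 1, b; 0, 0, 1]
    (by simp [Matrix.det_fin_three])

/-- A diagonal element. -/
noncomputable def tor (t : F) (ht : t ≠ 0) : GL (Fin 3) F :=
  Matrix.GeneralLinearGroup.mkOfDetNeZero !![t, 0, 0; 0, 1, 0; 0, 0, t⁻¹]
    (by simp [Matrix.det_fin_three, ht])

/-- The element exchanging the two isotropic axes. -/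
noncomputable def ww (F : Type*) [Field F] : GL (Fin 3) F :=
  Matrix.GeneralLinearGroup.mkOfDetNeZero !![0, 0, 1; 0, -1, 0; 1, 0, 0]
    (by simp [Matrix.det_fin_three])

/-- The involution fixing the middle axis. -/
noncomputable def ss (F : Type*) [Field F] : GL (Fin 3) F :=
  Matrix.GeneralLinearGroup.mkOfDetNeZero !![-1, 0, 0; 0, 1, 0; 0, 0, -1]
    (by simp [Matrix.det_fin_three])

/-- A scalar matrix. -/
noncomputable def scal (μ : F) (hμ : μ ≠ 0) : GL (Fin 3) F :=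
  Matrix.GeneralLinearGroup.mkOfDetNeZero !![μ, 0, 0; 0, μ, 0; 0, 0, μ]
    (by simp [Matrix.det_fin_three, hμ])

@[simp] lemma coe_up (σ : F ≃+* F) (b c : F) :
    (up σ b c : M₃) = !![1, -σ b, c; 0, 1, b; 0, 0, 1] := rfl

@[simp] lemma coe_tor (t : F) (ht : t ≠ 0) : (tor t ht : M₃) = !![t, 0, 0; 0, 1, 0; 0, 0, t⁻¹] := rfl

@[simp] lemma coe_ww : (ww F : M₃) = !![0, 0, 1; 0, -1, 0; 1, 0, 0] := rfl

@[simp] lemma coe_ss : (ss F : M₃) = !![-1, 0, 0; 0, 1, 0; 0, 0, -1] := rfl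

@[simp] lemma coe_scal (μ : F) (hμ : μ ≠ 0) :
    (scal μ hμ : M₃) = !![μ, 0, 0; 0, μ, 0; 0, 0, μ] := rfl

lemma ap_entries (g : GL (Fin 3) F) (x : V₃) (i : Fin 3) :
    ap g x i = (g : M₃) i 0 * x 0 + (g : M₃) i 1 * x 1 + (g : M₃) i 2 * x 2 := by
  simp [ap, Matrix.mulVec, dotProduct, Fin.sum_univ_three]

lemma ap_up (σ : F ≃+* F) (b c : F) (x : V₃) :
    ap (up σ b c) x = ![x 0 - σ b * x 1 + c * x 2, x 1 + b * x 2, x 2] := by
  funext i
  fin_cases i <;> simp [ap_entries] <;> ring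

lemma ap_tor (t : F) (ht : t ≠ 0) (x : V₃) : ap (tor t ht) x = ![t * x 0, x 1, t⁻¹ * x 2] := by
  funext i
  fin_cases i <;> simp [ap_entries]

lemma ap_ww (x : V₃) : ap (ww F) x = ![x 2, -x 1, x 0] := by
  funext i
  fin_cases i <;> simp [ap_entries]

lemma ap_ss (x : V₃) : ap (ss F) x = ![-x 0, x 1, -x 2] := by
  funext i
  fin_cases i <;> simp [ap_entries]

lemma ap_scal (μ : F) (hμ : μ ≠ 0) (x : V₃) : ap (scal μ hμ) x = μ • x := by
  funext i
  fin_cases i <;> simp [ap_entries]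

variable {σ : F ≃+* F} {F₀ : Subfield F}

lemma mem_sS {g : GL (Fin 3) F} (h : ∀ x y, hJ σ (ap g x) (ap g y) = hJ σ x y)
    (hd : (g : M₃).det = 1) : g ∈ sS σ :=
  ⟨h, (mem_specialLinear_iff g).mpr hd⟩

lemma hJ_ap {g : GL (Fin 3) F} (hg : g ∈ sS σ) (x y : V₃) :
    hJ σ (ap g x) (ap g y) = hJ σ x y := (mem_isom_iff.mp hg.1) x y

lemma det_sS {g : GL (Fin 3) F} (hg : g ∈ sS σ) : (g : M₃).det = 1 :=
  (mem_specialLinear_iff g).mp hg.2

/-- The products of two columns. -/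
lemma col_rel {g : GL (Fin 3) F} (hg : g ∈ sS σ) (i j : Fin 3) :
    (g : M₃) 0 i * σ ((g : M₃) 2 j) + (g : M₃) 1 i * σ ((g : M₃) 1 j) +
      (g : M₃) 2 i * σ ((g : M₃) 0 j) = hJ σ (Pi.single i 1) (Pi.single j 1) := by
  rw [← hJ_ap hg (Pi.single i 1) (Pi.single j 1)]
  simp [hJ, ap]

lemma hJ_swap (hF : Fld σ F₀) (x y : V₃) : hJ σ x y = σ (hJ σ y x) := by
  simp only [hJ, map_add, map_mul, hF.inv]
  ring

lemma hJ_smul (x y : V₃) (a b : F) : hJ σ (a • x) (b • y) = a * σ b * hJ σ x y := by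
  simp only [hJ, Pi.smul_apply, smul_eq_mul, map_mul]
  ring

lemma bB_comm (x y : V₃) : bB x y = bB y x := by simp [bB]; ring

lemma bB_eq_hJ (hF : Fld σ F₀) (x y : V₃) : bB x y = hJ σ x (σ ∘ y) := by
  simp [bB, hJ, hF.inv]

lemma bB_eq_of_rat (hF : Fld σ F₀) (x : V₃) {y : V₃} (hy : IsRat F₀ y) :
    hJ σ x y = bB x y := by
  simp [hJ, bB, (hF.fix _).2 (hy _)]

lemma up_mem (hF : Fld σ F₀) {b c : F} (hc : c + σ c + b * σ b = 0) : up σ b c ∈ sS σ := by
  refine mem_sS (fun x y => ?_) (by simp [Matrix.det_fin_three])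
  rw [ap_up, ap_up]
  simp only [hJ, Matrix.cons_val_zero, Matrix.cons_val_one, Matrix.cons_val, map_sub, map_add,
    map_mul, hF.inv]
  linear_combination (x 2 * σ (y 2)) * hc

lemma tor_mem (hF : Fld σ F₀) {t : F} (ht : t ≠ 0) (ht₀ : t ∈ F₀) : tor t ht ∈ sS σ := by
  refine mem_sS (fun x y => ?_) (by simp [Matrix.det_fin_three, ht])
  rw [ap_tor, ap_tor]
  simp only [hJ, Matrix.cons_val_zero, Matrix.cons_val_one, Matrix.cons_val, map_mul, map_inv₀,
    (hF.fix _).2 ht₀]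
  field_simp

lemma ww_mem : ww F ∈ sS σ := by
  refine mem_sS (fun x y => ?_) (by simp [Matrix.det_fin_three])
  rw [ap_ww, ap_ww]
  simp only [hJ, Matrix.cons_val_zero, Matrix.cons_val_one, Matrix.cons_val, map_neg]
  ring

lemma ss_mem : ss F ∈ sS σ := by
  refine mem_sS (fun x y => ?_) (by simp [Matrix.det_fin_three])
  rw [ap_ss, ap_ss]
  simp only [hJ, Matrix.cons_val_zero, Matrix.cons_val_one, Matrix.cons_val, map_neg]
  ring

lemma scal_mem {μ : F} (hμ : μ ≠ 0) (h1 : μ * σ μ = 1) (h3 : μ ^ 3 = 1) : scal μ hμ ∈ sS σ := by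
  refine mem_sS (fun x y => ?_) (by simp [Matrix.det_fin_three]; linear_combination h3)
  rw [ap_scal, ap_scal, hJ_smul, h1, one_mul]

/-- An upper unitriangular element of the group. -/
lemma eq_up {g : GL (Fin 3) F} (hg : g ∈ sS σ) (h00 : (g : M₃) 0 0 = 1) (h11 : (g : M₃) 1 1 = 1)
    (h22 : (g : M₃) 2 2 = 1) (h10 : (g : M₃) 1 0 = 0) (h20 : (g : M₃) 2 0 = 0)
    (h21 : (g : M₃) 2 1 = 0) :
    g = up σ ((g : M₃) 1 2) ((g : M₃) 0 2) := by
  have h12 := col_rel hg 1 2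
  simp [hJ, h11, h22, h21] at h12
  refine Units.ext ?_
  ext i j
  fin_cases i <;> fin_cases j <;> simp [h00, h11, h22, h10, h20, h21]
  linear_combination h12

lemma up_cond {b c : F} (h : up σ b c ∈ sS σ) : c + σ c + b * σ b = 0 := by
  have h22 := col_rel h 2 2
  simp [hJ] at h22
  linear_combination h22

/-! ### The rational subgroups -/

lemma mem_range_of_entries {g : GL (Fin 3) F} (h : ∀ i j, (g : M₃) i j ∈ F₀) :
    g ∈ (Matrix.GeneralLinearGroup.map (F₀.subtype : F₀ →+* F)).range := by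
  let A₀ : Matrix (Fin 3) (Fin 3) F₀ := fun i j => ⟨_, h i j⟩
  have hmap : A₀.map F₀.subtype = (g : M₃) := by ext i j; rfl
  have hdet : A₀.det ≠ 0 := by
    intro h0
    have h2 : (A₀.map F₀.subtype).det = 0 := by
      rw [← RingHom.mapMatrix_apply, ← RingHom.map_det, h0, map_zero]
    rw [hmap] at h2
    exact Matrix.GeneralLinearGroup.det_ne_zero g h2
  exact ⟨Matrix.GeneralLinearGroup.mkOfDetNeZero A₀ hdet, Units.ext hmap⟩

lemma entries_of_mem_ratGrp {g : GL (Fin 3) F} (h : g ∈ ratGrp σ F₀) (i j : Fin 3) :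
    (g : M₃) i j ∈ F₀ := by
  obtain ⟨⟨B, rfl⟩, -⟩ := h
  exact ((B : Matrix (Fin 3) (Fin 3) F₀) i j).2

lemma mem_ratGrp {g : GL (Fin 3) F} (hg : g ∈ sS σ) (h : ∀ i j, (g : M₃) i j ∈ F₀) :
    g ∈ ratGrp σ F₀ := ⟨mem_range_of_entries h, hg⟩

lemma isRat_ap {g : GL (Fin 3) F} (hg : g ∈ ratGrp σ F₀) {x : V₃} (hx : IsRat F₀ x) :
    IsRat F₀ (ap g x) := fun i => by
  rw [ap_entries]
  exact add_mem (add_mem (mul_mem (entries_of_mem_ratGrp hg i 0) (hx 0))
    (mul_mem (entries_of_mem_ratGrp hg i 1) (hx 1))) (mul_mem (entries_of_mem_ratGrp hg i 2) (hx 2))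

lemma conj_ap (hF : Fld σ F₀) {g : GL (Fin 3) F} (hg : g ∈ ratGrp σ F₀) (x : V₃) :
    σ ∘ ap g x = ap g (σ ∘ x) := by
  funext i
  simp [ap_entries, (hF.fix _).2 (entries_of_mem_ratGrp hg i _)]

lemma bB_ap (hF : Fld σ F₀) {g : GL (Fin 3) F} (hg : g ∈ ratGrp σ F₀) (x y : V₃) :
    bB (ap g x) (ap g y) = bB x y := by
  rw [bB_eq_hJ hF, bB_eq_hJ hF, conj_ap hF hg, hJ_ap hg.2]

lemma ratGrp_le : ratGrp σ F₀ ≤ Cfsg.Geo.subfieldSubgroup F₀ (1 : GL (Fin 3) F) ⊓ sS σ :=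
  fun g hg => ⟨Subfld.mem_of_rat fun r hr i => by
    have hr' : IsRat F₀ r := fun j => by simpa using hr j
    simpa using isRat_ap hg hr' i, hg.2⟩

lemma scal_mem_subfield (μ : F) (hμ : μ ≠ 0) :
    scal μ hμ ∈ Cfsg.Geo.subfieldSubgroup F₀ (1 : GL (Fin 3) F) := by
  refine Subfld.scalar_mul_mem (c := Units.mk0 μ hμ) fun r hr i => ?_
  rw [ap_scal, Units.val_mk0, inv_smul_smul₀ hμ]
  exact hr i

lemma entries_of_mem_subfield {g : GL (Fin 3) F}
    (h : g ∈ Cfsg.Geo.subfieldSubgroup F₀ (1 : GL (Fin 3) F)) :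
    ∃ c : F, c ≠ 0 ∧ ∀ i j, c * (g : M₃) i j ∈ F₀ := by
  obtain ⟨a, ha, rfl⟩ := h
  rw [SetLike.mem_coe, Subgroup.mem_sup_of_normal_right] at ha
  obtain ⟨b, ⟨B, rfl⟩, s, hs, rfl⟩ := ha
  obtain ⟨c, hc⟩ := (Cfsg.Geo.mem_scalars_iff s).mp hs
  refine ⟨(c : F)⁻¹, inv_ne_zero c.ne_zero, fun i j => ?_⟩
  have e : ((MulAut.conj (1 : GL (Fin 3) F)).toMonoidHom
      (Matrix.GeneralLinearGroup.map (F₀.subtype : F₀ →+* F) B * s) : GL (Fin 3) F).val i j =
      (c : F) * ((B : Matrix (Fin 3) (Fin 3) F₀) i j : F) := by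
    simp [hc]
  rw [e, inv_mul_cancel_left₀ c.ne_zero]
  exact ((B : Matrix (Fin 3) (Fin 3) F₀) i j).2

lemma tor_mem_rat (hF : Fld σ F₀) {t : F} (ht : t ≠ 0) (ht₀ : t ∈ F₀) :
    tor t ht ∈ ratGrp σ F₀ :=
  mem_ratGrp (tor_mem hF ht ht₀) fun i j => by
    fin_cases i <;> fin_cases j <;> simp [ht₀, zero_mem, one_mem, inv_mem ht₀]

lemma ww_mem_rat : ww F ∈ ratGrp σ F₀ :=
  mem_ratGrp ww_mem fun i j => by
    fin_cases i <;> fin_cases j <;> simp [zero_mem, one_mem]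

lemma ss_mem_rat : ss F ∈ ratGrp σ F₀ :=
  mem_ratGrp ss_mem fun i j => by
    fin_cases i <;> fin_cases j <;> simp [zero_mem, one_mem]

/-- The middle parameter determines the rational root element. -/
def half (b : F) : F := -(b * b / 2)

lemma half_mem {b : F} (hb : b ∈ F₀) : half b ∈ F₀ :=
  neg_mem (div_mem (mul_mem hb hb) (ofNat_mem F₀ 2))

lemma up_half_mem (hF : Fld σ F₀) {b : F} (hb : b ∈ F₀) : up σ b (half b) ∈ ratGrp σ F₀ := by
  refine mem_ratGrp (up_mem hF ?_) fun i j => ?_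
  · rw [(hF.fix _).2 (half_mem hb), (hF.fix _).2 hb, half]
    have := hF.two
    field_simp
    ring
  · fin_cases i <;> fin_cases j <;>
      simp [hb, zero_mem, one_mem, half_mem hb, (hF.fix _).2 hb]

/-- The rational isotropic points are one orbit. -/
lemma exists_conic (hF : Fld σ F₀) {r : V₃} (hr : IsRat F₀ r) (hr0 : r ≠ 0)
    (hiso : hJ σ r r = 0) :
    ∃ h ∈ ratGrp σ F₀, ∃ c ∈ F₀, c ≠ 0 ∧ r = c • ap h (Pi.single 0 1) := by
  simp only [hJ, (hF.fix _).2 (hr _)] at hiso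
  by_cases h2 : r 2 = 0
  · have h1 : r 1 = 0 := by
      rw [h2, mul_zero, zero_mul, zero_add, add_zero] at hiso
      exact mul_self_eq_zero.mp hiso
    refine ⟨1, one_mem _, r 0, hr 0, fun h0 => hr0 ?_, ?_⟩
    · funext i; fin_cases i <;> simp [h0, h1, h2]
    · funext i; fin_cases i <;> simp [h1, h2]
  · set b := r 1 / r 2 with hb
    refine ⟨up σ b (half b) * ww F, mul_mem (up_half_mem hF (div_mem (hr 1) (hr 2))) ww_mem_rat,
      r 2, hr 2, h2, ?_⟩
    rw [ap_mul, ap_ww, ap_up]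
    funext i
    have := hF.two
    fin_cases i <;> simp [hb, half]
    · field_simp
      linear_combination hiso
    · field_simp

/-! ### Overgroups -/

variable {M : Subgroup (GL (Fin 3) F)}

/-- An overgroup of the orthogonal subfield group. -/
structure Over (σ : F ≃+* F) (F₀ : Subfield F) (M : Subgroup (GL (Fin 3) F)) : Prop where
  fld : Fld σ F₀
  low : Cfsg.Geo.subfieldSubgroup F₀ (1 : GL (Fin 3) F) ⊓ sS σ ≤ M
  high : M ≤ sS σ

/-- No transvection at the first point. -/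
def NoT (σ : F ≃+* F) (M : Subgroup (GL (Fin 3) F)) : Prop :=
  ∀ a : F, σ a = -a → up σ 0 a ∈ M → a = 0

lemma Over.rat_le (hO : Over σ F₀ M) : ratGrp σ F₀ ≤ M := ratGrp_le.trans hO.low

lemma up_mul (b c b' c' : F) :
    up σ b c * up σ b' c' = up σ (b + b') (c + c' - σ b * b') := by
  refine Units.ext ?_
  ext i j
  fin_cases i <;> fin_cases j <;> simp [Matrix.mul_apply, Fin.sum_univ_three] <;> ring

/-- The unipotent elements at the first point are rational. -/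
theorem Over.eq_half (hO : Over σ F₀ M) (hn : NoT σ M) {b c : F} (h : up σ b c ∈ M) :
    b ∈ F₀ ∧ c = half b := by
  have hF := hO.fld
  have hc := up_cond (hO.high h)
  have h1 := hO.rat_le (up_half_mem hF (one_mem F₀))
  have hb : σ b = b := by
    have hX := mul_mem (mul_mem h h1) (inv_mem (mul_mem h1 h))
    have e : up σ b c * up σ 1 (half 1) =
        up σ 0 (b - σ b) * (up σ 1 (half 1) * up σ b c) := by
      rw [up_mul, up_mul, up_mul, map_one, map_zero, zero_mul, sub_zero, zero_add, mul_one, one_mul,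
        add_comm b 1]
      congr 1
      ring
    rw [e, mul_inv_cancel_right] at hX
    have := hn _ (by rw [map_sub, hF.inv]; ring) hX
    exact (sub_eq_zero.mp this).symm
  have hb₀ := (hF.fix _).1 hb
  refine ⟨hb₀, ?_⟩
  have hX := mul_mem h (hO.rat_le (up_half_mem hF (neg_mem hb₀)))
  have e : up σ b c * up σ (-b) (half (-b)) = up σ 0 (c - half b) := by
    rw [up_mul, add_neg_cancel, hb, half, half]
    congr 1
    have := hF.two
    field_simp
    ring
  rw [e] at hX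
  refine sub_eq_zero.mp (hn _ ?_ hX)
  rw [map_sub, (hF.fix _).2 (half_mem hb₀), half]
  rw [hb] at hc
  have := hF.two
  field_simp
  linear_combination 2 * hc

/-- An element of the overgroup fixing the first point lies in the subfield group. -/
theorem Over.mem_of_fix (hO : Over σ F₀ M) (hn : NoT σ M) {g : GL (Fin 3) F} (hg : g ∈ M)
    (h10 : (g : M₃) 1 0 = 0) (h20 : (g : M₃) 2 0 = 0) :
    g ∈ Cfsg.Geo.subfieldSubgroup F₀ (1 : GL (Fin 3) F) ⊓ sS σ := by
  have hF := hO.fld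
  have hS := hO.high hg
  have hd := det_sS hS
  have e01 := col_rel hS 0 1
  simp [hJ, h10, h20] at e01
  have h00 : (g : M₃) 0 0 ≠ 0 := fun h0 => by
    simp [Matrix.det_fin_three, h0, h10, h20] at hd
  have h21 : (g : M₃) 2 1 = 0 := e01.resolve_left h00
  have e11 := col_rel hS 1 1
  have e02 := col_rel hS 0 2
  simp [hJ, h10, h20, h21] at e11 e02
  simp [Matrix.det_fin_three, h10, h20, h21] at hd
  have h11 : (g : M₃) 1 1 ≠ 0 := fun h0 => by rw [h0] at hd; simp at hd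
  have h22 : (g : M₃) 2 2 ≠ 0 := fun h0 => by rw [h0] at hd; simp at hd
  set χ := (g : M₃) 1 1 / (g : M₃) 2 2 with hχ
  have hkey : σ χ * (g : M₃) 1 1 = (g : M₃) 0 0 := by
    have h22' : σ ((g : M₃) 2 2) ≠ 0 := by simpa using h22
    rw [hχ, map_div₀, div_mul_eq_mul_div, div_eq_iff h22']
    linear_combination e11 - e02
  -- conjugation of a rational root element
  have h1 := mul_mem (mul_mem hg (hO.rat_le (up_half_mem hF (one_mem F₀)))) (inv_mem hg)
  set c' := ((g : M₃) 0 0 * half 1 + (g : M₃) 0 1 + σ χ * (g : M₃) 1 2) / (g : M₃) 2 2 with hc'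
  have e : g * up σ 1 (half 1) = up σ χ c' * g := by
    refine Units.ext ?_
    ext i j
    fin_cases i <;> fin_cases j <;>
      simp [Matrix.mul_apply, Fin.sum_univ_three, h10, h20, h21]
    · linear_combination hkey
    · rw [hc', div_mul_cancel₀ _ h22]; ring
    · rw [hχ, div_mul_cancel₀ _ h22]; ring
  rw [e, mul_inv_cancel_right] at h1
  have hχ₀ := (hO.eq_half hn h1).1
  have hχ0 : χ ≠ 0 := div_ne_zero h11 h22
  have hσχ := (hF.fix _).2 hχ₀
  rw [hσχ] at hkey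
  set μ := (g : M₃) 1 1 with hμ
  have h22' : (g : M₃) 2 2 * χ = μ := by rw [hχ]; field_simp
  have h3 : μ ^ 3 = 1 := by
    linear_combination hd - ((g : M₃) 2 2 * μ) * (hkey.symm) - μ ^ 2 * h22'
  have hsc : scal μ h11 ∈ Cfsg.Geo.subfieldSubgroup F₀ (1 : GL (Fin 3) F) ⊓ sS σ :=
    ⟨scal_mem_subfield μ h11, scal_mem h11 e11 h3⟩
  have htor := ratGrp_le (tor_mem_rat hF hχ0 hχ₀)
  set Y := (scal μ h11)⁻¹ * g * (tor χ hχ0)⁻¹ with hY
  have hYM : Y ∈ M := mul_mem (mul_mem (inv_mem (hO.low hsc)) hg) (inv_mem (hO.low htor))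
  have eY : scal μ h11 * Y * tor χ hχ0 = g := by rw [hY]; group
  have hent : ∀ i j, (g : M₃) i j = μ * (Y : M₃) i j * ![χ, 1, χ⁻¹] j := fun i j => by
    conv_lhs => rw [← eY]
    rw [Units.val_mul, Units.val_mul]
    simp only [Matrix.mul_apply, Fin.sum_univ_three]
    fin_cases i <;> fin_cases j <;> simp
  have a00 := hent 0 0
  have a11 := hent 1 1
  have a22 := hent 2 2
  have a10 := hent 1 0
  have a20 := hent 2 0
  have a21 := hent 2 1
  simp [h10, h20, h21, hχ0, h11] at a00 a11 a22 a10 a20 a21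
  have b00 : (Y : M₃) 0 0 = 1 := mul_left_cancel₀ h11 (mul_right_cancel₀ hχ0 (by
    linear_combination hkey.symm + a00.symm))
  have b11 : (Y : M₃) 1 1 = 1 := mul_left_cancel₀ h11 (by linear_combination a11.symm)
  have b22 : (Y : M₃) 2 2 = 1 := by
    rw [a22] at h22'
    field_simp at h22'
    exact h22'
  have hYup := eq_up (hO.high hYM) b00 b11 b22 a10 a20 a21
  rw [hYup] at hYM
  obtain ⟨hb, hc⟩ := hO.eq_half hn hYM
  rw [← eY, hYup, hc]
  exact mul_mem (mul_mem hsc (ratGrp_le (up_half_mem hF hb))) htor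

/-- An element of the overgroup mapping a rational isotropic line to such a line lies in the
subfield group. -/
theorem Over.mem_of_ratLine (hO : Over σ F₀ M) (hn : NoT σ M) {g : GL (Fin 3) F} (hg : g ∈ M)
    (hr : IsRatLine F₀ (ap g (Pi.single 0 1))) :
    g ∈ Cfsg.Geo.subfieldSubgroup F₀ (1 : GL (Fin 3) F) ⊓ sS σ := by
  have hF := hO.fld
  obtain ⟨c, r, hr, he⟩ := hr
  have hne : ap g (Pi.single 0 1) ≠ (0 : V₃) := ap_ne_zero g (by simp)
  have hc : c ≠ 0 := fun h => hne (by rw [he, h, zero_smul])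
  have hr0 : r ≠ 0 := fun h => hne (by rw [he, h, smul_zero])
  have hiso : hJ σ r r = 0 := by
    have h := hJ_ap (hO.high hg) (Pi.single 0 1) (Pi.single 0 1)
    rw [he, hJ_smul] at h
    have h0 : c * σ c * hJ σ r r = 0 := h.trans (by simp [hJ])
    exact (mul_eq_zero.mp h0).resolve_left (mul_ne_zero hc (by simpa using hc))
  obtain ⟨h, hh, d, -, -, hd⟩ := exists_conic hF hr hr0 hiso
  have hX : h⁻¹ * g ∈ M := mul_mem (inv_mem (hO.rat_le hh)) hg
  have e : ap (h⁻¹ * g) (Pi.single 0 1) = (c * d) • (Pi.single 0 1 : V₃) := by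
    rw [ap_mul, he, hd, smul_smul, ap_smul, ap_inv_ap]
  have := hO.mem_of_fix hn hX (by simpa [ap] using congrFun e 1) (by simpa [ap] using congrFun e 2)
  have h2 := mul_mem (ratGrp_le hh) this
  rwa [mul_inv_cancel_left] at h2

end CfsgLib.Geometric.SUThree.Orth
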