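import Cfsg.Agent.Lib.Geometric.SUThree.OrthBasic

/-!
An overgroup of the orthogonal subfield subgroup of `SU₃` without transvections is that subgroup:
double counting of orthogonal pairs in the orbits of an isotropic and of an anisotropic point.
-/

set_option autoImplicit false

namespace CfsgLib.Geometric.SUThree.Orth

open Matrix Finset
open scoped Classical

variable {F : Type*} [Field F]

local notation "M₃" => Matrix (Fin 3) (Fin 3) F
local notation "V₃" => Fin 3 → F
local notation "e₀" => (Pi.single 0 1 : Fin 3 → F)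
local notation "e₁" => (Pi.single 1 1 : Fin 3 → F)

variable {σ : F ≃+* F} {F₀ : Subfield F} {M : Subgroup (GL (Fin 3) F)}

/-! ### The rational subgroup -/

lemma rat_fix_eq_up (hF : Fld σ F₀) {g : GL (Fin 3) F} (hg : g ∈ ratGrp σ F₀)
    (he : ap g e₀ = e₀) : g = up σ ((g : M₃) 1 2) (half ((g : M₃) 1 2)) := by
  have c0 : ∀ i, (g : M₃) i 0 = e₀ i := fun i => by
    rw [← congrFun he i]; simp [ap]
  have h00 : (g : M₃) 0 0 = 1 := by simpa using c0 0
  have h10 : (g : M₃) 1 0 = 0 := by simpa using c0 1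
  have h20 : (g : M₃) 2 0 = 0 := by simpa using c0 2
  have hS := hg.2
  have h21 := col_rel hS 0 1
  simp [hJ, h00, h10, h20] at h21
  have h22 := col_rel hS 0 2
  simp [hJ, h00, h10, h20] at h22
  have hd := det_sS hS
  simp [Matrix.det_fin_three, h00, h10, h20, h21, h22] at hd
  have h := eq_up hS h00 hd h22 h10 h20 h21
  have hc := up_cond (h ▸ hS)
  rw [(hF.fix _).2 (entries_of_mem_ratGrp hg 0 2), (hF.fix _).2 (entries_of_mem_ratGrp hg 1 2)] at hc
  have hh : (g : M₃) 0 2 = half ((g : M₃) 1 2) := by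
    rw [half]
    have := hF.two
    field_simp
    linear_combination hc
  rw [← hh]
  exact h

lemma card_ratGrp [Finite F] (hF : Fld σ F₀) :
    Nat.card (ratGrp σ F₀) =
      (Nat.card F₀ˣ + Nat.card F₀ˣ * Nat.card F₀) * Nat.card F₀ := by
  let hmap : F₀ˣ ⊕ F₀ˣ × F₀ → ratGrp σ F₀ := Sum.elim
    (fun μ => ⟨tor ((μ : F₀) : F) (by simp),
      tor_mem_rat hF _ (μ : F₀).2⟩)
    (fun p => ⟨up σ (p.2 : F) (half (p.2 : F)) * ww F * tor ((p.1 : F₀) : F) (by simp),
      mul_mem (mul_mem (up_half_mem hF p.2.2) ww_mem_rat) (tor_mem_rat hF _ (p.1 : F₀).2)⟩)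
  let vec : F₀ˣ ⊕ F₀ˣ × F₀ → V₃ := Sum.elim
    (fun μ => ![((μ : F₀) : F), 0, 0])
    (fun p => ((p.1 : F₀) : F) • ![half (p.2 : F), (p.2 : F), 1])
  have hvec : ∀ s, ap (hmap s : GL (Fin 3) F) e₀ = vec s := by
    rintro (μ | p)
    · funext i
      fin_cases i <;> simp [hmap, vec, ap_tor]
    · funext i
      fin_cases i <;> simp [hmap, vec, ap_mul, ap_tor, ap_ww, ap_up, mul_comm]
  have hvec_inj : Function.Injective vec := by
    rintro (μ | p) (μ' | p') h
    · have h0 := congrFun h 0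
      simp [vec] at h0
      exact congrArg Sum.inl (Units.ext h0)
    · have h2 := congrFun h 2
      simp [vec, eq_comm (a := (0 : F))] at h2
    · have h2 := congrFun h 2
      simp [vec] at h2
    · have h1 := congrFun h 1
      have h2 := congrFun h 2
      simp [vec] at h1 h2
      have hp : p.1 = p'.1 := Units.ext h2
      rw [hp] at h1
      exact congrArg Sum.inr (Prod.ext hp (Subtype.ext (mul_left_cancel₀ (by simp) h1)))
  let Φ : (F₀ˣ ⊕ F₀ˣ × F₀) × F₀ → ratGrp σ F₀ := fun x =>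
    hmap x.1 * ⟨up σ (x.2 : F) (half (x.2 : F)), up_half_mem hF x.2.2⟩
  have hfix : ∀ b c : F, ap (up σ b c) e₀ = e₀ := fun b c => by
    funext i
    fin_cases i <;> simp [ap_up]
  have hΦ : Function.Bijective Φ := by
    constructor
    · rintro ⟨s, b⟩ ⟨s', b'⟩ h
      have h1 : s = s' := hvec_inj (by
        have := congrArg (fun g : ratGrp σ F₀ => ap (g : GL (Fin 3) F) e₀) h
        simpa [Φ, ap_mul, hfix, hvec] using this)
      subst h1
      have h2 := congrArg (fun g : ratGrp σ F₀ => ((g : GL (Fin 3) F) : M₃) 1 2)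
        (mul_left_cancel h)
      exact Prod.ext rfl (Subtype.ext (by simpa using h2))
    · intro g
      obtain ⟨s, hs⟩ : ∃ s, vec s = ap (g : GL (Fin 3) F) e₀ := by
        obtain ⟨r, hr⟩ : ∃ r, r = ap (g : GL (Fin 3) F) e₀ := ⟨_, rfl⟩
        rw [← hr]
        have hrat : IsRat F₀ r := hr ▸ isRat_ap g.2 (fun i => by
          fin_cases i <;> simp [zero_mem, one_mem])
        have hr0 : r ≠ 0 := hr ▸ ap_ne_zero _ (by simp)
        have hiso : hJ σ r r = 0 := by rw [hr, hJ_ap g.2.2]; simp [hJ]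
        simp only [hJ, (hF.fix _).2 (hrat _)] at hiso
        by_cases h2 : r 2 = 0
        · have h1 : r 1 = 0 := by
            rw [h2, mul_zero, zero_mul, zero_add, add_zero] at hiso
            exact mul_self_eq_zero.mp hiso
          have h0 : (⟨r 0, hrat 0⟩ : F₀) ≠ 0 := fun h => hr0 (by
            have h0' : r 0 = 0 := congrArg Subtype.val h
            funext i
            fin_cases i <;> simp [h0', h1, h2])
          refine ⟨.inl (Units.mk0 _ h0), ?_⟩
          funext i
          fin_cases i <;> simp [vec, h1, h2]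
        · have h2' : (⟨r 2, hrat 2⟩ : F₀) ≠ 0 := fun h => h2 (congrArg Subtype.val h)
          refine ⟨.inr (Units.mk0 _ h2', ⟨r 1 / r 2, div_mem (hrat 1) (hrat 2)⟩), ?_⟩
          funext i
          have := hF.two
          fin_cases i <;> simp [vec, half]
          · field_simp
            linear_combination -hiso
          · field_simp
      have hk : ((hmap s)⁻¹ * g : ratGrp σ F₀).1 = up σ _ _ :=
        rat_fix_eq_up hF ((hmap s)⁻¹ * g : ratGrp σ F₀).2 (by
          rw [Subgroup.coe_mul, ap_mul, ← hs, ← hvec, Subgroup.coe_inv, ap_inv_ap])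
      refine ⟨(s, ⟨_, entries_of_mem_ratGrp ((hmap s)⁻¹ * g : ratGrp σ F₀).2 1 2⟩), ?_⟩
      apply Subtype.ext
      change (hmap s).1 * up σ _ _ = g.1
      exact (congrArg ((hmap s).1 * ·) hk.symm).trans (by simp)
  rw [← Nat.card_congr (Equiv.ofBijective Φ hΦ), Nat.card_prod, Nat.card_sum, Nat.card_prod]

/-! ### Semiregularity -/

/-- A rational element fixing a generic vector is trivial. -/
lemma eq_one_of_fix (hF : Fld σ F₀) {h : GL (Fin 3) F} (hh : h ∈ ratGrp σ F₀) {y : V₃}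
    (hy : ap h y = y) (hyr : ¬ IsRatLine F₀ y) : h = 1 := by
  set z := σ ∘ y with hz
  have hzz : ap h z = z := by rw [hz, ← conj_ap hF hh, hy]
  set n : V₃ := ![y 1 * z 0 - y 0 * z 1, y 0 * z 2 - y 2 * z 0, y 2 * z 1 - y 1 * z 2] with hn
  have hn0 : n ≠ 0 := by
    intro h0
    apply hyr
    obtain ⟨j, hj⟩ : ∃ j, y j ≠ 0 := by
      by_contra hc
      push Not at hc
      exact hyr ⟨0, 0, fun _ => zero_mem F₀, by funext i; simp [hc i]⟩
    have e0 := congrFun h0 0
    have e1 := congrFun h0 1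
    have e2 := congrFun h0 2
    simp only [hn, Matrix.cons_val_zero, Matrix.cons_val_one, Matrix.cons_val, Pi.zero_apply,
      sub_eq_zero] at e0 e1 e2
    have hsym : ∀ i k : Fin 3, y i * z k = y k * z i := by
      intro i k
      fin_cases i <;> fin_cases k <;> simp [e0, e1, e2]
    refine ⟨y j, fun i => y i / y j, fun i => (hF.fix _).1 ?_, ?_⟩
    · rw [map_div₀, div_eq_div_iff (by simpa using hj) hj]
      have := hsym j i
      simp only [hz, Function.comp] at this
      linear_combination this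
    · funext i
      simp [mul_div_cancel₀ _ hj]
  obtain ⟨j, hj⟩ : ∃ j, n j ≠ 0 := Function.ne_iff.mp hn0
  let φ : V₃ →ₗ[F] F :=
    { toFun := fun x => (ap h x - x) j / n j
      map_add' := fun a b => by simp [ap_add]; ring
      map_smul' := fun a b => by simp [ap_smul]; ring }
  have hφ : ∀ x, ap h x = x + φ x • n := by
    intro x
    obtain ⟨d, hd⟩ : ∃ d, d = ap h x - x := ⟨_, rfl⟩
    have E1 : bB d y = 0 := by
      have := bB_ap hF hh x y
      rw [hy] at this
      simp only [bB] at this ⊢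
      simp only [hd, Pi.sub_apply]
      linear_combination this
    have E2 : bB d z = 0 := by
      have := bB_ap hF hh x z
      rw [hzz] at this
      simp only [bB] at this ⊢
      simp only [hd, Pi.sub_apply]
      linear_combination this
    simp only [bB] at E1 E2
    have r01 : d 0 * n 1 = d 1 * n 0 := by
      simp [hn]; linear_combination y 0 * E2 - z 0 * E1
    have r12 : d 1 * n 2 = d 2 * n 1 := by
      simp [hn]; linear_combination y 2 * E2 - z 2 * E1
    have r02 : d 0 * n 2 = d 2 * n 0 := by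
      simp [hn]; linear_combination -(y 1) * E2 + z 1 * E1
    have hsym : ∀ i k : Fin 3, d i * n k = d k * n i := by
      intro i k
      fin_cases i <;> fin_cases k <;> simp [r01, r12, r02]
    funext i
    have := hsym i j
    change ap h x i = x i + (ap h x - x) j / n j * n i
    rw [← hd, div_mul_eq_mul_div, ← this, mul_div_cancel_right₀ _ hj, hd]
    simp
  have hφn : φ n = 0 := by
    have := det_of_ap h n φ hφ
    rw [det_sS hh.2] at this
    exact add_eq_left.mp this.symm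
  have hq : ∀ x, φ x * (2 * bB n x + φ x * bB n n) = 0 := by
    intro x
    have := bB_ap hF hh x x
    rw [hφ x] at this
    simp only [bB, Pi.add_apply, Pi.smul_apply, smul_eq_mul] at this ⊢
    linear_combination this
  have hzero : ∀ x, φ x = 0 := by
    by_cases hnn : bB n n = 0
    · have hgen : ∀ x, bB n x ≠ 0 → φ x = 0 := fun x hx => by
        have := hq x
        rw [hnn, mul_zero, add_zero] at this
        exact (mul_eq_zero.mp this).resolve_right (mul_ne_zero hF.two hx)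
      obtain ⟨x₁, hx₁⟩ : ∃ x₁, bB n x₁ ≠ 0 := by
        obtain ⟨i, hi⟩ := Function.ne_iff.mp hn0
        refine ⟨Pi.single (Fin.rev i) 1, ?_⟩
        fin_cases i <;> simpa [bB, Fin.rev, Pi.single_apply] using hi
      intro x
      by_cases hx : bB n x = 0
      · have := hgen (x + x₁) (by
          have e : bB n (x + x₁) = bB n x + bB n x₁ := by simp [bB]; ring
          rwa [e, hx, zero_add])
        rwa [map_add, hgen x₁ hx₁, add_zero] at this
      · exact hgen x hx
    · intro x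
      have h1 := hq (x - (bB n x / bB n n) • n)
      have e : bB n (x - (bB n x / bB n n) • n) = 0 := by
        have e' : bB n (x - (bB n x / bB n n) • n) =
            bB n x - (bB n x / bB n n) * bB n n := by simp [bB]; ring
        rw [e', div_mul_cancel₀ _ hnn, sub_self]
      rw [map_sub, map_smul, hφn, smul_zero, sub_zero, e] at h1
      simpa [hnn] using h1
  exact gl_ext fun x => by rw [hφ, hzero, zero_smul, add_zero, ap_one]

lemma isRatLine_ap {g : GL (Fin 3) F} (hg : g ∈ ratGrp σ F₀) {x : V₃} (hx : IsRatLine F₀ x) :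
    IsRatLine F₀ (ap g x) := by
  obtain ⟨c, r, hr, rfl⟩ := hx
  exact ⟨c, _, isRat_ap hg hr, ap_smul g c r⟩

lemma isRatLine_smul {c : F} {x : V₃} (hx : IsRatLine F₀ x) : IsRatLine F₀ (c • x) := by
  obtain ⟨d, r, hr, rfl⟩ := hx
  exact ⟨c * d, r, hr, smul_smul c d r⟩

/-- A set of generic vectors closed under the rational group and the scalars. -/
lemma dvd_two_card [Finite F] (hF : Fld σ F₀) (Y : Finset V₃)
    (hinv : ∀ g ∈ ratGrp σ F₀, ∀ y ∈ Y, ap g y ∈ Y) (hsm : ∀ c : F, c ≠ 0 → ∀ y ∈ Y, c • y ∈ Y)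
    (hY : ∀ y ∈ Y, bB y y ≠ 0 ∧ ¬ IsRatLine F₀ y) :
    Nat.card (ratGrp σ F₀) * Nat.card Fˣ ∣ 2 * Y.card := by
  let K := ↥(ratGrp σ F₀) × Fˣ
  letI : MulAction K ↥Y :=
    { smul := fun k y => ⟨(k.2 : F) • ap (k.1 : GL (Fin 3) F) y.1,
        hsm _ k.2.ne_zero _ (hinv _ k.1.2 _ y.2)⟩
      one_smul := fun y => Subtype.ext (by
        change (((1 : K).2 : Fˣ) : F) • ap ((1 : K).1 : GL (Fin 3) F) y.1 = y.1
        simp)
      mul_smul := fun k k' y => Subtype.ext (by
        change ((k.2 * k'.2 : Fˣ) : F) • ap ((k.1 * k'.1 : ↥(ratGrp σ F₀)) : GL (Fin 3) F) y.1 =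
          (k.2 : F) • ap (k.1 : GL (Fin 3) F) ((k'.2 : F) • ap (k'.1 : GL (Fin 3) F) y.1)
        simp [ap_mul, ap_smul, smul_smul]) }
  have hval : ∀ (k : K) (y : ↥Y), (k • y).1 = (k.2 : F) • ap (k.1 : GL (Fin 3) F) y.1 :=
    fun _ _ => rfl
  have key : ∀ y : ↥Y, Nat.card K ∣ 2 * Nat.card (MulAction.orbit K y) := by
    intro y
    have hst : Nat.card (MulAction.stabilizer K y) ≤ 2 := by
      have hc : ∀ k : MulAction.stabilizer K y, ((k : K).2 : F) ∈ ({1, -1} : Finset F) := by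
        intro k
        have h1 : (((k : K).2 : Fˣ) : F) • ap ((k : K).1 : GL (Fin 3) F) y.1 = y.1 := by
          rw [← hval, MulAction.mem_stabilizer_iff.mp k.2]
        have h2 := congrArg (fun v => bB v v) h1
        have h3 : bB (((k : K).2 : F) • ap ((k : K).1 : GL (Fin 3) F) y.1)
            (((k : K).2 : F) • ap ((k : K).1 : GL (Fin 3) F) y.1) =
            ((k : K).2 : F) * ((k : K).2 : F) * bB y.1 y.1 := by
          rw [← bB_ap hF (k : K).1.2 y.1 y.1]
          simp [bB]; ring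
        simp only [h3] at h2
        have h4 : (((k : K).2 : F)) * ((k : K).2 : F) = 1 * 1 := by
          rw [one_mul]
          exact mul_right_cancel₀ (hY _ y.2).1 (by rw [h2, one_mul])
        simpa using mul_self_eq_mul_self_iff.mp h4
      have hinj : Function.Injective
          (fun k : MulAction.stabilizer K y => (⟨_, hc k⟩ : ({1, -1} : Finset F))) := by
        intro k k' h
        have hu : (k : K).2 = (k' : K).2 := Units.ext (congrArg Subtype.val h)
        have h1 := congrArg Subtype.val ((MulAction.mem_stabilizer_iff.mp k.2).trans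
          (MulAction.mem_stabilizer_iff.mp k'.2).symm)
        rw [hval, hval, hu] at h1
        have h2 := smul_right_injective V₃ (k' : K).2.ne_zero h1
        have h3 := eq_one_of_fix hF (mul_mem (inv_mem (k' : K).1.2) (k : K).1.2)
          (by rw [ap_mul]; simp [h2, ap_inv_ap]) (hY _ y.2).2
        exact Subtype.ext (Prod.ext (Subtype.ext (inv_mul_eq_one.mp h3).symm) hu)
      refine (Nat.card_le_card_of_injective _ hinj).trans ?_
      rw [Nat.card_eq_finsetCard]
      exact Finset.card_le_two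
    have h : Nat.card (MulAction.orbit K y) * Nat.card (MulAction.stabilizer K y) = Nat.card K := by
      rw [Nat.card_congr (MulAction.orbitEquivQuotientStabilizer K y)]
      exact (Subgroup.card_eq_card_quotient_mul_card_subgroup _).symm
    have hpos : 0 < Nat.card (MulAction.stabilizer K y) := Nat.card_pos
    rcases (by omega : Nat.card (MulAction.stabilizer K y) = 1 ∨
        Nat.card (MulAction.stabilizer K y) = 2) with e | e <;> rw [e] at h <;> rw [← h]
    · exact ⟨2, by ring⟩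
    · exact ⟨1, by ring⟩
  have hsum : Nat.card ↥Y = ∑ ω : MulAction.orbitRel.Quotient K ↥Y,
      Nat.card (MulAction.orbit K ω.out) := by
    rw [Nat.card_congr (MulAction.selfEquivSigmaOrbits K ↥Y), Nat.card_sigma]
  rw [← Nat.card_eq_finsetCard Y, hsum, Finset.mul_sum, ← Nat.card_prod]
  exact Finset.dvd_sum fun ω _ => key ω.out

/-! ### The finite sets -/

/-- The numerical data. -/
structure Cnt (σ : F ≃+* F) (F₀ : Subfield F) (q : ℕ) (ω : F) : Prop where
  fld : Fld σ F₀
  card₀ : Nat.card F₀ = q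
  card : Nat.card F = q ^ 2
  seven : 7 ≤ q
  odd : Odd q
  ne_zero : ω ≠ 0
  skew : σ ω = -ω

/-- A normalised isotropic vector. -/
def pt (σ : F ≃+* F) (ω b k : F) : V₃ := ![-(b * σ b) / 2 + ω * k, b, 1]

variable [Fintype F] {q : ℕ} {ω : F}

/-- The non-zero isotropic vectors. -/
noncomputable def isoSet (σ : F ≃+* F) : Finset V₃ := univ.filter fun x => x ≠ 0 ∧ hJ σ x x = 0

/-- The non-zero vectors on the lines in the orbit of a vector. -/
noncomputable def orb (M : Subgroup (GL (Fin 3) F)) (e : V₃) : Finset V₃ :=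
  univ.filter fun x => x ≠ 0 ∧ ∃ g ∈ M, ∃ c : F, x = c • ap g e

/-- The non-zero multiples of a vector. -/
noncomputable def lineSet (e : V₃) : Finset V₃ := univ.image fun μ : Fˣ => (μ : F) • e

lemma mem_isoSet {x : V₃} : x ∈ isoSet σ ↔ x ≠ 0 ∧ hJ σ x x = 0 := by simp [isoSet]

lemma mem_orb {x e : V₃} : x ∈ orb M e ↔ x ≠ 0 ∧ ∃ g ∈ M, ∃ c : F, x = c • ap g e := by
  simp [orb]

lemma mem_lineSet {x e : V₃} : x ∈ lineSet e ↔ ∃ μ : F, μ ≠ 0 ∧ x = μ • e := by
  simp only [lineSet, Finset.mem_image, Finset.mem_univ, true_and]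
  exact ⟨fun ⟨μ, h⟩ => ⟨μ, μ.ne_zero, h.symm⟩, fun ⟨μ, h0, h⟩ => ⟨Units.mk0 μ h0, h.symm⟩⟩

lemma card_lineSet {e : V₃} (he : e ≠ 0) : (lineSet e).card = Nat.card Fˣ := by
  rw [lineSet, Finset.card_image_of_injective _ (fun a b h => Units.ext (smul_left_injective F he h)),
    Finset.card_univ, Nat.card_eq_fintype_card]

lemma ap_mem_orb {g : GL (Fin 3) F} (hg : g ∈ M) {x e : V₃} (hx : x ∈ orb M e) :
    ap g x ∈ orb M e := by
  obtain ⟨h0, h, hh, c, rfl⟩ := mem_orb.mp hx
  exact mem_orb.mpr ⟨ap_ne_zero _ h0, g * h, mul_mem hg hh, c, by rw [ap_smul, ap_mul]⟩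

lemma smul_mem_orb {c : F} (hc : c ≠ 0) {x e : V₃} (hx : x ∈ orb M e) : c • x ∈ orb M e := by
  obtain ⟨h0, h, hh, d, rfl⟩ := mem_orb.mp hx
  exact mem_orb.mpr ⟨smul_ne_zero hc h0, h, hh, c * d, smul_smul c d _⟩

lemma self_mem_orb {e : V₃} (he : e ≠ 0) : e ∈ orb M e :=
  mem_orb.mpr ⟨he, 1, one_mem _, 1, by rw [ap_one, one_smul]⟩

lemma Cnt.cast_units (hC : Cnt σ F₀ q ω) : (Nat.card Fˣ : ℤ) = (q : ℤ) ^ 2 - 1 := by
  rw [Nat.card_units, hC.card, Nat.cast_sub (Nat.one_le_pow _ _ (by have := hC.seven; omega))]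
  push_cast
  ring

lemma Cnt.card_rat (hC : Cnt σ F₀ q ω) : Nat.card (ratGrp σ F₀) = q * Nat.card Fˣ := by
  have h := hC.cast_units
  have h₀ : (Nat.card F₀ˣ : ℤ) = (q : ℤ) - 1 := by
    rw [Nat.card_units, hC.card₀, Nat.cast_sub (by have := hC.seven; omega)]
    simp
  rw [card_ratGrp hC.fld, hC.card₀]
  zify
  rw [h₀, h]
  ring

lemma pt_iso (hF : Fld σ F₀) (hω : σ ω = -ω) {b k : F} (hk : k ∈ F₀) :
    hJ σ (pt σ ω b k) (pt σ ω b k) = 0 := by
  simp [hJ, pt, hω, hF.inv, (hF.fix k).2 hk, map_ofNat σ 2]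
  have := hF.two
  field_simp
  ring

lemma smul_pt_inj {μ μ' b b' k k' : F} (hω : ω ≠ 0) (hμ : μ ≠ 0)
    (h : μ • pt σ ω b k = μ' • pt σ ω b' k') : μ = μ' ∧ b = b' ∧ k = k' := by
  have h2 := congrFun h 2
  simp [pt] at h2
  subst h2
  have h1 := congrFun h 1
  simp [pt, hμ] at h1
  subst h1
  have h0 := congrFun h 0
  simp [pt, hμ, hω] at h0
  exact ⟨rfl, rfl, h0⟩

lemma exists_pt (hC : Cnt σ F₀ q ω) {x : V₃} (hx : x ∈ isoSet σ) :
    x ∈ lineSet e₀ ∨ ∃ μ b k : F, μ ≠ 0 ∧ k ∈ F₀ ∧ x = μ • pt σ ω b k := by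
  obtain ⟨h0, hiso⟩ := mem_isoSet.mp hx
  have hF := hC.fld
  by_cases h2 : x 2 = 0
  · left
    have h1 : x 1 = 0 := by simpa [hJ, h2] using hiso
    refine mem_lineSet.mpr ⟨x 0, fun h => h0 ?_, ?_⟩
    · funext i; fin_cases i <;> simp [h, h1, h2]
    · funext i; fin_cases i <;> simp [h1, h2]
  · right
    refine ⟨x 2, x 1 / x 2, (x 0 / x 2 + x 1 / x 2 * σ (x 1 / x 2) / 2) / ω, h2, ?_, ?_⟩
    · rw [← hF.fix]
      simp only [map_div₀, map_add, map_mul, hF.inv, hC.skew, map_ofNat]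
      have := hF.two
      have := hC.ne_zero
      have hs2 : σ (x 2) ≠ 0 := by simpa using h2
      simp only [hJ] at hiso
      field_simp
      linear_combination (-2 : F) * hiso
    · funext i
      have := hF.two
      have := hC.ne_zero
      fin_cases i <;> simp [pt] <;> field_simp
      ring

lemma pt_mem_isoSet (hC : Cnt σ F₀ q ω) {μ b k : F} (hμ : μ ≠ 0) (hk : k ∈ F₀) :
    μ • pt σ ω b k ∈ isoSet σ :=
  mem_isoSet.mpr ⟨smul_ne_zero hμ (fun h => by simpa [pt] using congrFun h 2),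
    by rw [hJ_smul, pt_iso hC.fld hC.skew hk, mul_zero]⟩

lemma line_mem_isoSet {x : V₃} (hx : x ∈ lineSet e₀) : x ∈ isoSet σ := by
  obtain ⟨μ, hμ, rfl⟩ := mem_lineSet.mp hx
  exact mem_isoSet.mpr ⟨smul_ne_zero hμ (by simp), by simp [hJ]⟩

/-- A family of normalised points together with the first line. -/
lemma card_line_union {α : Type*} [Fintype α] (hω : ω ≠ 0) (f : α → F × F)
    (hf : Function.Injective f) :
    (lineSet e₀ ∪ univ.image fun p : Fˣ × α => (p.1 : F) • pt σ ω (f p.2).1 (f p.2).2).card =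
      Nat.card Fˣ + Nat.card Fˣ * Nat.card α := by
  rw [Finset.card_union_of_disjoint, card_lineSet (by simp), Finset.card_image_of_injective,
    Finset.card_univ, Fintype.card_prod, Nat.card_eq_fintype_card, Nat.card_eq_fintype_card]
  · rintro ⟨μ, a⟩ ⟨μ', a'⟩ h
    obtain ⟨h1, h2, h3⟩ := smul_pt_inj hω μ.ne_zero h
    exact Prod.ext (Units.ext h1) (hf (Prod.ext h2 h3))
  · rw [Finset.disjoint_left]
    intro x hx hx'
    obtain ⟨μ, -, rfl⟩ := mem_lineSet.mp hx
    obtain ⟨⟨μ', a⟩, -, h⟩ := Finset.mem_image.mp hx'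
    exact μ'.ne_zero (by simpa [pt] using congrFun h 2)

lemma card_isoSet (hC : Cnt σ F₀ q ω) :
    (isoSet σ).card = Nat.card Fˣ + Nat.card Fˣ * (q ^ 2 * q) := by
  have e : isoSet σ = lineSet e₀ ∪
      univ.image fun p : Fˣ × (F × F₀) => (p.1 : F) • pt σ ω p.2.1 (p.2.2 : F) := by
    ext x
    rw [Finset.mem_union, Finset.mem_image]
    constructor
    · intro hx
      rcases exists_pt hC hx with h | ⟨μ, b, k, hμ, hk, rfl⟩
      · exact .inl h
      · exact .inr ⟨⟨Units.mk0 μ hμ, b, ⟨k, hk⟩⟩, Finset.mem_univ _, rfl⟩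
    · rintro (h | ⟨p, -, rfl⟩)
      · exact line_mem_isoSet h
      · exact pt_mem_isoSet hC p.1.ne_zero p.2.2.2
  rw [e, card_line_union hC.ne_zero (fun a : F × F₀ => (a.1, (a.2 : F))) (fun a b h => by
    simp only [Prod.mk.injEq] at h; exact Prod.ext h.1 (Subtype.ext h.2)),
    Nat.card_prod, hC.card, hC.card₀]

lemma pt_ratLine_iff (hC : Cnt σ F₀ q ω) {μ b k : F} (hμ : μ ≠ 0) (hk : k ∈ F₀) :
    IsRatLine F₀ (μ • pt σ ω b k) ↔ b ∈ F₀ ∧ k = 0 := by
  have hF := hC.fld
  constructor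
  · intro h
    obtain ⟨c, r, hr, he⟩ := isRatLine_smul (c := μ⁻¹) h
    rw [inv_smul_smul₀ hμ] at he
    have h2 := congrFun he 2
    simp [pt] at h2
    have hc : c = (r 2)⁻¹ := eq_inv_of_mul_eq_one_left h2.symm
    have hc₀ : c ∈ F₀ := hc ▸ inv_mem (hr 2)
    have hall : ∀ i, pt σ ω b k i ∈ F₀ := fun i => he ▸ mul_mem hc₀ (hr i)
    have hb : b ∈ F₀ := by simpa [pt] using hall 1
    refine ⟨hb, ?_⟩
    have h0 := (hF.fix _).2 (hall 0)
    simp [pt, hC.skew, (hF.fix _).2 hk, (hF.fix _).2 hb, map_ofNat σ 2] at h0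
    have : (2 : F) * ω * k = 0 := by linear_combination -h0
    simpa [hF.two, hC.ne_zero] using this
  · rintro ⟨hb, rfl⟩
    refine ⟨μ, _, fun i => ?_, rfl⟩
    fin_cases i <;> simp [pt, (hF.fix _).2 hb, hb, one_mem]
    exact div_mem (neg_mem (mul_mem hb hb)) (ofNat_mem F₀ 2)

lemma card_iso_ratLine (hC : Cnt σ F₀ q ω) :
    ((isoSet σ).filter fun x => IsRatLine F₀ x).card = Nat.card Fˣ + Nat.card Fˣ * q := by
  have hline : ∀ x ∈ lineSet e₀, IsRatLine F₀ x := fun x hx => by
    obtain ⟨μ, -, rfl⟩ := mem_lineSet.mp hx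
    exact ⟨μ, _, fun i => by fin_cases i <;> simp [zero_mem, one_mem], rfl⟩
  have e : ((isoSet σ).filter fun x => IsRatLine F₀ x) = lineSet e₀ ∪
      univ.image fun p : Fˣ × F₀ => (p.1 : F) • pt σ ω (p.2 : F) 0 := by
    ext x
    rw [Finset.mem_filter, Finset.mem_union, Finset.mem_image]
    constructor
    · rintro ⟨hx, hr⟩
      rcases exists_pt hC hx with h | ⟨μ, b, k, hμ, hk, rfl⟩
      · exact .inl h
      · obtain ⟨hb, rfl⟩ := (pt_ratLine_iff hC hμ hk).mp hr
        exact .inr ⟨⟨Units.mk0 μ hμ, ⟨b, hb⟩⟩, Finset.mem_univ _, rfl⟩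
    · rintro (h | ⟨p, -, rfl⟩)
      · exact ⟨line_mem_isoSet h, hline x h⟩
      · exact ⟨pt_mem_isoSet hC p.1.ne_zero (zero_mem _),
          (pt_ratLine_iff hC p.1.ne_zero (zero_mem _)).mpr ⟨p.2.2, rfl⟩⟩
  rw [e, card_line_union hC.ne_zero (fun a : F₀ => ((a : F), (0 : F))) (fun a b h => by
    simp only [Prod.mk.injEq] at h; exact Subtype.ext h.1), hC.card₀]

omit [Fintype F] in
/-- A generic isotropic vector is not self-orthogonal for the bilinear form. -/
lemma bB_ne_zero (hF : Fld σ F₀) {x : V₃} (hiso : hJ σ x x = 0) (hr : ¬ IsRatLine F₀ x) :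
    bB x x ≠ 0 := by
  intro hb
  apply hr
  obtain ⟨j, hj⟩ : ∃ j, x j ≠ 0 := by
    by_contra hc
    push Not at hc
    exact hr ⟨0, 0, fun _ => zero_mem F₀, by funext i; simp [hc i]⟩
  set z := σ ∘ x with hz
  have E1 : x 0 * x 2 + x 1 * x 1 + x 2 * x 0 = 0 := hb
  have E2 : x 0 * z 2 + x 1 * z 1 + x 2 * z 0 = 0 := hiso
  have E3 : z 0 * z 2 + z 1 * z 1 + z 2 * z 0 = 0 := by
    have := congrArg σ hb
    simpa [bB, hz] using this
  have sq : ∀ a b : F, a * a = b * b → a = b ∨ a = -b := fun a b => mul_self_eq_mul_self_iff.mp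
  have r01 : x 0 * z 1 = x 1 * z 0 := by
    have : (x 0 * z 1 - x 1 * z 0) * (x 0 * z 1 - x 1 * z 0) = 0 := by
      linear_combination z 0 * z 0 * E1 - 2 * x 0 * z 0 * E2 + x 0 * x 0 * E3
    exact sub_eq_zero.mp (mul_self_eq_zero.mp this)
  have r21 : x 2 * z 1 = x 1 * z 2 := by
    have : (x 2 * z 1 - x 1 * z 2) * (x 2 * z 1 - x 1 * z 2) = 0 := by
      linear_combination z 2 * z 2 * E1 - 2 * x 2 * z 2 * E2 + x 2 * x 2 * E3
    exact sub_eq_zero.mp (mul_self_eq_zero.mp this)
  have r02 : x 0 * z 2 = x 2 * z 0 := by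
    have : (x 0 * z 2 - x 2 * z 0) * (x 0 * z 2 - x 2 * z 0) = 0 := by
      linear_combination (-(z 0 * z 2 + z 2 * z 0)) * E1 +
        (x 0 * z 2 + x 2 * z 0 - x 1 * z 1) * E2 + (x 1 * x 1) * E3
    exact sub_eq_zero.mp (mul_self_eq_zero.mp this)
  have hsym : ∀ i k : Fin 3, x i * z k = x k * z i := by
    intro i k
    fin_cases i <;> fin_cases k <;> simp [r01, r21, r02]
  refine ⟨x j, fun i => x i / x j, fun i => (hF.fix _).1 ?_, ?_⟩
  · rw [map_div₀, div_eq_div_iff (by simpa using hj) hj]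
    have := hsym j i
    simp only [hz, Function.comp] at this
    linear_combination this
  · funext i
    simp [mul_div_cancel₀ _ hj]

/-- The exceptional vectors are few. -/
lemma card_exceptions (hC : Cnt σ F₀ q ω) (S : Finset V₃) (h0 : ∀ x ∈ S, x ≠ 0)
    (hS : ∀ x ∈ S, IsRatLine F₀ x ∨ bB x x = 0) :
    S.card ≤ Nat.card Fˣ * (q * q) + Nat.card Fˣ * q + Nat.card Fˣ +
      (Nat.card Fˣ + Nat.card Fˣ * q ^ 2) := by
  have hsub : S ⊆
      (univ.image fun p : Fˣ × (F₀ × F₀) => (p.1 : F) • (![1, (p.2.1 : F), (p.2.2 : F)] : V₃)) ∪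
      (univ.image fun p : Fˣ × F₀ => (p.1 : F) • (![0, 1, (p.2 : F)] : V₃)) ∪
      lineSet (![0, 0, 1] : V₃) ∪
      (lineSet e₀ ∪ univ.image fun p : Fˣ × F => (p.1 : F) • (![-(p.2 * p.2) / 2, p.2, 1] : V₃)) := by
    intro x hx
    have hx0 := h0 x hx
    simp only [Finset.mem_union, Finset.mem_image, Finset.mem_univ, true_and, mem_lineSet]
    rcases hS x hx with ⟨c, r, hr, rfl⟩ | hb
    · left
      have hc : c ≠ 0 := fun h => hx0 (by rw [h, zero_smul])
      by_cases r0 : r 0 = 0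
      · by_cases r1 : r 1 = 0
        · have r2 : r 2 ≠ 0 := fun h => hx0 (by funext i; fin_cases i <;> simp [r0, r1, h])
          right
          refine ⟨c * r 2, mul_ne_zero hc r2, ?_⟩
          funext i; fin_cases i <;> simp [r0, r1]
        · left; right
          refine ⟨⟨Units.mk0 (c * r 1) (mul_ne_zero hc r1), ⟨r 2 / r 1, div_mem (hr 2) (hr 1)⟩⟩, ?_⟩
          funext i; fin_cases i <;> simp [r0] <;> field_simp
      · left; left
        refine ⟨⟨Units.mk0 (c * r 0) (mul_ne_zero hc r0), ⟨r 1 / r 0, div_mem (hr 1) (hr 0)⟩,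
          ⟨r 2 / r 0, div_mem (hr 2) (hr 0)⟩⟩, ?_⟩
        funext i; fin_cases i <;> simp <;> field_simp
    · right
      have := hC.fld.two
      simp only [bB] at hb
      by_cases h2 : x 2 = 0
      · left
        have h1 : x 1 = 0 := by
          rw [h2, mul_zero, zero_mul, zero_add, add_zero] at hb
          exact mul_self_eq_zero.mp hb
        refine ⟨x 0, fun h => hx0 ?_, ?_⟩
        · funext i; fin_cases i <;> simp [h, h1, h2]
        · funext i; fin_cases i <;> simp [h1, h2]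
      · right
        refine ⟨⟨Units.mk0 _ h2, x 1 / x 2⟩, ?_⟩
        funext i; fin_cases i <;> simp <;> field_simp
        linear_combination -hb
  refine (Finset.card_le_card hsub).trans ?_
  refine (Finset.card_union_le _ _).trans (add_le_add ?_ ?_)
  · refine (Finset.card_union_le _ _).trans (add_le_add ?_ (card_lineSet fun h => by
      simpa using congrFun h 2).le)
    refine (Finset.card_union_le _ _).trans (add_le_add ?_ ?_) <;>
      refine Finset.card_image_le.trans (le_of_eq ?_) <;>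
      simp only [Finset.card_univ, ← Nat.card_eq_fintype_card, Nat.card_prod, hC.card₀]
  · refine (Finset.card_union_le _ _).trans (add_le_add (card_lineSet (by simp)).le ?_)
    refine Finset.card_image_le.trans (le_of_eq ?_)
    simp only [Finset.card_univ, ← Nat.card_eq_fintype_card, Nat.card_prod, hC.card]

/-! ### Orthogonal pairs -/

lemma orb_iso (hO : Over σ F₀ M) {x : V₃} (hx : x ∈ orb M e₀) : x ∈ isoSet σ := by
  obtain ⟨h0, g, hg, c, rfl⟩ := mem_orb.mp hx
  exact mem_isoSet.mpr ⟨h0, by rw [hJ_smul, hJ_ap (hO.high hg)]; simp [hJ]⟩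

lemma card_orth_translate (hO : Over σ F₀ M) {S : Finset V₃}
    (hS : ∀ g ∈ M, ∀ x ∈ S, ap g x ∈ S) {g : GL (Fin 3) F} (hg : g ∈ M) {c : F} (hc : c ≠ 0)
    (e : V₃) :
    (S.filter fun y => hJ σ y (c • ap g e) = 0).card =
      (S.filter fun y => hJ σ y e = 0).card := by
  have hsc : ∀ y, hJ σ y (c • ap g e) = σ c * hJ σ y (ap g e) := fun y => by
    simpa using hJ_smul y (ap g e) 1 c
  have hsc0 : σ c ≠ 0 := by simpa using hc
  refine Finset.card_bij' (fun y _ => ap g⁻¹ y) (fun y _ => ap g y) ?_ ?_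
    (fun y _ => ap_ap_inv g y) (fun y _ => ap_inv_ap g y) <;>
    intro y hy <;> rw [Finset.mem_filter] at hy ⊢
  · refine ⟨hS _ (inv_mem hg) _ hy.1, ?_⟩
    have h := (mul_eq_zero.mp ((hsc y).symm.trans hy.2)).resolve_left hsc0
    rwa [← hJ_ap (hO.high hg), ap_ap_inv]
  · exact ⟨hS _ hg _ hy.1, by rw [hsc, hJ_ap (hO.high hg), hy.2, mul_zero]⟩

/-- The anisotropic points of the orbit orthogonal to the first point. -/
theorem card_orth_zero (hC : Cnt σ F₀ q ω) (hO : Over σ F₀ M) (hn : NoT σ M) :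
    ((orb M e₁).filter fun y => hJ σ y e₀ = 0).card = Nat.card Fˣ * q := by
  have hF := hC.fld
  have e : ((orb M e₁).filter fun y => hJ σ y e₀ = 0) =
      univ.image fun p : Fˣ × F₀ => (p.1 : F) • (![(p.2 : F), 1, 0] : V₃) := by
    ext y
    simp only [Finset.mem_filter, Finset.mem_image, Finset.mem_univ, true_and]
    constructor
    · rintro ⟨hy, hy0⟩
      obtain ⟨hne, g, hg, c, rfl⟩ := mem_orb.mp hy
      have hc : c ≠ 0 := fun h => hne (by rw [h, zero_smul])
      obtain ⟨u, hu⟩ : ∃ u, u = ap g e₁ := ⟨_, rfl⟩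
      rw [← hu] at hy0 ⊢
      have huu : hJ σ u u = 1 := by rw [hu, hJ_ap (hO.high hg)]; simp [hJ]
      have hu2 : u 2 = 0 := by simpa [hJ, hc] using hy0
      have hu1 : u 1 * σ (u 1) = 1 := by simpa [hJ, hu2] using huu
      -- the reflection in `u` fixes the first line
      have hr := mul_mem (mul_mem hg (hO.rat_le ss_mem_rat)) (inv_mem hg)
      have hrap : ∀ x, ap (g * ss F * g⁻¹) x = -x + (2 * hJ σ x u) • u := by
        intro x
        obtain ⟨x', rfl⟩ : ∃ x', x = ap g x' := ⟨ap g⁻¹ x, (ap_ap_inv g x).symm⟩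
        rw [hu, hJ_ap (hO.high hg), ap_mul, ap_mul, ap_inv_ap]
        have e1 : ap (ss F) x' = -x' + (2 * hJ σ x' e₁) • e₁ := by
          funext i
          fin_cases i <;> simp [ap_ss, hJ]
          ring
        rw [e1, ap_add, ap_smul]
        simp [ap, Matrix.mulVec_neg]
      have hr0 : ap (g * ss F * g⁻¹) e₀ = -e₀ := by
        have : hJ σ e₀ u = 0 := by simp [hJ, hu2]
        rw [hrap, this, mul_zero, zero_smul, add_zero]
      have hcol : ∀ i j, ((g * ss F * g⁻¹ : GL (Fin 3) F) : M₃) i j =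
          ap (g * ss F * g⁻¹) (Pi.single j 1) i := fun i j => by simp [ap]
      have hH := hO.mem_of_fix hn hr (by rw [hcol, hr0]; simp) (by rw [hcol, hr0]; simp)
      obtain ⟨d, hd0, hd⟩ := entries_of_mem_subfield hH.1
      have hd00 := hd 0 0
      rw [hcol, hr0] at hd00
      have hd₀ : d ∈ F₀ := by simpa using hd00
      have h12 := hd 1 2
      rw [hcol, hrap] at h12
      simp [hJ] at h12
      have hkey : σ (u 0) * u 1 ∈ F₀ := by
        have h := mul_mem (inv_mem (mul_mem hd₀ (ofNat_mem F₀ 2))) h12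
        have := hF.two
        convert h using 1
        field_simp
      have hk' := (hF.fix _).2 hkey
      rw [map_mul, hF.inv] at hk'
      have hb : u 0 * σ (u 1) ∈ F₀ := hk' ▸ hkey
      refine ⟨⟨Units.mk0 (c * u 1) (mul_ne_zero hc (left_ne_zero_of_mul_eq_one hu1)), ⟨_, hb⟩⟩, ?_⟩
      funext i
      fin_cases i <;> simp [hu2]
      linear_combination (c * u 0) * hu1
    · rintro ⟨⟨μ, b, hb⟩, rfl⟩
      have he : ap (up σ (-b) (half (-b))) e₁ = ![b, 1, 0] := by
        funext i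
        fin_cases i <;> simp [ap_up, (hF.fix _).2 hb]
      refine ⟨mem_orb.mpr ⟨smul_ne_zero μ.ne_zero fun h => by simpa using congrFun h 1, _,
        hO.rat_le (up_half_mem hF (neg_mem hb)), μ, by rw [he]⟩, ?_⟩
      simp [hJ]
  rw [e, Finset.card_image_of_injective, Finset.card_univ, Fintype.card_prod,
    ← Nat.card_eq_fintype_card, ← Nat.card_eq_fintype_card, hC.card₀]
  rintro ⟨μ, b⟩ ⟨μ', b'⟩ h
  have h1 := congrFun h 1
  have h0 := congrFun h 0
  simp at h1 h0
  obtain rfl : μ = μ' := Units.ext h1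
  exact Prod.ext rfl (by simpa using h0)

lemma pt_zero (k : F) : pt σ ω 0 k = ![ω * k, 0, 1] := by simp [pt]

lemma ap_tor_pt (k t : F) (ht : t ≠ 0) :
    ap (tor t ht) (pt σ ω 0 k) = t⁻¹ • pt σ ω 0 (t * t * k) := by
  funext i
  fin_cases i <;> simp [ap_tor, pt_zero]
  field_simp

lemma ap_ww_pt (hω : ω ≠ 0) {k : F} (hk : k ≠ 0) :
    ap (ww F) (pt σ ω 0 k) = (ω * k) • pt σ ω 0 (ω * ω * k)⁻¹ := by
  funext i
  fin_cases i <;> simp [ap_ww, pt_zero]
  field_simp

lemma Cnt.isSquare_of_mem (hC : Cnt σ F₀ q ω) {a : F} (ha : a ∈ F₀) : IsSquare a := by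
  by_cases ha0 : a = 0
  · exact ha0 ▸ IsSquare.zero
  have hchar : ringChar F ≠ 2 := fun h => hC.fld.two (by
    exact_mod_cast (ringChar.spec F 2).mpr (by rw [h]))
  rw [FiniteField.isSquare_iff hchar ha0, ← Nat.card_eq_fintype_card, hC.card]
  have h1 : a ^ (q - 1) = 1 := by
    have hne : (⟨a, ha⟩ : F₀) ≠ 0 := fun h => ha0 (congrArg Subtype.val h)
    have := congrArg Subtype.val (FiniteField.pow_card_sub_one_eq_one (⟨a, ha⟩ : F₀) hne)
    rwa [← Nat.card_eq_fintype_card, hC.card₀] at this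
  obtain ⟨r, hr⟩ := hC.odd
  have e : q ^ 2 / 2 = (q - 1) * (r + 1) := by
    rw [hr, show (2 * r + 1) ^ 2 = 1 + 2 * (2 * r * (r + 1)) by ring,
      Nat.add_mul_div_left _ _ two_pos, Nat.add_sub_cancel]
    omega
  rw [e, pow_mul, h1, one_pow]

/-- The isotropic points of the orbit orthogonal to the middle point. -/
theorem card_orth_one (hC : Cnt σ F₀ q ω) (hO : Over σ F₀ M) :
    (((orb M e₀).filter fun x => hJ σ x e₁ = 0).card = Nat.card Fˣ + Nat.card Fˣ * 1 ∨
      ((orb M e₀).filter fun x => hJ σ x e₁ = 0).card = Nat.card Fˣ + Nat.card Fˣ * q) ∧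
    (orb M e₀ = isoSet σ →
      ((orb M e₀).filter fun x => hJ σ x e₁ = 0).card = Nat.card Fˣ + Nat.card Fˣ * q) := by
  have hF := hC.fld
  have hω := hC.ne_zero
  set K' : Finset F₀ := univ.filter fun k => pt σ ω 0 (k : F) ∈ orb M e₀ with hK'
  have hlineO : ∀ x ∈ lineSet e₀, x ∈ orb M e₀ := fun x hx => by
    obtain ⟨μ, hμ, rfl⟩ := mem_lineSet.mp hx
    exact smul_mem_orb hμ (self_mem_orb (by simp))
  have e : ((orb M e₀).filter fun x => hJ σ x e₁ = 0) = lineSet e₀ ∪
      univ.image fun p : Fˣ × K' => (p.1 : F) • pt σ ω 0 ((p.2 : F₀) : F) := by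
    ext x
    simp only [Finset.mem_filter, Finset.mem_union, Finset.mem_image, Finset.mem_univ, true_and]
    constructor
    · rintro ⟨hx, h1⟩
      rcases exists_pt hC (orb_iso hO hx) with h | ⟨μ, b, k, hμ, hk, rfl⟩
      · exact .inl h
      · have hb : b = 0 := by simpa [hJ, pt, hμ] using h1
        subst hb
        have hkK : (⟨k, hk⟩ : F₀) ∈ K' := Finset.mem_filter.mpr ⟨Finset.mem_univ _, by
          have := smul_mem_orb (inv_ne_zero hμ) hx
          rwa [inv_smul_smul₀ hμ] at this⟩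
        exact .inr ⟨⟨Units.mk0 μ hμ, ⟨_, hkK⟩⟩, rfl⟩
    · rintro (h | ⟨⟨μ, k⟩, rfl⟩)
      · refine ⟨hlineO x h, ?_⟩
        obtain ⟨μ, -, rfl⟩ := mem_lineSet.mp h
        simp [hJ]
      · exact ⟨smul_mem_orb μ.ne_zero (Finset.mem_filter.mp k.2).2, by simp [hJ, pt]⟩
  have hcard : ((orb M e₀).filter fun x => hJ σ x e₁ = 0).card =
      Nat.card Fˣ + Nat.card Fˣ * K'.card := by
    rw [e, card_line_union hω (fun a : K' => ((0 : F), ((a : F₀) : F))) (fun a b h => by
      simp only [Prod.mk.injEq] at h; exact Subtype.ext (Subtype.ext h.2)), Nat.card_eq_finsetCard]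
  have huniv : K' = univ → K'.card = q := fun h => by
    rw [h, Finset.card_univ, ← Nat.card_eq_fintype_card, hC.card₀]
  refine ⟨?_, fun hall => ?_⟩
  · by_cases hk : ∃ k ∈ K', k ≠ 0
    · right
      rw [hcard, huniv]
      obtain ⟨⟨k, hk₀⟩, hkK, hkne⟩ := hk
      have hk0 : k ≠ 0 := fun h => hkne (Subtype.ext h)
      have hkO : pt σ ω 0 k ∈ orb M e₀ := (Finset.mem_filter.mp hkK).2
      refine Finset.eq_univ_of_forall fun k' => Finset.mem_filter.mpr ⟨Finset.mem_univ _, ?_⟩
      obtain ⟨k', hk'₀⟩ := k'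
      show pt σ ω 0 k' ∈ orb M e₀
      by_cases hk'0 : k' = 0
      · rw [hk'0]
        have h := ap_mem_orb (hO.rat_le ww_mem_rat) (self_mem_orb (M := M) (e := e₀) (by simp))
        convert h using 1
        funext i
        fin_cases i <;> simp [ap_ww, pt_zero]
      have hscale : ∀ (t : F) (k : F), t ≠ 0 → t ∈ F₀ → pt σ ω 0 k ∈ orb M e₀ →
          pt σ ω 0 (t * t * k) ∈ orb M e₀ := by
        intro t k ht ht₀ hkm
        have h := ap_mem_orb (hO.rat_le (tor_mem_rat hF ht ht₀)) hkm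
        rw [ap_tor_pt] at h
        have := smul_mem_orb ht h
        rwa [smul_smul, mul_inv_cancel₀ ht, one_smul] at this
      obtain ⟨t, ht⟩ := hC.isSquare_of_mem (div_mem hk'₀ hk₀)
      have ht0 : t ≠ 0 := fun h => div_ne_zero hk'0 hk0 (by rw [ht, h, mul_zero])
      have hk'eq : t * t * k = k' := by rw [← ht, div_mul_cancel₀ _ hk0]
      have hσt : σ t * σ t = t * t := by
        rw [← map_mul, ← ht, (hF.fix _).2 (div_mem hk'₀ hk₀)]
      rcases mul_self_eq_mul_self_iff.mp hσt with h | h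
      · exact hk'eq ▸ hscale t k ht0 ((hF.fix _).1 h) hkO
      · have h1 := ap_mem_orb (hO.rat_le ww_mem_rat) hkO
        rw [ap_ww_pt hω hk0] at h1
        have h2 := smul_mem_orb (inv_ne_zero (mul_ne_zero hω hk0)) h1
        rw [inv_smul_smul₀ (mul_ne_zero hω hk0)] at h2
        have hs : ω * t * k ∈ F₀ := (hF.fix _).1 (by
          rw [map_mul, map_mul, hC.skew, h, (hF.fix _).2 hk₀]; ring)
        have h3 := hscale _ _ (mul_ne_zero (mul_ne_zero hω ht0) hk0) hs h2
        convert h3 using 2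
        rw [← hk'eq]
        field_simp
    · left
      push Not at hk
      have h0 : K' = {0} := by
        ext k
        rw [Finset.mem_singleton]
        refine ⟨hk k, fun h => Finset.mem_filter.mpr ⟨Finset.mem_univ _, ?_⟩⟩
        rw [h]
        have h := ap_mem_orb (hO.rat_le ww_mem_rat) (self_mem_orb (M := M) (e := e₀) (by simp))
        convert h using 1
        funext i
        fin_cases i <;> simp [ap_ww, pt_zero]
      rw [hcard, h0, Finset.card_singleton]
  · rw [hcard, huniv]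
    refine Finset.eq_univ_of_forall fun k => Finset.mem_filter.mpr ⟨Finset.mem_univ _, ?_⟩
    have := pt_mem_isoSet (b := 0) hC one_ne_zero k.2
    rw [one_smul] at this
    rwa [hall]

/-! ### The equation -/

lemma no_solution {q j i e n m : ℤ} (hq : 7 ≤ q) (hodd : Odd q) (hn : n = q ^ 2 - 1)
    (hj : j = 1 ∨ j = 2) (hi : 0 ≤ i) (he0 : 0 ≤ e) (he : e ≤ n * (2 * q ^ 2 + q + 2))
    (hm : m = 2 ∨ m = q + 1) (h2 : j = 2 → m = q + 1)
    (heq : q * n * (2 * (q + 1) + j * q * n) = m * (2 * e + i * q * n ^ 2)) : False := by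
  have hn0 : 0 < n := by rw [hn]; nlinarith
  have hqn : 0 < q * n := mul_pos (by linarith) hn0
  rcases hm with rfl | rfl
  · rcases hj with rfl | rfl
    · obtain ⟨r, hr⟩ := hodd
      have heq' : q * n * (q ^ 3 + q + 2 - 2 * i * n) = 4 * e := by
        rw [hn] at heq ⊢; linear_combination heq
      rcases le_or_gt i r with hir | hir
      · have h1 : 2 * i * n ≤ (q - 1) * n := mul_le_mul_of_nonneg_right (by omega) hn0.le
        have h3 : q * n * (q ^ 2 + 2 * q + 1) ≤ 4 * e :=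
          heq' ▸ mul_le_mul_of_nonneg_left (by nlinarith) hqn.le
        have h4 : 8 * q ^ 2 + 4 * q + 8 < q * (q ^ 2 + 2 * q + 1) := by
          nlinarith [mul_le_mul_of_nonneg_left hq (sq_nonneg q)]
        nlinarith [mul_lt_mul_of_pos_left h4 hn0]
      · have h1 : (q + 1) * n ≤ 2 * i * n := mul_le_mul_of_nonneg_right (by omega) hn0.le
        have h3 : q ^ 3 + q + 2 - 2 * i * n < 0 := by nlinarith
        nlinarith [mul_neg_of_pos_of_neg hqn h3]
    · exact absurd (h2 rfl) (by omega)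
  · have hq1 : q + 1 ≠ 0 := by omega
    rcases hj with rfl | rfl
    · have heq' : q * n * (q ^ 2 - q + 2) = 2 * e + i * q * n ^ 2 := by
        apply mul_left_cancel₀ hq1
        rw [hn] at heq ⊢
        linear_combination heq
      rcases (by omega : i = 0 ∨ 1 ≤ i) with rfl | hi1
      · have h4 : 2 * (2 * q ^ 2 + q + 2) < q * (q ^ 2 - q + 2) := by
          nlinarith [mul_le_mul_of_nonneg_left hq (sq_nonneg q)]
        nlinarith [mul_lt_mul_of_pos_left h4 hn0]
      · have h4 : q ^ 2 - q + 2 < n := by rw [hn]; linarith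
        have h5 : q * n * (q ^ 2 - q + 2) < q * n * n := mul_lt_mul_of_pos_left h4 hqn
        nlinarith [mul_le_mul_of_nonneg_right hi1 (mul_nonneg hqn.le hn0.le)]
    · have heq' : q * n * (2 * q ^ 2 - 2 * q + 2) = 2 * e + i * q * n ^ 2 := by
        apply mul_left_cancel₀ hq1
        rw [hn] at heq ⊢
        linear_combination heq
      rcases (by omega : i = 0 ∨ i = 1 ∨ 2 ≤ i) with rfl | rfl | hi1
      · have h4 : 2 * (2 * q ^ 2 + q + 2) < q * (2 * q ^ 2 - 2 * q + 2) := by
          nlinarith [mul_le_mul_of_nonneg_left hq (sq_nonneg q)]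
        nlinarith [mul_lt_mul_of_pos_left h4 hn0]
      · have h4 : 2 * (2 * q ^ 2 + q + 2) < q * (q ^ 2 - 2 * q + 3) := by
          nlinarith [mul_le_mul_of_nonneg_left hq (sq_nonneg q)]
        have h5 : q * n * (q ^ 2 - 2 * q + 3) = 2 * e := by
          rw [hn] at heq' ⊢; linear_combination heq'
        nlinarith [mul_lt_mul_of_pos_left h4 hn0]
      · have h4 : 2 * q ^ 2 - 2 * q + 2 < 2 * n := by rw [hn]; linarith
        have h5 : q * n * (2 * q ^ 2 - 2 * q + 2) < q * n * (2 * n) :=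
          mul_lt_mul_of_pos_left h4 hqn
        nlinarith [mul_le_mul_of_nonneg_right hi1 (mul_nonneg hqn.le hn0.le)]

/-- An overgroup without transvections is the subfield subgroup. -/
theorem le_of_noT (hC : Cnt σ F₀ q ω) (hO : Over σ F₀ M) (hn : NoT σ M) :
    M ≤ Cfsg.Geo.subfieldSubgroup F₀ (1 : GL (Fin 3) F) ⊓ sS σ := by
  intro g₀ hg₀
  by_contra hg₀H
  have hF := hC.fld
  set N := Nat.card Fˣ with hN
  have hNz := hC.cast_units
  have hN0 : 0 < N := Nat.card_pos
  have hq0 : 0 < q := by have := hC.seven; omega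
  -- the isotropic orbit
  set A := (orb M e₀).filter fun x => ¬ IsRatLine F₀ x with hA
  have hAne : 0 < A.card := Finset.card_pos.mpr ⟨ap g₀ e₀, Finset.mem_filter.mpr
    ⟨mem_orb.mpr ⟨ap_ne_zero _ (by simp), g₀, hg₀, 1, (one_smul F _).symm⟩,
      fun h => hg₀H (hO.mem_of_ratLine hn hg₀ h)⟩⟩
  have hAY := dvd_two_card hF A
    (fun g hg y hy => by
      rw [hA, Finset.mem_filter] at hy ⊢
      refine ⟨ap_mem_orb (hO.rat_le hg) hy.1, fun h => hy.2 ?_⟩
      simpa [ap_inv_ap] using isRatLine_ap (inv_mem hg) h)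
    (fun c hc y hy => by
      rw [hA, Finset.mem_filter] at hy ⊢
      refine ⟨smul_mem_orb hc hy.1, fun h => hy.2 ?_⟩
      simpa [inv_smul_smul₀ hc] using isRatLine_smul (c := c⁻¹) h)
    (fun y hy => by
      rw [hA, Finset.mem_filter] at hy
      exact ⟨bB_ne_zero hF (mem_isoSet.mp (orb_iso hO hy.1)).2 hy.2, hy.2⟩)
  rw [hC.card_rat, ← hN] at hAY
  obtain ⟨j, hj⟩ := hAY
  -- the rational part of it
  have hR : ((orb M e₀).filter fun x => IsRatLine F₀ x) =
      (isoSet σ).filter fun x => IsRatLine F₀ x := by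
    ext x
    simp only [Finset.mem_filter]
    refine ⟨fun h => ⟨orb_iso hO h.1, h.2⟩, fun ⟨hx, c, r, hr, he⟩ => ⟨?_, c, r, hr, he⟩⟩
    obtain ⟨hx0, hiso⟩ := mem_isoSet.mp hx
    have hc : c ≠ 0 := fun h => hx0 (by rw [he, h, zero_smul])
    have hr0 : r ≠ 0 := fun h => hx0 (by rw [he, h, smul_zero])
    rw [he, hJ_smul] at hiso
    obtain ⟨h, hh, d, -, hd, hrd⟩ := exists_conic hF hr hr0
      ((mul_eq_zero.mp hiso).resolve_left (mul_ne_zero hc (by simpa using hc)))
    rw [he, hrd, smul_smul]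
    exact smul_mem_orb (mul_ne_zero hc hd) (ap_mem_orb (hO.rat_le hh) (self_mem_orb (by simp)))
  have hsplit : (orb M e₀).card = (N + N * q) + A.card := by
    rw [← Finset.card_filter_add_card_filter_not (s := orb M e₀) (fun x => IsRatLine F₀ x), hR,
      card_iso_ratLine hC, ← hA]
  have hsub : orb M e₀ ⊆ isoSet σ := fun x hx => orb_iso hO hx
  have hle := Finset.card_le_card hsub
  rw [hsplit, card_isoSet hC, ← hN] at hle
  have hle' : (A.card : ℤ) ≤ q * (N : ℤ) * N := by
    zify at hle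
    nlinarith
  have hjz : 2 * (A.card : ℤ) = q * (N : ℤ) * N * j := by exact_mod_cast hj
  have hQ : 0 < (q : ℤ) * N * N := by positivity
  have hj12 : (j : ℤ) = 1 ∨ (j : ℤ) = 2 := by
    have h1 : 0 < (j : ℤ) := by
      rcases Nat.eq_zero_or_pos j with h | h
      · rw [h, mul_zero] at hj; omega
      · exact_mod_cast h
    have h2 : (j : ℤ) ≤ 2 := by
      by_contra hc
      nlinarith [mul_le_mul_of_nonneg_left (not_le.mp hc : (2 : ℤ) < j).le hQ.le]
    omega
  -- the anisotropic orbit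
  set B := orb M e₁ with hB
  set B' := B.filter fun y => bB y y ≠ 0 ∧ ¬ IsRatLine F₀ y with hB'
  have hBY := dvd_two_card hF B'
    (fun g hg y hy => by
      rw [hB', Finset.mem_filter] at hy ⊢
      refine ⟨ap_mem_orb (hO.rat_le hg) hy.1, by rw [bB_ap hF hg]; exact hy.2.1, fun h => hy.2.2 ?_⟩
      simpa [ap_inv_ap] using isRatLine_ap (inv_mem hg) h)
    (fun c hc y hy => by
      rw [hB', Finset.mem_filter] at hy ⊢
      refine ⟨smul_mem_orb hc hy.1, ?_, fun h => hy.2.2 ?_⟩
      · have e : bB (c • y) (c • y) = c * c * bB y y := by simp [bB]; ring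
        rw [e]
        exact mul_ne_zero (mul_ne_zero hc hc) hy.2.1
      · simpa [inv_smul_smul₀ hc] using isRatLine_smul (c := c⁻¹) h)
    (fun y hy => (Finset.mem_filter.mp hy).2)
  rw [hC.card_rat, ← hN] at hBY
  obtain ⟨i, hi⟩ := hBY
  set Bx := B.filter fun y => ¬ (bB y y ≠ 0 ∧ ¬ IsRatLine F₀ y) with hBx
  have hBsplit : B.card = B'.card + Bx.card :=
    (Finset.card_filter_add_card_filter_not _).symm
  have hBxle := card_exceptions hC Bx
    (fun x hx => (mem_orb.mp (Finset.mem_filter.mp hx).1).1)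
    (fun x hx => by
      have := (Finset.mem_filter.mp hx).2
      tauto)
  -- the pairs
  obtain ⟨hm, hmall⟩ := card_orth_one hC hO
  obtain ⟨T, hT⟩ : ∃ T, T = ((orb M e₀).filter fun x => hJ σ x e₁ = 0).card := ⟨_, rfl⟩
  rw [← hT, ← hN] at hm hmall
  have hpairs : (orb M e₀).card * (N * q) = B.card * T := by
    refine Finset.card_mul_eq_card_mul (fun x y => hJ σ y x = 0) (fun x hx => ?_) (fun y hy => ?_)
    · obtain ⟨hx0, g, hg, c, rfl⟩ := mem_orb.mp hx
      have hc : c ≠ 0 := fun h => hx0 (by rw [h, zero_smul])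
      rw [Finset.bipartiteAbove, card_orth_translate hO (fun g hg x hx => ap_mem_orb hg hx) hg hc,
        card_orth_zero hC hO hn]
    · obtain ⟨hy0, g, hg, c, rfl⟩ := mem_orb.mp hy
      have hc : c ≠ 0 := fun h => hy0 (by rw [h, zero_smul])
      rw [Finset.bipartiteBelow, hT]
      rw [← card_orth_translate hO (S := orb M e₀) (fun g hg x hx => ap_mem_orb hg hx) hg hc e₁]
      refine congrArg Finset.card (Finset.filter_congr fun x _ => ?_)
      rw [hJ_swap hF x, EmbeddingLike.map_eq_zero_iff]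
  rw [hsplit, hBsplit] at hpairs
  -- the multiplicity of the middle point
  obtain ⟨m, hmm, hTm, hj2⟩ : ∃ m : ℤ, (m = 2 ∨ m = (q : ℤ) + 1) ∧ (T : ℤ) = m * N ∧
      ((j : ℤ) = 2 → m = (q : ℤ) + 1) := by
    by_cases hj' : (j : ℤ) = 2
    · refine ⟨q + 1, .inr rfl, ?_, fun _ => rfl⟩
      have : orb M e₀ = isoSet σ := Finset.eq_of_subset_of_card_le hsub (by
        rw [hsplit, card_isoSet hC, ← hN]
        zify
        rw [hj'] at hjz
        nlinarith)
      rw [hmall this]
      push_cast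
      ring
    · rcases hm with h | h <;> rw [h]
      · exact ⟨2, .inl rfl, by push_cast; ring, fun h => absurd h hj'⟩
      · exact ⟨q + 1, .inr rfl, by push_cast; ring, fun h => absurd h hj'⟩
  zify at hpairs hi hBxle
  rw [hTm] at hpairs
  refine no_solution (q := (q : ℤ)) (j := j) (i := i) (e := Bx.card) (n := N)
    (by exact_mod_cast hC.seven) (by exact_mod_cast hC.odd) hNz hj12 (by positivity)
    (by positivity) (by linear_combination hBxle) hmm hj2 ?_
  apply mul_left_cancel₀ (show (N : ℤ) ≠ 0 by omega)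
  linear_combination 2 * hpairs - (q : ℤ) * N * hjz + m * (N : ℤ) * hi

end CfsgLib.Geometric.SUThree.Orth
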