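import Cfsg.Agent.Lib.Geometric.SUThree.OrthCount
import Cfsg.Agent.Lib.Geometric.SympSubfield

/-!
The orthogonal subfield subgroups of `SU₃(q)`, `q ≥ 7` odd, are maximal.
-/

set_option autoImplicit false

namespace CfsgLib.Geometric.SUThree

open Matrix

variable {F : Type*} [Field F]

namespace Orth

local notation "V₃" => Fin 3 → F
local notation "e₀" => (Pi.single 0 1 : Fin 3 → F)

variable {σ : F ≃+* F} {F₀ : Subfield F}

/-! ### The model -/

/-- The skew form of the rational frame. -/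
lemma skew_model (hF : Fld σ F₀) {ω : F} (hω0 : ω ≠ 0) (hω : σ ω = -ω) :
    IsSkewForm σ (fun u v : V₃ => ω * hJ σ u v) := by
  refine ⟨hF.ne, hF.inv, fun x y v => ?_, fun c x v => ?_, fun v w => ?_, fun v hv => ?_⟩
  · simp only [hJ, Pi.add_apply]; ring
  · simp only [hJ, Pi.smul_apply, smul_eq_mul]; ring
  · rw [map_mul, hω, ← hJ_swap hF]; ring
  · obtain ⟨i, hi⟩ := Function.ne_iff.mp hv
    have hi' : v i ≠ 0 := hi
    refine ⟨⟨Pi.single (Fin.rev i) 1, mul_ne_zero hω0 ?_⟩,
      ⟨Pi.single (Fin.rev i) 1, mul_ne_zero hω0 ?_⟩⟩ <;>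
      fin_cases i <;> simp [hJ, Fin.rev, Pi.single_apply] at hi' ⊢ <;> exact hi'

/-- The transvections at the first point are root elements. -/
lemma T_model (hF : Fld σ F₀) {ω : F} (hω0 : ω ≠ 0) (hω : σ ω = -ω) (c : F)
    (h : ω * hJ σ e₀ e₀ = 0) :
    Unitary.T (skew_model hF hω0 hω) e₀ c h = up σ 0 (c * ω) := by
  apply gl_ext
  intro x
  rw [Unitary.ap_T, ap_up]
  funext i
  fin_cases i <;> simp [hJ]
  ring

lemma sum_two_squares [Finite F] (h2 : (2 : F) ≠ 0) {c : F} (hc : c ∈ F₀) :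
    ∃ s t : F, s ∈ F₀ ∧ t ∈ F₀ ∧ s * s + t * t = c := by
  have : Fintype F₀ := Fintype.ofFinite F₀
  have hne : ringChar F₀ ≠ 2 := fun h => h2 (by
    have h' : ((2 : ℕ) : F₀) = 0 := by rw [← h]; exact ringChar.Nat.cast_ringChar
    have := congrArg Subtype.val h'
    simpa [show ((2 : F₀) : F) = 2 from map_ofNat F₀.subtype 2] using this)
  obtain ⟨s, t, h⟩ := FiniteField.exists_root_sum_quadratic
    (f := (Polynomial.X : Polynomial F₀) ^ 2)
    (g := Polynomial.X ^ 2 - Polynomial.C (⟨_, hc⟩ : F₀))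
    (Polynomial.degree_X_pow 2) (Polynomial.degree_X_pow_sub_C two_pos _)
    (FiniteField.odd_card_of_char_ne_two hne)
  simp only [Polynomial.eval_pow, Polynomial.eval_X, Polynomial.eval_sub, Polynomial.eval_C] at h
  have h' : s * s + t * t = (⟨_, hc⟩ : F₀) := by linear_combination h
  exact ⟨s, t, s.2, t.2, congrArg Subtype.val h'⟩

variable {M : Subgroup (GL (Fin 3) F)}

/-- A transvection at the first point gives every transvection. -/
theorem hasT_model [Finite F] (hO : Over σ F₀ M) {ω : F} (hω0 : ω ≠ 0) (hω : σ ω = -ω)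
    (hn : ¬ NoT σ M) : Unitary.HasT (skew_model hO.fld hω0 hω) M := by
  have hF := hO.fld
  simp only [NoT, not_forall, exists_prop] at hn
  obtain ⟨a, ha, haM, ha0⟩ := hn
  have h00 : ∀ x y : F, up σ 0 x * up σ 0 y = up σ 0 (x + y) := fun x y => by
    rw [up_mul]; simp
  have h1 : up σ (0 : F) 0 = 1 := gl_ext fun x => by
    rw [ap_up, ap_one]; funext i; fin_cases i <;> simp
  have hsq : ∀ t ∈ F₀, up σ 0 (t * t * a) ∈ M := by
    intro t ht
    by_cases ht0 : t = 0
    · rw [ht0, zero_mul, zero_mul, h1]; exact one_mem M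
    have hT := hO.rat_le (tor_mem_rat hF ht0 ht)
    have h := mul_mem (mul_mem hT haM) (inv_mem hT)
    have e : tor t ht0 * up σ 0 a = up σ 0 (t * t * a) * tor t ht0 := gl_ext fun x => by
      rw [ap_mul, ap_mul, ap_up, ap_tor, ap_tor, ap_up]
      funext i
      fin_cases i <;> simp
      field_simp
    rwa [e, mul_inv_cancel_right] at h
  have hall : ∀ a' : F, σ a' = -a' → up σ 0 a' ∈ M := by
    intro a' ha'
    have hq : a' / a ∈ F₀ := (hF.fix _).1 (by rw [map_div₀, ha', ha, neg_div_neg_eq])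
    obtain ⟨s, t, hs, ht, hst⟩ := sum_two_squares hF.two hq
    have e : up σ 0 a' = up σ 0 (s * s * a) * up σ 0 (t * t * a) := by
      rw [h00, ← add_mul, hst, div_mul_cancel₀ _ ha0]
    rw [e]
    exact mul_mem (hsq s hs) (hsq t ht)
  set hf := skew_model hF hω0 hω with hfdef
  have hX0 : Unitary.InX hf M e₀ := by
    refine ⟨by simp [hJ], fun hv c hc => ?_⟩
    rw [T_model hF hω0 hω c hv]
    exact hall _ (by rw [map_mul, hc, hω, mul_neg])
  have hwI : ∀ {g : GL (Fin 3) F}, g ∈ sS σ → g ∈ isom fun u v : V₃ => ω * hJ σ u v :=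
    fun {g} hg => by rw [isom_mul_const hω0]; exact hg.1
  have hX2 := Unitary.inX_ap hf (hO.rat_le ww_mem_rat) (hwI ww_mem) hX0
  have hupr : up σ 1 (half 1) ∈ ratGrp σ F₀ := up_half_mem hF (one_mem F₀)
  have hXv := Unitary.inX_ap hf (hO.rat_le hupr) (hwI hupr.2) hX2
  refine hasT_of_three hf hX0 hX2 hXv ?_ fun h => ?_
  · simp [hJ, ap_ww, hω0]
  · obtain ⟨α, β, hab⟩ := Submodule.mem_span_pair.mp h
    have := congrFun hab 1
    simp [ap_ww, ap_up] at this

/-! ### Rational frames -/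

lemma map_conj_eq_self {G : Type*} [Group G] (H : Subgroup G) {b : G} (hb : b ∈ H) :
    H.map (MulAut.conj b).toMonoidHom = H := by
  ext g
  rw [Subgroup.mem_map_equiv, MulAut.conj_symm_apply]
  refine ⟨fun h => ?_, fun h => mul_mem (mul_mem (inv_mem hb) h) hb⟩
  simpa [mul_assoc] using mul_mem (mul_mem hb h) (inv_mem hb)

lemma subfieldSubgroup_mul {P B : GL (Fin 3) F}
    (hB : B ∈ (Matrix.GeneralLinearGroup.map (F₀.subtype : F₀ →+* F)).range) :
    Cfsg.Geo.subfieldSubgroup F₀ (P * B) = Cfsg.Geo.subfieldSubgroup F₀ P := by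
  have e : (MulAut.conj (P * B)).toMonoidHom =
      (MulAut.conj P).toMonoidHom.comp (MulAut.conj B).toMonoidHom := by
    ext g; simp [MulAut.conj_apply, mul_assoc]
  rw [Cfsg.Geo.subfieldSubgroup, e, ← Subgroup.map_map,
    map_conj_eq_self _ (Subgroup.mem_sup_left hB), Cfsg.Geo.subfieldSubgroup]

/-- A rational structure of a ternary form has a frame with antidiagonal Gram matrix. -/
theorem exists_frame_model [Finite F] {h : V₃ → V₃ → F} (hh : Cfsg.Geo.IsUnitaryForm σ h)
    (hF : Fld σ F₀) {P : GL (Fin 3) F} (hP : Cfsg.Geo.IsFormRationalStructure h F₀ 1 P) :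
    ∃ (Q : GL (Fin 3) F) (δ : F), δ ∈ F₀ ∧ δ ≠ 0 ∧
      Cfsg.Geo.subfieldSubgroup F₀ Q = Cfsg.Geo.subfieldSubgroup F₀ P ∧
      ∀ u v, h (ap Q u) (ap Q v) = δ * hJ σ u v := by
  let em : (Fin 3 → F₀) → V₃ := fun x i => (x i : F)
  let G : (Fin 3 → F₀) → (Fin 3 → F₀) → F := fun x y => h (ap P (em x)) (ap P (em y))
  have hadd : ∀ x y, em (x + y) = em x + em y := fun _ _ => rfl
  have hsmul : ∀ (c : F₀) x, em (c • x) = (c : F) • em x := fun _ _ => rfl
  have hadr : ∀ x y v : V₃, h v (x + y) = h v x + h v y := fun x y v => by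
    rw [hh.herm, hh.add_left, map_add, ← hh.herm, ← hh.herm]
  have hsmr : ∀ (c : F) (x v : V₃), h v (c • x) = σ c * h v x := fun c x v => by
    rw [hh.herm, hh.smul_left, map_mul, ← hh.herm]
  have hmem : ∀ x y, G x y ∈ F₀ := fun x y => by
    simpa [G, ap_def] using hP (em x) (em y) (fun i => (x i).2) (fun i => (y i).2)
  have hsym : ∀ x y, G x y = G y x := fun x y => by
    have e : σ (G y x) = G x y := (hh.herm _ _).symm
    rw [← e, (hF.fix _).2 (hmem y x)]
  have Gadd : ∀ x y z, G (x + y) z = G x z + G y z := fun x y z => by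
    simp only [G, hadd, ap_add, hh.add_left]
  have Gsmul : ∀ (c : F₀) x z, G (c • x) z = (c : F) * G x z := fun c x z => by
    simp only [G, hsmul, ap_smul, hh.smul_left]
  let φ : (Fin 3 → F₀) → (Fin 3 → F₀) →ₗ[F₀] F₀ := fun b =>
    { toFun := fun x => ⟨G x b, hmem x b⟩
      map_add' := fun x y => Subtype.ext (Gadd x y b)
      map_smul' := fun c x => Subtype.ext (Gsmul c x b) }
  have hφ : ∀ b x, ((φ b x : F₀) : F) = G x b := fun _ _ => rfl
  have perp : ∀ a b, ∃ x, x ≠ 0 ∧ G x a = 0 ∧ G x b = 0 := by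
    intro a b
    obtain ⟨x, hx, hx0⟩ := Submodule.exists_mem_ne_zero_of_ne_bot
      (LinearMap.ker_ne_bot_of_finrank_lt (f := LinearMap.pi ![φ a, φ b]) (by simp))
    have := LinearMap.mem_ker.mp hx
    refine ⟨x, hx0, ?_, ?_⟩
    · rw [← hφ, show φ a x = 0 from congrFun this 0]; rfl
    · rw [← hφ, show φ b x = 0 from congrFun this 1]; rfl
  -- an isotropic vector
  obtain ⟨u, hu0, hu⟩ : ∃ u, u ≠ 0 ∧ G u u = 0 := by
    have hne : (Pi.single 0 1 : Fin 3 → F₀) ≠ 0 := by simp
    obtain ⟨a, ha⟩ : ∃ a : Fin 3 → F₀, a = Pi.single 0 1 := ⟨_, rfl⟩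
    by_cases h1 : G a a = 0
    · exact ⟨a, ha ▸ hne, h1⟩
    obtain ⟨b, hb0, hba, -⟩ := perp a a
    by_cases h2 : G b b = 0
    · exact ⟨b, hb0, h2⟩
    obtain ⟨c, hc0, hca, hcb⟩ := perp a b
    by_cases h3 : G c c = 0
    · exact ⟨c, hc0, h3⟩
    have : Fintype F₀ := Fintype.ofFinite F₀
    have hne2 : ringChar F₀ ≠ 2 := fun h => hF.two (by
      have h' : ((2 : ℕ) : F₀) = 0 := by rw [← h]; exact ringChar.Nat.cast_ringChar
      have := congrArg Subtype.val h'
      simpa [show ((2 : F₀) : F) = 2 from map_ofNat F₀.subtype 2] using this)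
    have hA : (⟨G a a, hmem a a⟩ : F₀) ≠ 0 := fun h => h1 (congrArg Subtype.val h)
    have hB : (⟨G b b, hmem b b⟩ : F₀) ≠ 0 := fun h => h2 (congrArg Subtype.val h)
    obtain ⟨x, y, hxy⟩ := FiniteField.exists_root_sum_quadratic
      (f := Polynomial.C (⟨G a a, hmem a a⟩ : F₀) * Polynomial.X ^ 2)
      (g := Polynomial.C (⟨G b b, hmem b b⟩ : F₀) * Polynomial.X ^ 2 +
        Polynomial.C (⟨G c c, hmem c c⟩ : F₀))
      (Polynomial.degree_C_mul_X_pow 2 hA)
      (by
        rw [Polynomial.degree_add_eq_left_of_degree_lt]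
        · exact Polynomial.degree_C_mul_X_pow 2 hB
        · rw [Polynomial.degree_C_mul_X_pow 2 hB]
          exact Polynomial.degree_C_le.trans_lt (by norm_num))
      (FiniteField.odd_card_of_char_ne_two hne2)
    simp only [Polynomial.eval_add, Polynomial.eval_mul, Polynomial.eval_pow, Polynomial.eval_X,
      Polynomial.eval_C] at hxy
    have hxy' : G a a * ((x : F) * x) + (G b b * ((y : F) * y) + G c c) = 0 := by
      have := congrArg Subtype.val hxy
      simp only [Subfield.coe_add, Subfield.coe_mul, ZeroMemClass.coe_zero,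
        SubmonoidClass.coe_pow, pow_two] at this
      linear_combination this
    refine ⟨x • a + y • b + c, fun h0 => ?_, ?_⟩
    · have := congrArg (fun z => G z c) h0
      simp only [Gadd, Gsmul, hsym a c, hca, hsym b c, hcb, mul_zero, zero_add] at this
      exact h3 (this.trans (by simpa using Gsmul 0 0 c))
    · rw [Gadd, Gadd, Gsmul, Gsmul, hsym a (x • a + y • b + c), hsym b (x • a + y • b + c),
        hsym c (x • a + y • b + c)]
      simp only [Gadd, Gsmul, hba, hca, hcb, hsym a b, hsym a c, hsym b c]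
      linear_combination hxy'
  -- its partner
  obtain ⟨p, hp⟩ : ∃ p, G p u ≠ 0 := by
    by_contra hc
    push Not at hc
    obtain ⟨⟨z, hz⟩, -⟩ := hh.nondegenerate (ap P (em u)) (ap_ne_zero P (fun h0 => hu0 (by
      funext i; exact Subtype.ext (congrFun h0 i))))
    apply hz
    have hz' : z = ∑ i, (ap P⁻¹ z i) • ap P (em (Pi.single i 1)) := by
      conv_lhs => rw [← ap_ap_inv P z]
      have e : ∀ i, em (Pi.single i 1) = Pi.single i 1 := fun i => by
        funext j; simp only [em, Pi.single_apply]; split_ifs <;> simp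
      simp only [e, ← ap_smul]
      rw [Fin.sum_univ_three, ← ap_add, ← ap_add]
      congr 1
      funext j; fin_cases j <;> simp
    rw [hz', Fin.sum_univ_three, hh.add_left, hh.add_left, hh.smul_left, hh.smul_left,
      hh.smul_left]
    simp only [G] at hc
    rw [hc, hc, hc]
    ring
  obtain ⟨w₁, hw₁u⟩ : ∃ w₁, G w₁ u = 1 := ⟨(⟨G p u, hmem p u⟩ : F₀)⁻¹ • p, by
    rw [Gsmul, Subfield.coe_inv]; exact inv_mul_cancel₀ hp⟩
  obtain ⟨k, hk⟩ : ∃ k : F₀, (k : F) = -(G w₁ w₁ / 2) :=
    ⟨⟨_, neg_mem (div_mem (hmem _ _) (ofNat_mem F₀ 2))⟩, rfl⟩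
  obtain ⟨w, hw⟩ : ∃ w, w = w₁ + k • u := ⟨_, rfl⟩
  have hwu : G w u = 1 := by rw [hw, Gadd, Gsmul, hu, hw₁u, mul_zero, add_zero]
  have hww : G w w = 0 := by
    have e1 : G w w₁ = G w₁ w₁ + (k : F) := by
      rw [hw, Gadd, Gsmul, hsym u w₁, hw₁u, mul_one]
    have e2 : G w w = G w w₁ + (k : F) * G w u := by
      conv_lhs => arg 1; rw [hw]
      rw [Gadd, Gsmul, hsym w₁ w, hsym u w]
    rw [e2, e1, hwu, hk]
    have := hF.two
    field_simp
    ring
  obtain ⟨a, ha0, hau, haw⟩ := perp u w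
  have hli : LinearIndependent F₀ ![u, w, a] := by
    rw [Fintype.linearIndependent_iff]
    intro g hg
    simp only [Fin.sum_univ_three, Matrix.cons_val_zero, Matrix.cons_val_one,
      Matrix.cons_val_two, Matrix.tail_cons, Matrix.head_cons] at hg
    have h00 : ∀ z, G 0 z = 0 := fun z => by simpa using Gsmul 0 0 z
    have g1 : g 1 = 0 := by
      have := congrArg (fun z => G z u) hg
      simp only [Gadd, Gsmul, hu, hwu, hau, h00] at this
      simpa using this
    have g0 : g 0 = 0 := by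
      have := congrArg (fun z => G z w) hg
      simp only [Gadd, Gsmul, hww, hsym u w, hwu, haw, h00] at this
      simpa [g1] using this
    rw [g0, g1, zero_smul, zero_smul, zero_add, zero_add] at hg
    intro i
    fin_cases i
    · exact g0
    · exact g1
    · exact (smul_eq_zero.mp hg).resolve_right ha0
  have hsp : Submodule.span F₀ (Set.range ![u, w, a]) = ⊤ :=
    hli.span_eq_top_of_card_eq_finrank (by simp)
  obtain ⟨δ, hδ⟩ : ∃ δ, δ = G a a := ⟨_, rfl⟩
  have hδ₀ : δ ∈ F₀ := hδ ▸ hmem a a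
  have hδ0 : δ ≠ 0 := by
    intro h0
    have hzero : φ a = 0 := LinearMap.ext_on hsp (by
      rintro _ ⟨i, rfl⟩
      apply Subtype.ext
      fin_cases i <;> simp [hφ, hsym u a, hau, hsym w a, haw, ← hδ, h0])
    obtain ⟨⟨z, hz⟩, -⟩ := hh.nondegenerate (ap P (em a)) (ap_ne_zero P (fun h => ha0 (by
      funext i; exact Subtype.ext (congrFun h i))))
    apply hz
    have key : ∀ i, h (ap P (Pi.single i 1)) (ap P (em a)) = 0 := fun i => by
      have := congrArg Subtype.val (LinearMap.congr_fun hzero (Pi.single i 1))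
      have e : em (Pi.single i 1) = Pi.single i 1 := by
        funext j; simp only [em, Pi.single_apply]; split_ifs <;> simp
      simpa [hφ, G, e] using this
    rw [← ap_ap_inv P z, show ap P⁻¹ z = (ap P⁻¹ z 0) • (Pi.single 0 1 : V₃) +
      (ap P⁻¹ z 1) • (Pi.single 1 1 : V₃) + (ap P⁻¹ z 2) • (Pi.single 2 1 : V₃) by
        funext j; fin_cases j <;> simp,
      ap_add, ap_add, ap_smul, ap_smul, ap_smul, hh.add_left, hh.add_left, hh.smul_left,
      hh.smul_left, hh.smul_left, key, key, key]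
    ring
  -- the frame
  let Bm : Matrix (Fin 3) (Fin 3) F :=
    fun i j => ![em u i, em a i, δ * em w i] j
  have hBx : ∀ x : V₃, Bm *ᵥ x = x 0 • em u + x 1 • em a + (x 2 * δ) • em w := fun x => by
    funext i
    simp [Bm, Matrix.mulVec, dotProduct, Fin.sum_univ_three]
    ring
  have hform : ∀ x y : V₃, h (ap P (Bm *ᵥ x)) (ap P (Bm *ᵥ y)) = δ * hJ σ x y := by
    intro x y
    have g1 : G u w = 1 := by rw [hsym, hwu]
    have g2 : G u a = 0 := by rw [hsym, hau]
    have g3 : G w a = 0 := by rw [hsym, haw]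
    simp only [G] at hu hwu hww hau haw g1 g2 g3 hδ
    simp only [hBx, ap_add, ap_smul, hh.add_left, hh.smul_left, hadr, hsmr, map_mul,
      (hF.fix _).2 hδ₀, hu, hwu, hww, hau, haw, g1, g2, g3, ← hδ, hJ]
    ring
  have hdet : Bm.det ≠ 0 := by
    intro h0
    obtain ⟨x, hx, hBx0⟩ := Matrix.exists_mulVec_eq_zero_iff.mpr h0
    apply hx
    have hz : ∀ v : V₃, h 0 v = 0 := fun v => by simpa using hh.smul_left 0 0 v
    funext i
    have := hform x (Pi.single (Fin.rev i) 1)
    rw [hBx0, ap_zero, hz, eq_comm, mul_eq_zero, or_iff_right hδ0] at this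
    fin_cases i <;> simpa [hJ, Fin.rev, Pi.single_apply] using this
  refine ⟨P * Matrix.GeneralLinearGroup.mkOfDetNeZero Bm hdet, δ, hδ₀, hδ0,
    subfieldSubgroup_mul (mem_range_of_entries fun i j => ?_), fun x y => ?_⟩
  · change Bm i j ∈ F₀
    fin_cases j <;> simp [Bm, em, (u _).2, (a _).2]
    exact mul_mem hδ₀ (w i).2
  · rw [ap_mul, ap_mul]
    exact hform x y

end Orth

open Orth in
/-- The orthogonal subfield subgroups are maximal. -/
theorem orthSubfield [Fintype F] (q : ℕ) (hF : Fintype.card F = q ^ 2) (hodd : Odd q) (hq7 : 7 ≤ q)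
    (F₀ : Subfield F) (P : Matrix.GeneralLinearGroup (Fin 3) F)
    (hcard : Fintype.card F = Nat.card F₀ ^ 2)
    (hP : Cfsg.Geo.IsFormRationalStructure (Cfsg.hermForm 3 F q) F₀ 1 P) :
    Cfsg.Geo.IsMaximalIn (Cfsg.GU 3 F q ⊓ Cfsg.Geo.specialLinear (Fin 3) F)
      (Cfsg.Geo.subfieldSubgroup F₀ P ⊓ (Cfsg.GU 3 F q ⊓ Cfsg.Geo.specialLinear (Fin 3) F)) := by
  classical
  obtain ⟨σ, hσ, hh⟩ := CfsgLib.Geometric.isUnitaryForm_hermForm (F := F) 3 q hF
  have hq : Nat.card F₀ = q :=
    (Nat.pow_left_injective two_ne_zero (hF ▸ hcard : q ^ 2 = Nat.card F₀ ^ 2)).symm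
  have hq1 : 1 < q := by omega
  have hsub : ∀ x ∈ F₀, x ^ q = x := fun x hx => by
    have : Fintype F₀ := Fintype.ofFinite F₀
    have hp := congrArg Subtype.val (FiniteField.pow_card (⟨x, hx⟩ : F₀))
    rw [← hq, Nat.card_eq_fintype_card]
    simpa using hp
  have h0 : (Polynomial.X ^ q - Polynomial.X : Polynomial F) ≠ 0 :=
    FiniteField.X_pow_card_sub_X_ne_zero F hq1
  have hroots : (Finset.univ.filter fun x : F => x ^ q = x).card ≤ q := by
    calc _ ≤ (Polynomial.X ^ q - Polynomial.X : Polynomial F).roots.toFinset.card :=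
          Finset.card_le_card fun x hx => by
            simp only [Finset.mem_filter, Finset.mem_univ, true_and] at hx
            rw [Multiset.mem_toFinset, Polynomial.mem_roots h0]
            simp [hx]
      _ ≤ _ := le_trans (Multiset.toFinset_card_le _) (le_trans (Polynomial.card_roots' _)
          (le_of_eq (FiniteField.X_pow_card_sub_X_natDegree_eq F hq1)))
  have heq : (Finset.univ.filter fun x => x ∈ F₀) = (Finset.univ.filter fun x : F => x ^ q = x) :=
    Finset.eq_of_subset_of_card_le (fun x hx => by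
      simp only [Finset.mem_filter, Finset.mem_univ, true_and] at hx ⊢
      exact hsub x hx) (le_trans hroots (le_of_eq (by
        rw [← hq, Nat.card_eq_fintype_card, Fintype.card_subtype])))
  have h2 : (2 : F) ≠ 0 := by
    intro h
    have h' : ringChar F = 2 := CharP.ringChar_of_prime_eq_zero Nat.prime_two (by exact_mod_cast h)
    have := FiniteField.even_card_of_char_two h'
    rw [hF] at this
    exact Nat.not_even_iff_odd.2 (hodd.pow (n := 2)) (Nat.even_iff.2 this)
  have hFld : Fld σ F₀ := ⟨hh.involutive, hh.ne_refl, fun x => by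
    rw [hσ]
    have := Finset.ext_iff.1 heq x
    simp only [Finset.mem_filter, Finset.mem_univ, true_and] at this
    exact this.symm, h2⟩
  obtain ⟨x₀, hx₀⟩ : ∃ x₀, σ x₀ ≠ x₀ := by
    by_contra hc
    push Not at hc
    exact hh.ne_refl (RingEquiv.ext hc)
  set ω := x₀ - σ x₀ with hωdef
  have hω0 : ω ≠ 0 := sub_ne_zero.2 (Ne.symm hx₀)
  have hω : σ ω = -ω := by rw [hωdef, map_sub, hh.involutive, neg_sub]
  obtain ⟨Q, δ, hδ₀, hδ0, hQsub, hQ⟩ := exists_frame_model hh hFld hP
  rw [← hQsub]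
  set h := Cfsg.hermForm 3 F q with hdef
  have hconjI : (sS σ).map (MulAut.conj Q).toMonoidHom =
      isom h ⊓ Cfsg.Geo.specialLinear (Fin 3) F := by
    have e : isom (hJ σ) = isom (fun u v => δ⁻¹ * h (ap Q u) (ap Q v)) := by
      congr 1; funext u v; rw [hQ, inv_mul_cancel_left₀ hδ0]
    have hSL : (Cfsg.Geo.specialLinear (Fin 3) F).map (MulAut.conj Q).toMonoidHom =
        Cfsg.Geo.specialLinear (Fin 3) F := by
      have : (Cfsg.Geo.specialLinear (Fin 3) F).Normal := by
        unfold Cfsg.Geo.specialLinear; infer_instance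
      ext g
      rw [Subgroup.mem_map_equiv, MulAut.conj_symm_apply]
      exact ⟨fun h => by simpa [mul_assoc] using this.conj_mem _ h Q,
        fun h => by simpa using this.conj_mem _ h Q⁻¹⟩
    rw [sS, Subgroup.map_inf _ _ _ (MulAut.conj Q).injective, e,
      map_conj_isom h (inv_ne_zero hδ0) Q, hSL]
  have hsubf : (Cfsg.Geo.subfieldSubgroup F₀ (1 : GL (Fin 3) F)).map (MulAut.conj Q).toMonoidHom =
      Cfsg.Geo.subfieldSubgroup F₀ Q := by
    rw [Cfsg.Geo.subfieldSubgroup, Cfsg.Geo.subfieldSubgroup,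
      map_one (MulAut.conj (G := GL (Fin 3) F)), Subgroup.map_map]
    rfl
  have hC : Cnt σ F₀ q ω :=
    ⟨hFld, hq, by rw [Nat.card_eq_fintype_card, hF], hq7, hodd, hω0, hω⟩
  -- the maximality in the model
  have hmodel : Cfsg.Geo.IsMaximalIn (sS σ)
      (Cfsg.Geo.subfieldSubgroup F₀ (1 : GL (Fin 3) F) ⊓ sS σ) := by
    refine ⟨lt_of_le_of_ne inf_le_right fun heq => ?_, fun M hHM hMS => ?_⟩
    · have hm : up σ 0 ω ∈ Cfsg.Geo.subfieldSubgroup F₀ (1 : GL (Fin 3) F) ⊓ sS σ := by
        rw [heq]; exact up_mem hFld (by rw [hω]; simp)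
      obtain ⟨c, hc, hcm⟩ := entries_of_mem_subfield hm.1
      have hc1 : c ∈ F₀ := by simpa using hcm 0 0
      have hc2 := hcm 0 2
      simp at hc2
      have hωm : ω ∈ F₀ := by
        have := mul_mem (inv_mem hc1) hc2
        rwa [inv_mul_cancel_left₀ hc] at this
      have := (hFld.fix _).2 hωm
      rw [hω, neg_eq_iff_add_eq_zero, ← two_mul, mul_eq_zero] at this
      exact hω0 (this.resolve_left h2)
    · have hO : Over σ F₀ M := ⟨hFld, hHM, hMS⟩
      by_cases hn : NoT σ M
      · exact .inl (le_antisymm (le_of_noT hC hO hn) hHM)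
      · right
        refine le_antisymm hMS ?_
        have hT := hasT_model hO hω0 hω hn
        have hζ : ω / δ ≠ 0 := div_ne_zero hω0 hδ0
        have hσζ : σ (ω / δ) = -(ω / δ) := by
          rw [map_div₀, hω, (hFld.fix _).2 hδ₀, neg_div]
        have hf : IsSkewForm σ (fun u v => ω / δ * h u v) := by
          refine ⟨hh.ne_refl, hh.involutive, fun x y v => ?_, fun c x v => ?_, fun v w => ?_,
            fun v hv => ?_⟩
          · rw [hh.add_left]; ring
          · rw [hh.smul_left]; ring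
          · rw [map_mul, hσζ, hh.herm v w]; ring
          · obtain ⟨⟨x, hx⟩, ⟨y, hy⟩⟩ := hh.nondegenerate v hv
            exact ⟨⟨x, mul_ne_zero hζ hx⟩, ⟨y, mul_ne_zero hζ hy⟩⟩
        have hval : ∀ u v, ω * hJ σ u v = ω / δ * h (ap Q u) (ap Q v) := fun u v => by
          rw [hQ]; field_simp
        have hT' : Unitary.HasT hf (M.map (MulAut.conj Q).toMonoidHom) := by
          intro v hv c hc
          have hv' : ω * hJ σ (ap Q⁻¹ v) (ap Q⁻¹ v) = 0 := by rw [hval, ap_ap_inv]; exact hv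
          refine ⟨_, hT _ hv' c hc, ?_⟩
          change Q * _ * Q⁻¹ = _
          apply gl_ext
          intro x
          rw [ap_mul, ap_mul, Unitary.ap_T, Unitary.ap_T, hval, ap_add, ap_smul, ap_ap_inv,
            ap_ap_inv]
        have hle := le_of_hasT hF (by omega) hζ hf hT'
        rw [Unitary.sisom, isom_mul_const hζ, ← hconjI] at hle
        exact (Subgroup.map_le_map_iff_of_injective (MulAut.conj Q).injective).mp hle
  have := isMaximalIn_map_equiv hmodel (MulAut.conj Q)
  rwa [Subgroup.map_inf (Cfsg.Geo.subfieldSubgroup F₀ (1 : GL (Fin 3) F)) (sS σ) _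
    (MulAut.conj Q).injective, hconjI, hsubf] at this

end CfsgLib.Geometric.SUThree
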