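import Cfsg.Agent.Lib.Geometric.SUThree.Basic
import Cfsg.Agent.Lib.SL2.Dickson.Classification

/-!
Two unitary transvections whose invariant generates the fixed field give the full root groups of
their centres; elements generating the fixed field in large sets.
-/

set_option autoImplicit false

namespace CfsgLib.SL2.Dickson

open Matrix
open scoped MatrixGroups
open CfsgLib.ClassicalLinear (upS upS_coe)

variable {L : Type*} [Field L] [Finite L]

/-- An upper and a lower element with a generating invariant give all upper translations. -/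
theorem upS_mem_of_generator {G : Subgroup SL(2, L)} {lam : L} (hlam : lam ≠ 0)
    (hgen : Subfield.closure ({lam} : Set L) = ⊤) (hl : lowS 1 ∈ G) (hu : upS lam ∈ G)
    (hex : ((2 : L) ≠ 0 ∧ (Nat.card L = 9 → lam ^ 2 ≠ -1)) ∨
      ((2 : L) = 0 ∧ ∃ μ, μ ≠ 0 ∧ μ ≠ lam ∧ upS μ ∈ G)) (x : L) : upS x ∈ G := by
  rcases hex with ⟨h2, h9⟩ | ⟨h2, μ, hμ0, hμ, huμ⟩
  · rcases generation h2 hlam hgen hl hu with h | ⟨h, h', -⟩
    · rw [h]; exact Subgroup.mem_top _
    · exact absurd h' (h9 h)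
  have hZ : Subgroup.center SL(2, L) ≤ G := by
    intro z hz
    rcases (CfsgLib.SL2.mem_center_iff z).1 hz with rfl | rfl
    · exact one_mem G
    · have h1 : (-1 : SL(2, L)) = 1 := by
        have e : (-1 : L) = 1 := by linear_combination -h2
        apply Subtype.ext
        ext i j
        simp [Matrix.one_apply, apply_ite, e]
      rw [h1]; exact one_mem G
  have he : Nat.card (Subgroup.center SL(2, L)) = 1 := by
    rw [Subgroup.card_eq_one, eq_bot_iff]
    intro z hz
    rcases (CfsgLib.SL2.mem_center_iff z).1 hz with rfl | rfl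
    · exact one_mem _
    · rw [Subgroup.mem_bot]
      have e : (-1 : L) = 1 := by linear_combination -h2
      apply Subtype.ext
      ext i j
      simp [Matrix.one_apply, apply_ite, e]
  have h3 : 3 ≤ Nat.card (transl G) := by
    let g : Fin 3 → transl G := ![⟨0, (transl G).zero_mem⟩, ⟨lam, mem_transl.2 hu⟩,
      ⟨μ, mem_transl.2 huμ⟩]
    have hg : Function.Injective g := by
      intro i j h
      have h' := congrArg Subtype.val h
      fin_cases i <;> fin_cases j <;> simp [g, eq_comm, hlam, hμ0, hμ, Ne.symm hμ] at h' ⊢ <;>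
        simp_all
    simpa using Nat.card_le_card_of_injective g hg
  have h2t : 2 ∣ Nat.card (transl G) := by
    haveI : Fact (Nat.Prime 2) := ⟨Nat.prime_two⟩
    have h0 : (⟨lam, mem_transl.2 hu⟩ : transl G) ≠ 0 := fun h => hlam (congrArg Subtype.val h)
    have : addOrderOf (⟨lam, mem_transl.2 hu⟩ : transl G) = 2 := addOrderOf_eq_prime
      (Subtype.ext (by rw [two_nsmul, AddSubgroup.coe_add, ← two_mul, h2, zero_mul]; rfl)) h0
    exact this ▸ addOrderOf_dvd_natCard _
  rcases structure_modular hZ hu hlam with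
    h | ⟨h', -⟩ | ⟨h', -⟩ | ⟨h', -⟩ | ⟨k, hk2, hkq, hr, hcard, hidx, d, hd, htd, -, hcd, hnd⟩
  · have := (h ▸ Subgroup.mem_top _ : (⟨lowS 1, hl⟩ : G) ∈ borelPart G)
    rw [mem_borelPart] at this
    simp [lowS_coe] at this
  · omega
  · omega
  · omega
  have hk : k = Nat.card (transl G) - 1 := hkq.resolve_right fun e => by omega
  obtain ⟨R, P, hR, hsub, -⟩ :=
    structure_subfield hZ hk2 hkq hr hcard hidx hd htd hcd hnd
  -- the group is the conjugate of the group over the subfield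
  choose θ hθG hθ using hsub
  have hinj : Function.Injective fun g : SL(2, R) => (⟨θ g, hθG g⟩ : G) := by
    intro g g' h
    have h1 : (P : Matrix (Fin 2) (Fin 2) L) * (g : Matrix (Fin 2) (Fin 2) R).map R.subtype *
        ((P⁻¹ : GL (Fin 2) L) : Matrix (Fin 2) (Fin 2) L) =
        (P : Matrix (Fin 2) (Fin 2) L) * (g' : Matrix (Fin 2) (Fin 2) R).map R.subtype *
        ((P⁻¹ : GL (Fin 2) L) : Matrix (Fin 2) (Fin 2) L) := by
      rw [← hθ g, ← hθ g', show θ g = θ g' from congrArg Subtype.val h]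
    rw [(P⁻¹).isUnit.mul_left_inj, P.isUnit.mul_right_inj] at h1
    exact Subtype.ext (Matrix.map_injective Subtype.val_injective h1)
  have hcardR : Nat.card SL(2, R) = Nat.card G := by
    rw [CfsgLib.SL2.card_SL, hcard, he, one_mul, hR, hk]
    set n := Nat.card (transl G)
    have : n ^ 2 - 1 = (n - 1) * (n + 1) := by
      rw [show n ^ 2 - 1 = n ^ 2 - 1 ^ 2 from rfl, Nat.sq_sub_sq, mul_comm]
    rw [this, mul_assoc]
  have hsurj := ((Nat.bijective_iff_injective_and_card _).2 ⟨hinj, hcardR⟩).2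
  have htr : ∀ y ∈ G, (y : Matrix (Fin 2) (Fin 2) L).trace ∈ R := by
    intro y hy
    obtain ⟨g, hg⟩ := hsurj ⟨y, hy⟩
    have e : θ g = y := congrArg Subtype.val hg
    rw [← e, hθ, Matrix.trace_mul_cycle, ← Units.val_mul, inv_mul_cancel, Units.val_one,
      Matrix.one_mul, ← RingHom.mapMatrix_apply]
    simp only [Matrix.trace, Matrix.diag, RingHom.mapMatrix_apply, Matrix.map_apply]
    exact sum_mem fun i _ => ((g : Matrix (Fin 2) (Fin 2) R) i i).2
  have hlR : lam ∈ R := by
    have h := htr _ (mul_mem hl hu)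
    have e : ((lowS (1 : L) * upS lam : SL(2, L)) : Matrix (Fin 2) (Fin 2) L).trace = 2 + lam := by
      simp [Matrix.trace_fin_two, lowS_coe, upS_coe, Matrix.mul_apply, Fin.sum_univ_two]
      ring
    rw [e, h2, zero_add] at h
    exact h
  have htop : R = ⊤ := top_unique (hgen ▸ Subfield.closure_le.mpr (by simpa using hlR))
  have hT : Nat.card (transl G) = Nat.card L := by
    rw [← hR, htop]
    exact Nat.card_congr (Equiv.subtypeUnivEquiv fun x => Subfield.mem_top x)
  exact mem_transl.1 ((AddSubgroup.eq_top_of_card_eq _ hT).symm ▸ AddSubgroup.mem_top x)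

end CfsgLib.SL2.Dickson

namespace CfsgLib.Geometric.SUThree

open Matrix CfsgLib.Geometric.Unitary
open scoped MatrixGroups

variable {F : Type*} [Field F]

/-- The fixed field. -/
def fixedK (σ : F ≃+* F) : Subfield F := RingHom.eqLocusField (σ : F →+* F) (RingHom.id F)

lemma mem_fixedK {σ : F ≃+* F} {x : F} : x ∈ fixedK σ ↔ σ x = x := Iff.rfl

/-- `c` generates the fixed field. -/
def Gen (σ : F ≃+* F) (c : F) : Prop := ∀ R : Subfield F, c ∈ R → ∀ x, σ x = x → x ∈ R

lemma Gen.neg {σ : F ≃+* F} {c : F} (h : Gen σ c) : Gen σ (-c) := fun R hR =>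
  h R (by simpa using R.neg_mem hR)

lemma Gen.closure {σ : F ≃+* F} {c : F} (h : Gen σ c) (hc : σ c = c) :
    Subfield.closure ({(⟨c, hc⟩ : fixedK σ)} : Set (fixedK σ)) = ⊤ := by
  rw [eq_top_iff]
  intro x _
  have := h ((Subfield.closure ({(⟨c, hc⟩ : fixedK σ)} : Set (fixedK σ))).map (fixedK σ).subtype)
    ⟨_, Subfield.subset_closure rfl, rfl⟩ x x.2
  obtain ⟨y, hy, hyx⟩ := this
  rwa [← Subtype.ext (hyx : (y : F) = x)]

/-- A large set of elements of the fixed field contains a generator. -/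
theorem exists_gen [Fintype F] {σ : F ≃+* F} {p f : ℕ} [Fact p.Prime] [CharP F p]
    (hK : Nat.card (fixedK σ) = p ^ f) {h : ℕ} (hh : ∀ i, i ∣ f → i < f → i ≤ h) (S : Finset F)
    (hS : ∀ x ∈ S, σ x = x ∧ x ≠ 0) (hcard : ∑ i ∈ Finset.Icc 1 h, (p ^ i - 1) < S.card) :
    ∃ c ∈ S, Gen σ c := by
  classical
  by_contra hc
  push Not at hc
  have hsub : S ⊆ (Finset.Icc 1 h).biUnion fun i =>
      Finset.univ.filter fun x : F => x ≠ 0 ∧ x ^ (p ^ i - 1) = 1 := by
    intro c hcS
    obtain ⟨hcσ, hc0⟩ := hS c hcS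
    have hn := hc c hcS
    simp only [Gen, not_forall] at hn
    obtain ⟨R, hcR, x, hxσ, hxR⟩ := hn
    set R' : Subfield F := R ⊓ fixedK σ with hR'
    have : Fact p.Prime := inferInstance
    obtain ⟨n, hp', hn⟩ := FiniteField.card R' p
    have hle : R' ≤ fixedK σ := inf_le_right
    have hlt : (n : ℕ) ∣ f ∧ (n : ℕ) < f := by
      let ι' := Subfield.inclusion hle
      letI := ι'.toAlgebra
      haveI : Finite (fixedK σ) := Subtype.finite
      have hpow := Module.natCard_eq_pow_finrank (K := R') (V := fixedK σ)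
      rw [hK, Nat.card_eq_fintype_card, hn, ← pow_mul] at hpow
      have hf := Nat.pow_right_injective hp'.two_le hpow
      refine ⟨Dvd.intro _ hf.symm, lt_of_le_of_ne (Nat.le_of_dvd ?_ (Dvd.intro _ hf.symm)) ?_⟩
      · by_contra h0
        have hf0 : f = 0 := by omega
        rw [hf0, pow_zero] at hK
        have : 1 < Nat.card (fixedK σ) := Finite.one_lt_card
        omega
      · intro e
        apply hxR
        have heq : R' = fixedK σ := by
          refine SetLike.coe_injective (Set.eq_of_subset_of_ncard_le hle ?_)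
          rw [← Nat.card_coe_set_eq, ← Nat.card_coe_set_eq]
          exact le_of_eq (by
            show Nat.card (fixedK σ) = Nat.card R'
            rw [hK, Nat.card_eq_fintype_card, hn, e])
        have hx' : x ∈ R' := by rw [heq]; exact hxσ
        exact hx'.1
    refine Finset.mem_biUnion.mpr ⟨n, Finset.mem_Icc.mpr ⟨n.2, hh n hlt.1 hlt.2⟩, ?_⟩
    simp only [Finset.mem_filter, Finset.mem_univ, true_and]
    refine ⟨hc0, ?_⟩
    have h1 := FiniteField.pow_card_sub_one_eq_one (⟨c, hcR, hcσ⟩ : R')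
      (fun h => hc0 (congrArg Subtype.val h))
    rw [hn] at h1
    simpa using congrArg Subtype.val h1
  have h1 := (Finset.card_le_card hsub).trans Finset.card_biUnion_le
  have h2 : ∀ i ∈ Finset.Icc 1 h,
      (Finset.univ.filter fun x : F => x ≠ 0 ∧ x ^ (p ^ i - 1) = 1).card ≤ p ^ i - 1 := by
    intro i hi
    have hpos : 0 < p ^ i - 1 := by
      have := Nat.one_lt_pow (by have := (Finset.mem_Icc.mp hi).1; omega : i ≠ 0)
        (Fact.out : p.Prime).one_lt
      omega
    refine le_trans (Finset.card_le_card ?_)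
      ((Multiset.toFinset_card_le _).trans (Polynomial.card_nthRoots (p ^ i - 1) (1 : F)))
    intro x hx
    simp only [Finset.mem_filter] at hx
    rw [Multiset.mem_toFinset, Polynomial.mem_nthRoots hpos]
    exact hx.2.2
  have h3 := h1.trans (Finset.sum_le_sum h2)
  omega

/-- A convenient bound for the elements of proper subfields. -/
lemma sum_pow_sub_one_le {p : ℕ} (hp : 2 ≤ p) (h : ℕ) :
    ∑ i ∈ Finset.Icc 1 h, (p ^ i - 1) + h + 2 ≤ 2 * p ^ h := by
  induction h with
  | zero => simp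
  | succ h ih =>
    rw [Finset.sum_Icc_succ_top (by omega : 1 ≤ h + 1)]
    have h1 : 1 ≤ p ^ (h + 1) := Nat.one_le_pow _ _ (by omega)
    have h2 : 2 * p ^ h ≤ p ^ (h + 1) := by rw [pow_succ, mul_comm (p ^ h)]; exact Nat.mul_le_mul_right _ hp
    omega

variable {σ : F ≃+* F} {f : (Fin 3 → F) → (Fin 3 → F) → F} (hf : IsSkewForm σ f)
include hf

/-- Transvections at a normalised hyperbolic pair. -/
lemma inX_of_normal_pair [Finite F] {M : Subgroup (GL (Fin 3) F)} {u w : Fin 3 → F}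
    (hu : f u u = 0) (hw : f w w = 0) (hwu : f w u = 1) {c : F} (hc : σ c = c) (hc0 : c ≠ 0)
    (hgen : Gen σ c) (hT : T hf u c hu ∈ M) (hT' : T hf w (-1) hw ∈ M)
    (hex : ((2 : F) ≠ 0 ∧ (Nat.card (fixedK σ) = 9 → c ^ 2 ≠ -1)) ∨
      ((2 : F) = 0 ∧ ∃ d, σ d = d ∧ d ≠ 0 ∧ d ≠ c ∧ T hf u d hu ∈ M)) :
    InX hf M u := by
  obtain ⟨a, hau, haw, haa, hx⟩ := exists_frame hf hu hw hwu
  have huw : f u w = -1 := by rw [hf.skew, hwu, map_one]
  let Lift : SL(2, fixedK σ) → GL (Fin 3) F → Prop := fun s h =>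
    ap h a = a ∧ ap h u = (s.1 0 0 : F) • u + (s.1 1 0 : F) • w ∧
      ap h w = (s.1 0 1 : F) • u + (s.1 1 1 : F) • w
  let S : Submonoid SL(2, fixedK σ) :=
    { carrier := {s | ∃ h ∈ M, Lift s h}
      one_mem' := ⟨1, one_mem M, by simp, by simp, by simp⟩
      mul_mem' := by
        rintro s t ⟨g, hg, g1, g2, g3⟩ ⟨h, hh, h1, h2, h3⟩
        refine ⟨g * h, mul_mem hg hh, by rw [ap_mul, h1, g1], ?_, ?_⟩
        · rw [ap_mul, h2, ap_add, ap_smul, ap_smul, g2, g3]
          simp only [Matrix.SpecialLinearGroup.coe_mul, Matrix.mul_apply, Fin.sum_univ_two,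
            Subfield.coe_add, Subfield.coe_mul]
          module
        · rw [ap_mul, h3, ap_add, ap_smul, ap_smul, g2, g3]
          simp only [Matrix.SpecialLinearGroup.coe_mul, Matrix.mul_apply, Fin.sum_univ_two,
            Subfield.coe_add, Subfield.coe_mul]
          module }
  let G : Subgroup SL(2, fixedK σ) :=
    { S with
      inv_mem' := fun {s} hs => by
        have e : s⁻¹ = s ^ (orderOf s - 1) := by
          refine inv_eq_of_mul_eq_one_right ?_
          rw [← pow_succ', Nat.sub_add_cancel (orderOf_pos s), pow_orderOf_eq_one]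
        show s⁻¹ ∈ S
        rw [e]
        exact S.pow_mem hs _ }
  have hup : ∀ (d : F) (hd : σ d = d), T hf u d hu ∈ M →
      CfsgLib.ClassicalLinear.upS (⟨d, hd⟩ : fixedK σ) ∈ G := fun d hd hm =>
    ⟨_, hm, ap_T_fix hf hu hau,
      by simp [ap_T hf, hu, CfsgLib.ClassicalLinear.upS_coe],
      by simp [ap_T hf, hwu, CfsgLib.ClassicalLinear.upS_coe]; abel⟩
  have hl : CfsgLib.SL2.Dickson.lowS (1 : fixedK σ) ∈ G :=
    ⟨_, hT', ap_T_fix hf hw haw,
      by simp [ap_T hf, huw, CfsgLib.SL2.Dickson.lowS_coe],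
      by simp [ap_T hf, hw, CfsgLib.SL2.Dickson.lowS_coe]⟩
  have h2iff : (2 : F) = 0 ↔ (2 : fixedK σ) = 0 := by
    rw [← map_eq_zero (fixedK σ).subtype, map_ofNat]
  have hall := CfsgLib.SL2.Dickson.upS_mem_of_generator (G := G) (lam := (⟨c, hc⟩ : fixedK σ))
    (fun h => hc0 (congrArg Subtype.val h)) (hgen.closure hc) hl (hup c hc hT) (by
      rcases hex with ⟨h2, h9⟩ | ⟨h2, d, hd, hd0, hdc, hm⟩
      · exact Or.inl ⟨mt h2iff.mpr h2, fun h e => h9 h (by simpa using congrArg Subtype.val e)⟩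
      · exact Or.inr ⟨h2iff.mp h2, ⟨d, hd⟩, fun h => hd0 (congrArg Subtype.val h),
          fun h => hdc (congrArg Subtype.val h), hup d hd hm⟩)
  refine ⟨hu, fun h d hd => ?_⟩
  obtain ⟨g, hg, g1, g2, g3⟩ := hall ⟨d, hd⟩
  simp only [CfsgLib.ClassicalLinear.upS_coe, Matrix.of_apply, Matrix.cons_val',
    Matrix.cons_val_zero, Matrix.cons_val_one, Matrix.cons_val_fin_one, OneMemClass.coe_one,
    ZeroMemClass.coe_zero, one_smul, zero_smul, add_zero] at g2 g3
  have e : g = T hf u d h := by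
    apply gl_ext
    intro x
    rw [ap_T hf, hx x]
    simp only [ap_add, ap_smul, g1, g2, g3, hf.add_left, hf.smul_left, hu, hwu, hau]
    module
  exact e ▸ hg

/-- Transvections at two centres with a generating invariant. -/
theorem inX_of_pair [Finite F] {M : Subgroup (GL (Fin 3) F)} (hMI : M ≤ isom f)
    {u w : Fin 3 → F} (hu : f u u = 0) (hw : f w w = 0) (huw : f u w ≠ 0) {c d : F}
    (hc : σ c = c) (hc0 : c ≠ 0) (hd : σ d = d) (hd0 : d ≠ 0)
    (hT : T hf u c hu ∈ M) (hT' : T hf w d hw ∈ M)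
    (hgen : Gen σ (c * d * (f u w * σ (f u w))))
    (hex : ((2 : F) ≠ 0 ∧ (Nat.card (fixedK σ) = 9 → (c * d * (f u w * σ (f u w))) ^ 2 ≠ -1)) ∨
      ((2 : F) = 0 ∧ ∃ c', σ c' = c' ∧ c' ≠ 0 ∧ c' ≠ c ∧ T hf u c' hu ∈ M)) :
    InX hf M u ∧ InX hf M w := by
  have hwu : f w u ≠ 0 := fun h => huw ((eq_zero_comm hf).mp h)
  have hswu : σ (f w u) ≠ 0 := by rwa [ne_eq, EmbeddingLike.map_eq_zero_iff]
  have hn : f w u * σ (f w u) = f u w * σ (f u w) := by
    rw [hf.skew w u, map_neg, hf.involutive]; ring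
  obtain ⟨ν, hν⟩ := exists_norm hf (c := -(d * (f w u * σ (f w u)))) (by
    rw [map_neg, map_mul, map_mul, hd, hf.involutive]; ring)
  have hν0 : ν ≠ 0 := fun h => by
    rw [h, zero_mul] at hν
    exact mul_ne_zero hd0 (mul_ne_zero hwu hswu) (neg_eq_zero.mp hν.symm)
  have hsν : σ ν ≠ 0 := by rwa [ne_eq, EmbeddingLike.map_eq_zero_iff]
  obtain ⟨u', hu'⟩ : ∃ u', u' = (σ ν)⁻¹ • u := ⟨_, rfl⟩
  obtain ⟨w', hw'⟩ : ∃ w', w' = (ν / f w u) • w := ⟨_, rfl⟩
  have hu'u' : f u' u' = 0 := hu' ▸ isotropic_smul hf hu _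
  have hw'w' : f w' w' = 0 := hw' ▸ isotropic_smul hf hw _
  have hwu' : f w' u' = 1 := by
    rw [hu', hw', hf.smul_left, smul_right hf, map_inv₀, hf.involutive]
    field_simp
  have hTu : ∀ x, T hf u' (x * (ν * σ ν)) hu'u' = T hf u x hu := fun x => by
    subst hu'
    rw [T_smul hf hu, map_inv₀, hf.involutive]
    congr 1
    field_simp
  have hTw : T hf w' (-1) hw'w' = T hf w d hw := by
    subst hw'
    rw [T_smul hf hw, map_div₀]
    congr 1
    field_simp
    linear_combination -hν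
  have e : c * (ν * σ ν) = -(c * d * (f u w * σ (f u w))) := by rw [hν, ← hn]; ring
  have hX : InX hf M u' := by
    refine inX_of_normal_pair hf hu'u' hw'w' hwu' (c := c * (ν * σ ν)) ?_ ?_ ?_ ?_
      (by rw [hTw]; exact hT') ?_
    · rw [map_mul, map_mul, hf.involutive, hc]; ring
    · exact mul_ne_zero hc0 (mul_ne_zero hν0 hsν)
    · rw [e]; exact hgen.neg
    · rw [hTu]; exact hT
    · rcases hex with ⟨h2, h9⟩ | ⟨h2, c', hc', hc'0, hc'c, hm⟩
      · exact Or.inl ⟨h2, fun h => by rw [e, neg_sq]; exact h9 h⟩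
      · refine Or.inr ⟨h2, c' * (ν * σ ν), ?_, mul_ne_zero hc'0 (mul_ne_zero hν0 hsν),
          fun h => hc'c (mul_right_cancel₀ (mul_ne_zero hν0 hsν) h), by rw [hTu]; exact hm⟩
        rw [map_mul, map_mul, hf.involutive, hc']; ring
  have hXu : InX hf M u := by
    have := inX_smul hf hX (σ ν)
    rwa [hu', smul_smul, mul_inv_cancel₀ hsν, one_smul] at this
  refine ⟨hXu, ?_⟩
  -- exchange the two centres
  set γ := d * (f u w * σ (f u w)) with hγ
  have hsuw : σ (f u w) ≠ 0 := by rwa [ne_eq, EmbeddingLike.map_eq_zero_iff]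
  have hγ0 : γ ≠ 0 := mul_ne_zero hd0 (mul_ne_zero huw hsuw)
  have hγσ : σ γ⁻¹ = γ⁻¹ := by rw [map_inv₀, hγ, map_mul, map_mul, hf.involutive, hd]; ring
  have hm : T hf u γ⁻¹ hu * T hf w d hw ∈ M := mul_mem (hXu.2 hu _ hγσ) hT'
  have h1 := inX_ap hf hm (hMI hm) hXu
  have e1 : ap (T hf u γ⁻¹ hu * T hf w d hw) u = (d * f u w) • w := by
    rw [ap_mul, ap_T hf, ap_T hf, hf.add_left, hf.smul_left, hu, zero_add,
      show γ⁻¹ * (d * f u w * f w u) = -1 by
        rw [hγ, hf.skew w u]; field_simp]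
    module
  rw [e1] at h1
  have := inX_smul hf h1 (d * f u w)⁻¹
  rwa [smul_smul, inv_mul_cancel₀ (mul_ne_zero hd0 huw), one_smul] at this

end CfsgLib.Geometric.SUThree
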