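import Mathlib

/-!
Arithmetic for overgroups of a cubic torus normaliser in `SU₃(q)`: factors of the index congruent
to one modulo `(q² - q + 1) / gcd(3, q+1)`.
-/

set_option autoImplicit false

namespace CfsgLib.Geometric.SUThree.SingerArith

/-- The case of two factors divisible by `q`. -/
lemma both {q d mb a b : ℕ} (hq : 3 ≤ q) (h35 : q ≠ 3 ∧ q ≠ 5) (hd : d = 1 ∨ d = 3)
    (hdq : d = 3 → 3 ∣ q + 1) (hm : d * mb = q ^ 2 - q + 1)
    (hab : 3 * (a * b) = q * (q + 1) ^ 2 * (q - 1))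
    (ha : q * a ≡ 1 [MOD mb]) (hb : q * b ≡ 1 [MOD mb]) :
    (q = 4 ∧ a = 10) ∨ (q = 8 ∧ (a = 12 ∨ a = 126)) := by
  have hqq : q ≤ q ^ 2 := Nat.le_self_pow two_ne_zero q
  have hm' : (d : ℤ) * mb = (q : ℤ) ^ 2 - q + 1 := by
    have := congrArg (fun x : ℕ => (x : ℤ)) hm
    push_cast [Nat.cast_sub hqq] at this
    linarith
  have hab' : (3 : ℤ) * (a * b) = q * (q + 1) ^ 2 * (q - 1) := by
    have := congrArg (fun x : ℕ => (x : ℤ)) hab
    push_cast [Nat.cast_sub (show 1 ≤ q by omega)] at this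
    linarith
  have hmb : 0 < (mb : ℤ) := by
    rcases hd with rfl | rfl <;> push_cast at hm' <;> nlinarith
  have hshift : ∀ x : ℕ, q * x ≡ 1 [MOD mb] → ∃ l : ℤ, (x : ℤ) + ((q : ℤ) - 1) = l * mb ∧ 1 ≤ l := by
    intro x hx
    obtain ⟨t, ht⟩ : (mb : ℤ) ∣ 1 - (q : ℤ) * x := by
      have h := Nat.modEq_iff_dvd.mp hx
      push_cast at h
      exact h
    refine ⟨(d : ℤ) * x - (1 - (q : ℤ)) * t, ?_, ?_⟩
    · linear_combination (-(x : ℤ)) * hm' - (1 - (q : ℤ)) * ht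
    · have e : ((d : ℤ) * x - (1 - (q : ℤ)) * t) * mb = (x : ℤ) + ((q : ℤ) - 1) := by
        linear_combination (x : ℤ) * hm' + (1 - (q : ℤ)) * ht
      have hpos : 0 < ((d : ℤ) * x - (1 - (q : ℤ)) * t) * mb := by rw [e]; omega
      have := pos_of_mul_pos_left hpos hmb.le
      omega
  obtain ⟨l, hl, hl1⟩ := hshift a ha
  obtain ⟨l', hl', hl'1⟩ := hshift b hb
  have key : 3 * (l * l') * mb = ((q : ℤ) - 1) * ((d : ℤ) * (q + 3) + 3 * (l + l')) := by
    have e : (mb : ℤ) * (3 * (l * l') * mb - ((q : ℤ) - 1) * ((d : ℤ) * (q + 3) + 3 * (l + l'))) = 0 := by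
      have ha' : (a : ℤ) = l * mb - ((q : ℤ) - 1) := by linarith
      have hb' : (b : ℤ) = l' * mb - ((q : ℤ) - 1) := by linarith
      rw [ha', hb'] at hab'
      linear_combination hab' - ((q : ℤ) - 1) * ((q : ℤ) + 3) * hm'
    have := (mul_eq_zero.mp e).resolve_left hmb.ne'
    linarith
  have hco : IsCoprime (mb : ℤ) ((q : ℤ) - 1) :=
    ⟨(d : ℤ), -(q : ℤ), by linear_combination hm'⟩
  rcases hd with rfl | rfl
  · push_cast at key hm'
    rw [one_mul] at hm' key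
    obtain ⟨s, hs⟩ : ((q : ℤ) - 1) ∣ 3 * (l * l') :=
      (IsCoprime.dvd_of_dvd_mul_right hco.symm ⟨_, key⟩)
    have hs2 : (q : ℤ) + 3 + 3 * (l + l') = s * mb := by
      have hq1 : (q : ℤ) - 1 ≠ 0 := by omega
      apply mul_left_cancel₀ hq1
      rw [hs] at key
      linear_combination -key
    have hs1 : 1 ≤ s := by nlinarith
    have hll : l + l' ≤ l * l' + 1 := by nlinarith
    have hq4 : q ≤ 4 := by
      by_contra h
      have h5 : (5 : ℤ) ≤ q := by omega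
      have e1 : s * (mb : ℤ) = s * ((q : ℤ) ^ 2 - q + 1) := by rw [hm']
      have e2 : s * ((q : ℤ) ^ 2 - 2 * q + 2) ≤ q + 6 := by linarith
      have e3 : (q : ℤ) ^ 2 - 2 * q + 2 ≤ s * ((q : ℤ) ^ 2 - 2 * q + 2) :=
        le_mul_of_one_le_left (by nlinarith only [h5]) hs1
      nlinarith only [h5, e2, e3]
    have hq' : q = 4 := by omega
    subst hq'
    push_cast at hm' hs hs2 hl
    have hmb' : (mb : ℤ) = 13 := by linarith
    rw [hmb'] at hs2 hl
    have hs' : l * l' = s := by linarith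
    have : s = 1 := by nlinarith
    subst this
    left
    refine ⟨rfl, ?_⟩
    have : l = 1 := by nlinarith
    subst this
    omega
  · push_cast at key hm'
    have h3 : (3 : ℤ) ∣ (q : ℤ) + 1 := by exact_mod_cast hdq rfl
    obtain ⟨s, hs⟩ : ((q : ℤ) - 1) ∣ l * l' := by
      refine IsCoprime.dvd_of_dvd_mul_right hco.symm ⟨(q : ℤ) + 3 + (l + l'), ?_⟩
      linarith [show ((q : ℤ) - 1) * (3 * (q + 3) + 3 * (l + l')) =
        3 * (((q : ℤ) - 1) * (q + 3 + (l + l'))) by ring]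
    have hs2 : (q : ℤ) + 3 + (l + l') = s * mb := by
      have hq1 : (3 : ℤ) * ((q : ℤ) - 1) ≠ 0 := by omega
      apply mul_left_cancel₀ hq1
      rw [hs] at key
      linear_combination -key
    have hs1 : 1 ≤ s := by nlinarith
    have hll : l + l' ≤ l * l' + 1 := by nlinarith
    have hq8 : q ≤ 8 := by
      by_contra h
      have h9 : (9 : ℤ) ≤ q := by omega
      have e1 : s * (3 * (mb : ℤ)) = s * ((q : ℤ) ^ 2 - q + 1) := by rw [hm']
      have e2 : s * ((q : ℤ) ^ 2 - 4 * q + 4) ≤ 3 * q + 12 := by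
        rw [hs] at hll
        linarith
      have e3 : (q : ℤ) ^ 2 - 4 * q + 4 ≤ s * ((q : ℤ) ^ 2 - 4 * q + 4) :=
        le_mul_of_one_le_left (by nlinarith only [h9]) hs1
      nlinarith only [h9, e2, e3]
    have hq' : q = 8 := by omega
    subst hq'
    push_cast at hm' hs hs2 hl
    have hmb' : (mb : ℤ) = 19 := by linarith
    rw [hmb'] at hs2 hl
    have hs' : l * l' = 7 * s := by linarith
    have : s = 1 := by linarith only [hs1, hs', hs2, hll]
    subst this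
    right
    refine ⟨rfl, ?_⟩
    have hl7 : l ≤ 7 := by
      have := le_mul_of_one_le_right (show (0 : ℤ) ≤ l by omega) hl'1
      linarith only [this, hs']
    interval_cases l <;> omega

/-- Two primes dividing a prime power are equal. -/
lemma prime_unique {p f q : ℕ} (hp : p.Prime) (hq : q = p ^ f) (r s : ℕ) (hr : r.Prime)
    (hs : s.Prime) (hrq : r ∣ q) (hsq : s ∣ q) : r = s :=
  ((Nat.prime_dvd_prime_iff_eq hr hp).mp (hr.dvd_of_dvd_pow (hq ▸ hrq))).trans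
    ((Nat.prime_dvd_prime_iff_eq hs hp).mp (hs.dvd_of_dvd_pow (hq ▸ hsq))).symm

/-- The finite part of the small factor case. -/
lemma small_cases : ∀ q ∈ ([8, 11, 17, 23, 29, 32, 41] : List ℕ), ∀ u ∈ List.range q, u ∣ q →
    ∀ k ∈ List.range 40, 1 ≤ k → (3 + k * (q ^ 2 - q + 1)) ∣ 9 * u * (q + 2 + k) →
      q = 8 ∧ u = 4 ∧ k = 17 := by
  decide +kernel

/-- A factor whose `p`-part is below `q`. -/
lemma small {p f q d mb j V : ℕ} (hp : p.Prime) (hq : q = p ^ f) (hq3 : 3 ≤ q)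
    (h35 : q ≠ 3 ∧ q ≠ 5) (hd : d = 1 ∨ d = 3) (hdq : d = 3 → 3 ∣ q + 1)
    (hm : d * mb = q ^ 2 - q + 1) (hV : V = (q + 1) ^ 2 * (q - 1))
    (hj : 3 * j ∣ q ^ 3 * V) (hjm : j ≡ 1 [MOD mb]) (hqj : ¬ q ∣ j) : j = 1 := by
  obtain ⟨a, v, hv, hjv⟩ : ∃ a v, ¬ p ∣ v ∧ j = p ^ a * v := by
    have hj0 : j ≠ 0 := fun h => hqj (h ▸ dvd_zero q)
    exact Nat.exists_eq_pow_mul_and_not_dvd hj0 p hp.ne_one
  have haf : a < f := by
    by_contra h
    exact hqj (hq ▸ hjv ▸ (Nat.pow_dvd_pow p (not_lt.mp h)).mul_right v)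
  obtain ⟨u, hudef⟩ : ∃ u, u = p ^ a := ⟨_, rfl⟩
  have hu : u ∣ q := hq ▸ hudef ▸ Nat.pow_dvd_pow p haf.le
  have hu2 : 2 * u ≤ q := by
    rw [hq, hudef]
    calc 2 * p ^ a ≤ p * p ^ a := Nat.mul_le_mul_right _ hp.two_le
      _ = p ^ (a + 1) := by ring
      _ ≤ p ^ f := Nat.pow_le_pow_right hp.pos haf
  have hu1 : 0 < u := hudef ▸ pow_pos hp.pos a
  rw [← hudef] at hjv
  obtain ⟨v', hv'⟩ : v ∣ V := by
    refine Nat.Coprime.dvd_of_dvd_mul_left ?_
      ((Dvd.intro_left (3 * u) (by rw [hjv]; ring)).trans hj)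
    rw [hq, ← pow_mul]
    exact Nat.Coprime.pow_right _ ((hp.coprime_iff_not_dvd.mpr hv).symm)
  have hqq : q ≤ q ^ 2 := Nat.le_self_pow two_ne_zero q
  have hm' : (d : ℤ) * mb = (q : ℤ) ^ 2 - q + 1 := by
    have := congrArg (fun x : ℕ => (x : ℤ)) hm
    push_cast [Nat.cast_sub hqq] at this
    linarith
  have hV' : (V : ℤ) = ((q : ℤ) + 1) ^ 2 * (q - 1) := by
    have := congrArg (fun x : ℕ => (x : ℤ)) hV
    push_cast [Nat.cast_sub (show 1 ≤ q by omega)] at this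
    linarith
  have hvv : (v : ℤ) * v' = V := by exact_mod_cast hv'.symm
  have hmb : 0 < (mb : ℤ) := by
    rcases hd with rfl | rfl <;> push_cast at hm' <;> nlinarith
  obtain ⟨k, hk⟩ : ∃ k : ℤ, (u : ℤ) * v = 1 + k * mb := by
    obtain ⟨t, ht⟩ := Nat.modEq_iff_dvd.mp hjm
    refine ⟨-t, ?_⟩
    rw [hjv] at ht
    push_cast at ht
    linear_combination -ht
  have hk0 : 0 ≤ k := by
    have h1 : (1 : ℤ) ≤ u * v := by
      have : 0 < v := Nat.pos_of_ne_zero fun h => hv (h ▸ dvd_zero p)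
      exact_mod_cast Nat.mul_pos hu1 this
    by_contra h
    nlinarith
  rcases hk0.eq_or_lt with rfl | hk1
  · rw [zero_mul, add_zero] at hk
    rw [hjv]
    exact_mod_cast hk
  exfalso
  have hk1' : 1 ≤ k := hk1
  obtain ⟨k', hk'def⟩ : ∃ k', k' = (u : ℤ) * ((d : ℤ) * (q + 2)) - k * v' := ⟨_, rfl⟩
  have hk' : (v' : ℤ) + 3 * u = k' * mb := by
    rw [hk'def]
    linear_combination (-(v' : ℤ)) * hk + (u : ℤ) * hvv + (u : ℤ) * hV' -
      (u : ℤ) * ((q : ℤ) + 2) * hm'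
  have hk'1 : 1 ≤ k' := by
    have : 0 < k' * mb := by rw [← hk']; omega
    have := pos_of_mul_pos_left this hmb.le
    omega
  have key : k' * (1 + k * mb) = (u : ℤ) * ((d : ℤ) * (q + 2) + 3 * k) := by
    have e : (mb : ℤ) * (k' * v - ((d : ℤ) * (q + 2) + 3 * k)) = 0 := by
      linear_combination (-(v : ℤ)) * hk' + hvv + hV' + 3 * hk - ((q : ℤ) + 2) * hm'
    have h1 := (mul_eq_zero.mp e).resolve_left hmb.ne'
    linear_combination (u : ℤ) * h1 - k' * hk
  have hu2' : 2 * (u : ℤ) ≤ q := by exact_mod_cast hu2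
  rcases hd with rfl | rfl
  · push_cast at key hm'
    rw [one_mul] at hm' key
    rw [hm'] at key
    have hmpos : 0 ≤ (q : ℤ) ^ 2 - q + 1 := by nlinarith only [hqq, sq_nonneg ((q : ℤ) - 1), Int.natCast_nonneg q]
    have hle : 1 + k * ((q : ℤ) ^ 2 - q + 1) ≤ k' * (1 + k * ((q : ℤ) ^ 2 - q + 1)) :=
      le_mul_of_one_le_left (by have := mul_nonneg hk0 hmpos; omega) hk'1
    have hq6 : q ≤ 6 := by
      by_contra h
      have h7 : (7 : ℤ) ≤ q := by omega
      have e1 := mul_le_mul_of_nonneg_right hu2'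
        (show 0 ≤ (q : ℤ) + 2 + 3 * k by omega)
      have e2 := mul_le_mul_of_nonneg_right hk1'
        (show 0 ≤ 2 * (q : ℤ) ^ 2 - 5 * q + 2 by nlinarith only [h7])
      have e3 : (q : ℤ) ^ 2 - 7 * q + 4 ≤ 0 := by linarith
      nlinarith only [h7, e3]
    have hq6' : q ≠ 6 := by
      rintro rfl
      have e2 := (Nat.prime_dvd_prime_iff_eq Nat.prime_two hp).mp
        (Nat.prime_two.dvd_of_dvd_pow (hq ▸ (by norm_num : (2 : ℕ) ∣ 6)))
      have e3 := (Nat.prime_dvd_prime_iff_eq Nat.prime_three hp).mp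
        (Nat.prime_three.dvd_of_dvd_pow (hq ▸ (by norm_num : (3 : ℕ) ∣ 6)))
      omega
    obtain rfl : q = 4 := by omega
    push_cast at key hle hu2'
    have hu' : u ≤ 2 := by omega
    have hk2 : k < 2 := by
      have e1 := mul_le_mul_of_nonneg_right hu2' (show (0 : ℤ) ≤ 6 + 3 * k by omega)
      linarith
    obtain rfl : k = 1 := by omega
    interval_cases u <;> push_cast at key <;> omega
  · push_cast at key hm'
    have h3 : 3 ∣ q + 1 := hdq rfl
    have key' : k' * (3 + k * ((q : ℤ) ^ 2 - q + 1)) = 9 * u * (q + 2 + k) := by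
      linear_combination 3 * key - k' * k * hm'
    have hq8 : 8 ≤ q := by omega
    have hq8' : (8 : ℤ) ≤ q := by exact_mod_cast hq8
    have hdvd : (u : ℤ) ∣ k' * (3 + k) := by
      obtain ⟨t, ht⟩ := hu
      refine ⟨9 * (q + 2 + k) - k' * k * (t * (q - 1)), ?_⟩
      have ht' : (q : ℤ) = u * t := by exact_mod_cast ht
      linear_combination key' - k' * k * ((q : ℤ) - 1) * ht'
    have huk : (u : ℤ) ≤ k' * (3 + k) := Int.le_of_dvd (by positivity) hdvd
    have hle : k * ((q : ℤ) ^ 2 - q + 1) ≤ k' * k * ((q : ℤ) ^ 2 - q + 1) := by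
      have : k ≤ k' * k := le_mul_of_one_le_left (by omega) hk'1
      exact mul_le_mul_of_nonneg_right this (by nlinarith only [hq8'])
    have hb0 : k' * (3 + k * ((q : ℤ) ^ 2 - q + 1)) * 2 ≤ 9 * q * (q + 2 + k) := by
      rw [key']
      have e1 := mul_le_mul_of_nonneg_right hu2' (show 0 ≤ 9 * ((q : ℤ) + 2 + k) by omega)
      linarith only [e1]
    have hb : k * (2 * (q : ℤ) ^ 2 - 11 * q + 2) ≤ 9 * q ^ 2 + 18 * q := by
      linarith only [hle, hb0, hk'1]
    have hpos : 0 ≤ 2 * (q : ℤ) ^ 2 - 11 * q + 2 := by nlinarith only [hq8']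
    have hklt : k < 40 := by
      by_contra h
      have e1 := mul_le_mul_of_nonneg_right (not_lt.mp h) hpos
      nlinarith only [e1, hb, hq8']
    have hqlt : q < 46 := by
      by_contra h
      have h46 : (46 : ℤ) ≤ q := by omega
      have hk5 : k ≤ 5 := by
        by_contra h6
        have e1 := mul_le_mul_of_nonneg_right (show (6 : ℤ) ≤ k by omega) hpos
        nlinarith only [e1, hb, h46]
      have e2 : 3 + k * ((q : ℤ) ^ 2 - q + 1) ≤ 9 * (3 + k) * (q + 2 + k) := by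
        refine le_of_mul_le_mul_left ?_ (show 0 < k' by omega)
        rw [key']
        have := mul_le_mul_of_nonneg_right huk (show 0 ≤ 9 * ((q : ℤ) + 2 + k) by omega)
        linarith
      have e3 : 9 * (3 + k) * ((q : ℤ) + 2 + k) ≤ k * (36 * (q + 7)) := by
        have e4 : (3 + k) * ((q : ℤ) + 2 + k) ≤ (4 * k) * (q + 7) := by
          apply mul_le_mul <;> omega
        linarith
      have e5 : k * ((q : ℤ) ^ 2 - q + 1) < k * (36 * (q + 7)) := by linarith
      have e6 := lt_of_mul_lt_mul_left e5 hk0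
      nlinarith only [e6, h46]
    obtain ⟨k0, rfl⟩ := Int.eq_ofNat_of_zero_le hk0
    have hdiv : 3 + k0 * (q ^ 2 - q + 1) ∣ 9 * u * (q + 2 + k0) := by
      have : ((3 + k0 * (q ^ 2 - q + 1) : ℕ) : ℤ) ∣ ((9 * u * (q + 2 + k0) : ℕ) : ℤ) :=
        ⟨k', by push_cast [Nat.cast_sub hqq]; linear_combination -key'⟩
      exact_mod_cast this
    have hmem : q ∈ ([8, 11, 17, 23, 29, 32, 41] : List ℕ) := by
      have key2 := prime_unique hp hq
      have n1 : ¬(2 ∣ q ∧ 7 ∣ q) := fun h => by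
        have := key2 2 7 Nat.prime_two (by norm_num) h.1 h.2; omega
      have n2 : ¬(2 ∣ q ∧ 5 ∣ q) := fun h => by
        have := key2 2 5 Nat.prime_two (by norm_num) h.1 h.2; omega
      have n3 : ¬(2 ∣ q ∧ 13 ∣ q) := fun h => by
        have := key2 2 13 Nat.prime_two (by norm_num) h.1 h.2; omega
      have n4 : ¬(5 ∣ q ∧ 7 ∣ q) := fun h => by
        have := key2 5 7 (by norm_num) (by norm_num) h.1 h.2; omega
      have n5 : ¬(2 ∣ q ∧ 19 ∣ q) := fun h => by
        have := key2 2 19 Nat.prime_two (by norm_num) h.1 h.2; omega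
      have n6 : ¬(2 ∣ q ∧ 11 ∣ q) := fun h => by
        have := key2 2 11 Nat.prime_two (by norm_num) h.1 h.2; omega
      simp only [List.mem_cons, List.not_mem_nil, or_false]
      interval_cases q <;> omega
    obtain ⟨rfl, rfl, rfl⟩ := small_cases q hmem u (List.mem_range.mpr (by omega)) hu k0
      (List.mem_range.mpr (by omega)) (by omega) hdiv
    have hj' : j = 324 := by
      push_cast at hk hm'
      rw [hjv]
      omega
    subst hj'
    rw [hV] at hj
    norm_num at hj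

/-- The possible indices. -/
theorem index_cases {p f q d mb j w : ℕ} (hp : p.Prime) (hq : q = p ^ f) (hq3 : 3 ≤ q)
    (h35 : q ≠ 3 ∧ q ≠ 5) (hd : d = 1 ∨ d = 3) (hdq : d = 3 → 3 ∣ q + 1)
    (hco : Nat.Coprime 3 mb) (hm : d * mb = q ^ 2 - q + 1)
    (hjw : 3 * (j * w) = q ^ 3 * ((q + 1) ^ 2 * (q - 1))) (hj : j ≡ 1 [MOD mb]) :
    j = 1 ∨ w = 1 ∨ (q = 4 ∧ j = 40) ∨ (q = 8 ∧ (j = 96 ∨ j = 1008)) := by
  have hqq : q ≤ q ^ 2 := Nat.le_self_pow two_ne_zero q
  have h3 : q ^ 3 * ((q + 1) ^ 2 * (q - 1)) ≡ 3 [MOD mb] := by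
    rw [Nat.modEq_iff_dvd]
    refine ⟨-(((q : ℤ) ^ 4 + 2 * q ^ 3 - 3 * q - 3) * d), ?_⟩
    have hm' : (d : ℤ) * mb = (q : ℤ) ^ 2 - q + 1 := by
      have := congrArg (fun x : ℕ => (x : ℤ)) hm
      push_cast [Nat.cast_sub hqq] at this
      linarith
    push_cast [Nat.cast_sub (show 1 ≤ q by omega)]
    linear_combination ((q : ℤ) ^ 4 + 2 * q ^ 3 - 3 * q - 3) * hm'
  have hw : w ≡ 1 [MOD mb] := by
    have h1 : 3 * w ≡ 3 * 1 [MOD mb] := by
      calc 3 * w ≡ 3 * (j * w) [MOD mb] := by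
            have := (hj.mul_right w).mul_left 3
            rw [one_mul] at this
            exact this.symm
        _ ≡ 3 * 1 [MOD mb] := by rw [hjw, mul_one]; exact h3
    exact Nat.ModEq.cancel_left_of_coprime hco.symm h1
  by_cases hqj : q ∣ j
  · by_cases hqw : q ∣ w
    · obtain ⟨a, rfl⟩ := hqj
      obtain ⟨b, rfl⟩ := hqw
      have hab : 3 * (a * b) = q * (q + 1) ^ 2 * (q - 1) := by
        apply Nat.eq_of_mul_eq_mul_left (show 0 < q ^ 2 by positivity)
        linarith [show q ^ 2 * (3 * (a * b)) = 3 * (q * a * (q * b)) by ring,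
          show q ^ 2 * (q * (q + 1) ^ 2 * (q - 1)) = q ^ 3 * ((q + 1) ^ 2 * (q - 1)) by ring]
      rcases both hq3 h35 hd hdq hm hab hj hw with ⟨rfl, rfl⟩ | ⟨rfl, rfl | rfl⟩ <;> simp
    · exact Or.inr (Or.inl (small hp hq hq3 h35 hd hdq hm rfl
        (Dvd.intro j (by rw [← hjw]; ring)) hw hqw))
  · exact Or.inl (small hp hq hq3 h35 hd hdq hm rfl
      (Dvd.intro w (by rw [← hjw]; ring)) hj hqj)

end CfsgLib.Geometric.SUThree.SingerArith
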