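import Cfsg.Agent.Lib.Geometric.SUThree.Singer.Normaliser
import Cfsg.Agent.Lib.Geometric.SUThree.Singer.Exceptional
import Cfsg.Agent.Lib.Geometric.SUThree.SingerArith
import Cfsg.Agent.Lib.ClassicalForms.Unitary.Card

/-!
The normaliser of a cubic field of matrices closed under adjoints is maximal in `SU₃(q)` for
`q ≠ 3, 5`.
-/

set_option autoImplicit false
set_option linter.unusedSectionVars false

namespace CfsgLib.Geometric.SUThree.Singer

open Matrix Module

variable {F : Type*} [Field F] [Fintype F] {q : ℕ}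

/-- The order of `SU₃(q)` as a subgroup of the general linear group. -/
lemma card_grp (hF : Fintype.card F = q ^ 2) {ζ : F} (hζ : ζ ≠ 0) :
    Nat.card (grp fun u v => ζ * Cfsg.hermForm 3 F q u v) =
      q ^ 3 * ((q ^ 2 - 1) * (q ^ 3 + 1)) := by
  have hF' : Nat.card F = q ^ 2 := by rw [Nat.card_eq_fintype_card, hF]
  have e : Nat.card (grp fun u v => ζ * Cfsg.hermForm 3 F q u v) = Nat.card (Cfsg.SU 3 F q) :=
    (Nat.card_congr (CfsgLib.ClassicalForms.suEquivIsomSL (n := 3) (q := q) hζ).toEquiv).symm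
  have h := (CfsgLib.ClassicalForms.card_gu_eq_mul_su (n := 3) hF' (by norm_num)).symm.trans
    (CfsgLib.ClassicalForms.card_gu hF' 3)
  simp only [Finset.prod_range_succ, Finset.prod_range_zero, Nat.reduceMul, Nat.reduceSub,
    Nat.reduceDiv, Nat.reduceAdd, pow_one, Even.zero, if_true, even_two,
    if_neg (show ¬ Even 1 by decide), one_mul] at h
  rw [e]
  refine Nat.eq_of_mul_eq_mul_left (show 0 < q + 1 by omega) ?_
  rw [h]; ring

variable {σ : F ≃+* F} {f : (Fin 3 → F) → (Fin 3 → F) → F}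
  {E : Type*} [Field E] [Algebra F E] {ρ : E →ₐ[F] Matrix (Fin 3) (Fin 3) F}
  (C : Ctx ρ q σ f)
include C

/-- The torus orbit of a non-zero vector spans. -/
lemma Ctx.span_orbit (hq : 3 ≤ q) {v : Fin 3 → F} (hv : v ≠ 0) :
    Submodule.span F {x | ∃ g ∈ cycU ρ q, ap g v = x} = ⊤ := by
  have := C.finiteE
  have h3 := C.finrank
  set U := (powMonoidHom (α := Eˣ) (q ^ 2 - q + 1)).ker
  set S : Submonoid E := U.toSubmonoid.map (Units.coeHom E) with hS
  have hadj : Submodule.span F (S : Set E) = ⊤ := by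
    have : IsSimpleOrder (Subalgebra F E) :=
      Subalgebra.isSimpleOrder_of_finrank_prime F E (h3 ▸ Nat.prime_three)
    have h : Subalgebra.toSubmodule (Algebra.adjoin F (S : Set E)) = Submodule.span F (S : Set E) := by
      rw [Algebra.adjoin_eq_span, Submonoid.closure_eq]
    rcases eq_bot_or_eq_top (Algebra.adjoin F (S : Set E)) with hb | ht
    · exfalso
      have hsub : ∀ k : U, ∃ a : Fˣ, Units.map (algebraMap F E : F →* E) a = (k : Eˣ) := fun k => by
        have : ((k : Eˣ) : E) ∈ Algebra.adjoin F (S : Set E) :=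
          Algebra.subset_adjoin ⟨k.1, k.2, rfl⟩
        rw [hb, Algebra.mem_bot] at this
        obtain ⟨a, ha⟩ := this
        have ha0 : a ≠ 0 := fun e => k.1.ne_zero (by rw [← ha, e, map_zero])
        exact ⟨Units.mk0 a ha0, Units.ext ha⟩
      choose a ha using hsub
      -- the units of `F` killed by `q² - q + 1` are at most three
      have hm3 : ∀ k : U, a k ∈ (powMonoidHom (α := Fˣ) (q ^ 2 - q + 1)).ker := fun k => by
        refine MonoidHom.mem_ker.2 (Units.map_injective (algebraMap F E).injective ?_)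
        rw [powMonoidHom_apply, map_pow, map_one]
        exact (congrArg (· ^ (q ^ 2 - q + 1)) (ha k)).trans (MonoidHom.mem_ker.1 k.2)
      have hle : Nat.card U ≤ Nat.card (powMonoidHom (α := Fˣ) (q ^ 2 - q + 1)).ker :=
        Nat.card_le_card_of_injective (fun k => ⟨a k, hm3 k⟩) fun k k' he => Subtype.ext
          ((ha k).symm.trans ((congrArg _ (congrArg Subtype.val he :)).trans (ha k')))
      rw [IsCyclic.card_powMonoidHom_ker, IsCyclic.card_powMonoidHom_ker, Nat.card_units,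
        Nat.card_units, C.card_ext, Nat.card_eq_fintype_card, C.card] at hle
      have hg : Nat.gcd (q ^ 6 - 1) (q ^ 2 - q + 1) = q ^ 2 - q + 1 :=
        Nat.gcd_eq_right ⟨(q + 1) * (q ^ 3 - 1), by
          rw [← mul_assoc, C.m_identities.1, show q ^ 6 = (q ^ 3) ^ 2 by ring, ← one_pow 2,
            Nat.sq_sub_sq, one_pow]⟩
      rw [hg] at hle
      have h1 : q ^ 2 - q + 1 ≤ 3 := by
        refine hle.trans (Nat.le_of_dvd (by norm_num) ?_)
        have d1 := Nat.gcd_dvd_left (q ^ 2 - 1) (q ^ 2 - q + 1)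
        have d2 := Nat.gcd_dvd_right (q ^ 2 - 1) (q ^ 2 - q + 1)
        set g := Nat.gcd (q ^ 2 - 1) (q ^ 2 - q + 1)
        have := Nat.le_self_pow two_ne_zero q
        have := Nat.one_le_pow 2 q (by omega)
        have i1 : (g : ℤ) ∣ (q : ℤ) ^ 2 - 1 := by
          have := Int.natCast_dvd_natCast.2 d1
          push_cast [Nat.cast_sub ‹1 ≤ q ^ 2›] at this
          exact this
        have i2 : (g : ℤ) ∣ (q : ℤ) ^ 2 - q + 1 := by
          have := Int.natCast_dvd_natCast.2 d2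
          push_cast [Nat.cast_sub ‹q ≤ q ^ 2›] at this
          exact this
        have i3 : (g : ℤ) ∣ 3 := by
          obtain ⟨s, hs⟩ := i1
          obtain ⟨t, ht⟩ := i2
          exact ⟨((q : ℤ) + 2) * t - ((q : ℤ) + 1) * s, by
            linear_combination ((q : ℤ) + 2) * ht - ((q : ℤ) + 1) * hs⟩
        exact_mod_cast i3
      have : q + 1 ≤ q ^ 2 - q + 1 := by
        have h2 : 2 * q ≤ q ^ 2 := by rw [pow_two]; exact Nat.mul_le_mul_right q (by omega)
        omega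
      omega
    · rw [← h, ht, Algebra.top_toSubmodule]
  have hset : {x | ∃ g ∈ cycU ρ q, ap g v = x} = SLThree.orbEquiv ρ h3 v hv '' (S : Set E) := by
    ext x
    constructor
    · rintro ⟨_, ⟨k, hk, rfl⟩, rfl⟩
      exact ⟨k, ⟨k, hk, rfl⟩, rfl⟩
    · rintro ⟨_, ⟨k, hk, rfl⟩, rfl⟩
      exact ⟨_, ⟨k, hk, rfl⟩, rfl⟩
  rw [hset, ← LinearEquiv.coe_coe, ← Submodule.map_span, hadj, Submodule.map_top,
    LinearEquiv.range]

/-- A full root group with the torus gives every transvection. -/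
lemma Ctx.hasT_of_inX (hq : 3 ≤ q) {M : Subgroup (GL (Fin 3) F)} (hCM : cycU ρ q ≤ M)
    {u : Fin 3 → F} (hu0 : u ≠ 0) (hu : Unitary.InX C.skew M u) : Unitary.HasT C.skew M := by
  classical
  have hX : ∀ x ∈ {x | ∃ g ∈ cycU ρ q, ap g u = x}, Unitary.InX C.skew M x := by
    rintro _ ⟨g, hg, rfl⟩
    exact Unitary.inX_ap C.skew (hCM hg) (C.cycU_le_group hg).1 hu
  obtain ⟨w, hw, hwu⟩ : ∃ w ∈ {x | ∃ g ∈ cycU ρ q, ap g u = x}, f u w ≠ 0 := by
    by_contra hc
    push Not at hc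
    obtain ⟨⟨y, hy⟩, -⟩ := C.skew.nondegenerate u hu0
    apply hy
    have hy' : y ∈ Submodule.span F {x | ∃ g ∈ cycU ρ q, ap g u = x} := by
      rw [C.span_orbit hq hu0]; exact Submodule.mem_top
    clear hy
    induction hy' using Submodule.span_induction with
    | mem z hz => exact (Unitary.eq_zero_comm C.skew).1 (hc z hz)
    | zero => exact Unitary.zero_left C.skew u
    | add y z _ _ e1 e2 => rw [C.skew.add_left, e1, e2, add_zero]
    | smul c y _ e1 => rw [C.skew.smul_left, e1, mul_zero]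
  obtain ⟨z, hz, hzn⟩ : ∃ z ∈ {x | ∃ g ∈ cycU ρ q, ap g u = x},
      z ∉ Submodule.span F ({u, w} : Set (Fin 3 → F)) := by
    by_contra hc
    push Not at hc
    have hle := Submodule.span_le.2 hc
    rw [C.span_orbit hq hu0] at hle
    have h2 := finrank_span_le_card (R := F) ({u, w} : Set (Fin 3 → F))
    rw [top_le_iff.1 hle, finrank_top, Module.finrank_fin_fun] at h2
    simp only [Set.toFinset_insert, Set.toFinset_singleton] at h2
    have := Finset.card_insert_le u ({w} : Finset (Fin 3 → F))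
    rw [Finset.card_singleton] at this
    omega
  exact hasT_of_three C.skew hu (hX w hw) (hX z hz) hwu hzn

/-- Few involutions: distinct ones lie in distinct cosets of the torus. -/
lemma Ctx.few_involutions (h2 : (2 : F) = 0) {M : Subgroup (GL (Fin 3) F)} (hCM : cycU ρ q ≤ M)
    (hM : M ≤ grp f) :
    Nat.card {s : M // s ≠ 1 ∧ s * s = 1} * (q ^ 2 - q + 1) ≤ Nat.card M := by
  classical
  set D := (cycU ρ q).subgroupOf M
  have hD : Nat.card D = q ^ 2 - q + 1 := by
    rw [Nat.card_congr (Subgroup.subgroupOfEquivOfLe hCM).toEquiv, C.card_cycU]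
  rw [← D.card_mul_index, hD, mul_comm (q ^ 2 - q + 1)]
  refine Nat.mul_le_mul_right _ ?_
  rw [Subgroup.index_eq_card]
  refine Nat.card_le_card_of_injective (fun s => (s.1 : M ⧸ D)) ?_
  rintro ⟨s, hs1, hs⟩ ⟨t, ht1, ht⟩ h
  have hst : s⁻¹ * t ∈ D := QuotientGroup.eq.1 h
  obtain ⟨k, -, hkst⟩ : ∃ k, k ∈ (powMonoidHom (α := Eˣ) (q ^ 2 - q + 1)).ker ∧
      SLThree.unitHom ρ k = ((s⁻¹ * t : M) : GL (Fin 3) F) := hst
  obtain ⟨v, c, hv, -, -, -, hsv⟩ := exists_T_of_sq C.skew h2 (hM s.2).1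
    (fun e => hs1 (Subtype.ext e)) (congrArg Subtype.val hs)
  obtain ⟨v', c', hv', -, -, -, htv⟩ := exists_T_of_sq C.skew h2 (hM t.2).1
    (fun e => ht1 (Subtype.ext e)) (congrArg Subtype.val ht)
  obtain ⟨z, -, hz0, hz⟩ := exists_ne_zero_map_eq_zero (k := 2) (⊤ : Submodule F (Fin 3 → F))
    (LinearMap.pi ![Unitary.fl C.skew v, Unitary.fl C.skew v']) (by simp [finrank_top])
  have hz1 : f z v = 0 := congrFun hz 0
  have hz2 : f z v' = 0 := congrFun hz 1
  have hfix : ∀ (g : GL (Fin 3) F), (g = ((s : M) : GL (Fin 3) F) ∨ g = ((t : M) : GL (Fin 3) F)) →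
      ap g z = z := by
    rintro g (rfl | rfl)
    · rw [hsv, Unitary.ap_T, hz1, mul_zero, zero_smul, add_zero]
    · rw [htv, Unitary.ap_T, hz2, mul_zero, zero_smul, add_zero]
  have hk : ap (SLThree.unitHom ρ k) z = z := by
    rw [hkst, Subgroup.coe_mul, Subgroup.coe_inv, ap_mul, hfix _ (Or.inr rfl)]
    conv_lhs => rw [← hfix _ (Or.inl rfl)]
    exact ap_inv_ap _ _
  have hk1 : k = 1 := by
    by_contra hne
    refine SLThree.mulVec_ne_zero ρ (k := (k : E) - 1)
      (sub_ne_zero.2 fun e => hne (Units.ext e)) hz0 ?_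
    rw [map_sub, map_one, sub_mulVec, one_mulVec, sub_eq_zero]
    exact hk
  rw [hk1, map_one] at hkst
  exact Subtype.ext (inv_mul_eq_one.1 (Subtype.ext hkst.symm))

/-- The dichotomy for overgroups of the normaliser. -/
theorem Ctx.eq_or_eq (hq : 3 ≤ q) (h35 : q ≠ 3 ∧ q ≠ 5) {ζ : F} (hζ : ζ ≠ 0)
    (hfe : f = fun u v => ζ * Cfsg.hermForm 3 F q u v) :
    nrm ρ f < grp f ∧
      ∀ M, nrm ρ f ≤ M → M ≤ grp f → M = nrm ρ f ∨ M = grp f := by
  classical
  subst hfe
  set f : (Fin 3 → F) → (Fin 3 → F) → F := fun u v => ζ * Cfsg.hermForm 3 F q u v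
  set m := q ^ 2 - q + 1 with hm
  have hG : Nat.card (grp f) = m * (q ^ 3 * ((q + 1) ^ 2 * (q - 1))) := by
    rw [card_grp C.card hζ, show q ^ 2 - 1 = (q + 1) * (q - 1) by
      rw [← one_pow 2, Nat.sq_sub_sq, one_pow], ← C.m_identities.1]
    ring
  have hN : Nat.card (nrm ρ f) = 3 * m := C.card_nrm
  have hm0 : 0 < m := Nat.succ_pos _
  refine ⟨lt_of_le_of_ne inf_le_right fun h => ?_, fun M hNM hMG => ?_⟩
  · have e : 3 * m = m * (q ^ 3 * ((q + 1) ^ 2 * (q - 1))) := by rw [← hN, h, hG]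
    rw [mul_comm 3] at e
    have e' := Nat.eq_of_mul_eq_mul_left hm0 e
    have h4 : 4 ≤ q := by omega
    have : 4 ^ 3 * 1 ≤ q ^ 3 * ((q + 1) ^ 2 * (q - 1)) :=
      Nat.mul_le_mul (Nat.pow_le_pow_left h4 3) (Nat.one_le_iff_ne_zero.2
        (mul_ne_zero (pow_ne_zero 2 (by omega)) (by omega)))
    omega
  set j := (nrm ρ f).relIndex M with hj
  set w := M.relIndex (grp f) with hw
  have hMc : Nat.card M = 3 * m * j := by
    rw [← hN, hj, Subgroup.relIndex, ← ((nrm ρ f).subgroupOf M).card_mul_index,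
      Nat.card_congr (Subgroup.subgroupOfEquivOfLe hNM).toEquiv]
  have hjw : 3 * (j * w) = q ^ 3 * ((q + 1) ^ 2 * (q - 1)) := by
    refine Nat.eq_of_mul_eq_mul_left hm0 ?_
    rw [← hG, ← (M.subgroupOf (grp f)).card_mul_index,
      Nat.card_congr (Subgroup.subgroupOfEquivOfLe hMG).toEquiv, hMc, hw, Subgroup.relIndex]
    ring
  have hqq : q ≤ q ^ 2 := Nat.le_self_pow two_ne_zero q
  have hm9 : ¬ 9 ∣ m := by
    intro h
    have h' : ((m : ℕ) : ZMod 9) = 0 := (ZMod.natCast_eq_zero_iff m 9).2 h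
    rw [hm, Nat.cast_add, Nat.cast_sub hqq, Nat.cast_pow, Nat.cast_one] at h'
    revert h'
    generalize (q : ZMod 9) = x
    revert x
    decide
  obtain ⟨d, mb, hd, hdm, hdt, hdq, hco⟩ : ∃ d mb, (d = 1 ∨ d = 3) ∧ d * mb = m ∧
      (∀ t, t ∣ m → t ∣ 9 → t ∣ d) ∧ (d = 3 → 3 ∣ q + 1) ∧ Nat.Coprime 3 mb := by
    by_cases h3 : 3 ∣ m
    · refine ⟨3, m / 3, Or.inr rfl, Nat.mul_div_cancel' h3, fun t ht ht9 => ?_, fun _ => ?_, ?_⟩
      · obtain ⟨i, hi, rfl⟩ :=
          (Nat.dvd_prime_pow Nat.prime_three).1 (show t ∣ 3 ^ 2 by simpa using ht9)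
        interval_cases i <;> simp_all
      · have h' : ((m : ℕ) : ZMod 3) = 0 := (ZMod.natCast_eq_zero_iff m 3).2 h3
        rw [hm, Nat.cast_add, Nat.cast_sub hqq, Nat.cast_pow, Nat.cast_one] at h'
        rw [← ZMod.natCast_eq_zero_iff, Nat.cast_add, Nat.cast_one]
        revert h'
        generalize (q : ZMod 3) = x
        revert x
        decide
      · exact (Nat.Prime.coprime_iff_not_dvd Nat.prime_three).2 fun h =>
          hm9 ((Nat.mul_div_cancel' h3) ▸ Nat.mul_dvd_mul_left 3 h)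
    · refine ⟨1, m, Or.inl rfl, one_mul _, fun t ht ht9 => ?_, fun h => absurd h (by norm_num),
        (Nat.Prime.coprime_iff_not_dvd Nat.prime_three).2 h3⟩
      have : t ∣ Nat.gcd (3 ^ 2) m := Nat.dvd_gcd (by simpa using ht9) ht
      rwa [Nat.Coprime.gcd_eq_one (Nat.Coprime.pow_left _
        ((Nat.Prime.coprime_iff_not_dvd Nat.prime_three).2 h3))] at this
  have hmod : j ≡ 1 [MOD mb] := C.index_modEq hNM hMG hdt hdm
  obtain ⟨p, hp⟩ := CharP.exists F
  obtain ⟨n, hpp, hpn⟩ := FiniteField.card F p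
  obtain ⟨k, -, hqk⟩ := (Nat.dvd_prime_pow hpp).1 (show q ∣ p ^ (n : ℕ) by
    rw [← hpn, C.card]; exact dvd_pow_self q two_ne_zero)
  rcases SingerArith.index_cases hpp hqk hq h35 hd hdq hco hdm hjw hmod with h | h | h
  · exact Or.inl (le_antisymm (Subgroup.relIndex_eq_one.1 h) hNM)
  · exact Or.inr (le_antisymm hMG (Subgroup.relIndex_eq_one.1 h))
  · right
    have h2 : (2 : F) = 0 := by
      have hev : Even (Fintype.card F) := by
        rcases h with ⟨rfl, -⟩ | ⟨rfl, -⟩ <;> rw [C.card] <;> decide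
      by_contra h0
      have hchar : ringChar F ≠ 2 := fun e => h0 (by
        have := ringChar.Nat.cast_ringChar (R := F)
        rw [e] at this
        exact_mod_cast this)
      exact Nat.not_even_iff_odd.2 (Nat.odd_iff.2 (FiniteField.odd_card_of_char_ne_two hchar)) hev
    have hCM : cycU ρ q ≤ M :=
      (le_inf (C.cycU_le_cyc.trans (@SLThree.cyc_le_normalizer _ _ _ _ _ ρ C.finiteE))
        C.cycU_le_group).trans hNM
    have S : Small q σ f M := ⟨C.card, C.conj, C.skew, h2, hMG, C.few_involutions h2 hCM hMG⟩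
    obtain ⟨u, hu0, hu⟩ := S.exists_inX (by
      rcases h with ⟨rfl, h⟩ | ⟨rfl, h | h⟩
      · exact Or.inl ⟨rfl, by rw [hMc, hm, h]; norm_num⟩
      · exact Or.inr ⟨rfl, Or.inl (by rw [hMc, hm, h]; norm_num)⟩
      · exact Or.inr ⟨rfl, Or.inr (by rw [hMc, hm, h]; norm_num)⟩)
    exact le_antisymm hMG (le_of_hasT C.card hq hζ C.skew (C.hasT_of_inX hq hCM hu0 hu))

omit C

/-- The normaliser of a cubic field closed under adjoints is maximal in `SU₃(q)`, `q ≠ 3, 5`. -/
theorem singer_isMaximalIn (hF : Fintype.card F = q ^ 2) (hq : 3 ≤ q) (h3 : q ≠ 3) (h5 : q ≠ 5)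
    (K : Subalgebra F (Matrix (Fin 3) (Fin 3) F)) (hK : Cfsg.Geo.IsFieldSubalgebra 3 K)
    (hac : Cfsg.Geo.IsAdjointClosedFor (Cfsg.hermForm 3 F q) K) :
    Cfsg.Geo.IsMaximalIn (Cfsg.GU 3 F q ⊓ Cfsg.Geo.specialLinear (Fin 3) F)
      (Cfsg.Geo.subalgebraNormalizer K ⊓ (Cfsg.GU 3 F q ⊓ Cfsg.Geo.specialLinear (Fin 3) F)) := by
  classical
  obtain ⟨τ, hτ, hh⟩ := isUnitaryForm_hermForm (F := F) 3 q hF
  obtain ⟨ζ, hζ, hf⟩ := exists_skewForm_of_unitary hh
  let : Field K := ExtF.fieldOfSubalg hK (by norm_num)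
  have C : Ctx K.val q τ (fun u v => ζ * Cfsg.hermForm 3 F q u v) :=
    { finrank := hK.finrank_eq
      card := hF
      conj := hτ
      skew := hf
      adj := fun e => by
        obtain ⟨k', hk', he⟩ := hac _ e.2
        exact ⟨⟨k', hk'⟩, fun u v => congrArg (ζ * ·) (he u v)⟩ }
  have h := C.eq_or_eq hq ⟨h3, h5⟩ hζ rfl
  have e : nrm K.val (fun u v => ζ * Cfsg.hermForm 3 F q u v) =
      Cfsg.Geo.subalgebraNormalizer K ⊓ grp (fun u v => ζ * Cfsg.hermForm 3 F q u v) := by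
    rw [nrm, show K.val.range = K from Subalgebra.range_val K]
  rw [e, grp, isom_mul_const hζ] at h
  exact ⟨h.1, h.2⟩

end CfsgLib.Geometric.SUThree.Singer
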