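import Cfsg.Agent.Lib.Geometric.SUThree.Basic

/-!
The stabilisers of an isotropic and of an anisotropic point are maximal in `SU₃(q)`.
-/

set_option autoImplicit false

namespace CfsgLib.Geometric.SUThree

open Matrix CfsgLib.Geometric.Unitary

variable {F : Type*} [Field F]

/-- The standard skew-hermitian form with the same special isometries. -/
lemma exists_setup [Fintype F] {q : ℕ} (hF : Fintype.card F = q ^ 2) :
    ∃ (σ : F ≃+* F) (ζ : F) (_ : ζ ≠ 0)
      (hf : IsSkewForm σ (fun u v => ζ * Cfsg.hermForm 3 F q u v)),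
      (∀ x, σ x = x ^ q) ∧ Cfsg.GU 3 F q ⊓ Cfsg.Geo.specialLinear (Fin 3) F = sisom hf := by
  obtain ⟨σ, hσ, hh⟩ := CfsgLib.Geometric.isUnitaryForm_hermForm (F := F) 3 q hF
  obtain ⟨ζ, hζ, hf⟩ := exists_skewForm_of_unitary hh
  exact ⟨σ, ζ, hζ, hf, hσ, by rw [sisom, isom_mul_const hζ]; rfl⟩

variable {σ : F ≃+* F} {f : (Fin 3 → F) → (Fin 3 → F) → F} (hf : IsSkewForm σ f)
include hf

/-- The stabiliser of an isotropic point. -/
theorem isotropicPoint_isMaximalIn
    (hle : ∀ M : Subgroup (GL (Fin 3) F), HasT hf M → sisom hf ≤ M)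
    {W : Submodule F (Fin 3 → F)} (h0 : W ≠ ⊥) (hW : Cfsg.Geo.IsTotallySingularFor f W) :
    Cfsg.Geo.IsMaximalIn (sisom hf) (Cfsg.Geo.subspaceStabilizer W ⊓ sisom hf) := by
  obtain ⟨u, hu, hu0⟩ := Submodule.exists_mem_ne_zero_of_ne_bot h0
  have huu : f u u = 0 := hW u hu u hu
  have hline : ∀ v ∈ W, ∃ c : F, v = c • u := fun v hv =>
    exists_smul_of_orth hf huu hu0 (hW v hv v hv) (hW u hu v hv)
  obtain ⟨p, hpp, hpu⟩ := exists_partner hf huu hu0
  have hup : f u p ≠ 0 := fun h => one_ne_zero (hpu ▸ (eq_zero_comm hf).mp h)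
  refine ⟨stab_lt hf hu hpp hup (fun h => ?_), fun M hHM hMS => ?_⟩
  · exact hup (hW u hu p h)
  by_cases hM : M ≤ Cfsg.Geo.subspaceStabilizer W
  · exact Or.inl (le_antisymm (le_inf hM hMS) hHM)
  refine Or.inr (le_antisymm hMS (hle M (hasT_of_inX hf fun v hvv => ?_)))
  obtain ⟨g, hgM, hg⟩ := SetLike.not_le_iff_exists.mp hM
  have hgI := (hMS hgM).1
  have hXu : InX hf M u := inX_of_mem hf hHM huu (Or.inl hu)
  obtain ⟨x, hx, hxW⟩ := exists_ap_notMem hg
  obtain ⟨c, rfl⟩ := hline x hx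
  have hgu : ap g u ∉ W := fun h => hxW (by rw [ap_smul]; exact W.smul_mem c h)
  have hXg := inX_ap hf hgM hgI hXu
  by_cases hv : ∃ c : F, v = c • u
  · obtain ⟨c, rfl⟩ := hv
    exact inX_smul hf hXu c
  push Not at hv
  have hvu : f v u ≠ 0 := fun h =>
    ne_zero_of_not_mem hf huu hu0 hvv hv ((eq_zero_comm hf).mp h)
  have hgu' : f (ap g u) u ≠ 0 := fun h =>
    ne_zero_of_not_mem hf huu hu0 hXg.1 (fun c e => hgu (e ▸ W.smul_mem c hu))
      ((eq_zero_comm hf).mp h)
  set w := (f (ap g u) u)⁻¹ • ap g u with hwdef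
  set y := (f v u)⁻¹ • v with hydef
  have hXw : InX hf M w := inX_smul hf hXg _
  have hyy : f y y = f w w := by rw [isotropic_smul hf hvv, hXw.1]
  obtain ⟨hz, e, he, hm⟩ := exists_E_move hf huu (w := w) (y := y)
    (by rw [hwdef, hf.smul_left, inv_mul_cancel₀ hgu'])
    (by rw [hydef, hf.smul_left, inv_mul_cancel₀ hvu]) hyy
  have hE : E hf u (y - w) e huu hz ∈ M := hHM
    ⟨mem_subspaceStabilizer_of_mapsTo _ _ fun x hx => by
      obtain ⟨c, rfl⟩ := hline x hx
      rw [ap_smul, ap_E hf, huu, (eq_zero_comm hf).mp hz]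
      simpa using W.smul_mem c hu, E_mem hf he⟩
  have h4 := inX_ap hf hE (E_mem hf he).1 hXw
  rw [hm] at h4
  have := inX_smul hf h4 (f v u)
  rwa [hydef, smul_smul, mul_inv_cancel₀ hvu, one_smul] at this

/-- The stabiliser of an anisotropic point. -/
theorem anisotropicPoint_isMaximalIn [Finite F]
    (hle : ∀ M : Subgroup (GL (Fin 3) F), HasT hf M → sisom hf ≤ M)
    {W : Submodule F (Fin 3 → F)} (h0 : W ≠ ⊥) (hW : Cfsg.Geo.IsNondegenerateOn f W)
    (hdim : 2 * Module.finrank F W < 3) :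
    Cfsg.Geo.IsMaximalIn (sisom hf) (Cfsg.Geo.subspaceStabilizer W ⊓ sisom hf) := by
  have hW1 : Module.finrank F W = 1 := by
    have := Submodule.one_le_finrank_iff.mpr h0
    omega
  have hS := perp_nondegenerate hf hW
  have hS2 : Module.finrank F (perp hf W) = 2 := by
    have := finrank_add_perp hf hW
    rw [Fintype.card_fin] at this
    omega
  obtain ⟨u, hu, hu0, huu⟩ := exists_isotropic hf hS hS2.ge
  obtain ⟨p, hp, hpu⟩ := (hS u hu hu0).1
  obtain ⟨l, hl⟩ := exists_isotropic_shift hf huu hpu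
  set w := p + l • u with hwdef
  have hw : w ∈ perp hf W := (perp hf W).add_mem hp ((perp hf W).smul_mem l hu)
  have hwu : f w u ≠ 0 := by
    rwa [hwdef, hf.add_left, hf.smul_left, huu, mul_zero, add_zero]
  have huw : f u w ≠ 0 := fun h => hwu ((eq_zero_comm hf).mp h)
  have hspan : Submodule.span F ({u, w} : Set (Fin 3 → F)) = perp hf W := by
    have hle' : Submodule.span F ({u, w} : Set (Fin 3 → F)) ≤ perp hf W :=
      Submodule.span_le.mpr (Set.insert_subset_iff.mpr ⟨hu, Set.singleton_subset_iff.mpr hw⟩)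
    refine Submodule.eq_of_le_of_finrank_le hle' ?_
    have hli : LinearIndependent F ![u, w] := by
      rw [LinearIndependent.pair_iff]
      intro a b hab
      have hb : b = 0 := by
        have := congrArg (fun z => f z u) hab
        simpa [hf.add_left, hf.smul_left, huu, hwu, zero_left hf] using this
      subst hb
      exact ⟨by simpa [hu0] using hab, rfl⟩
    have := finrank_span_eq_card hli
    rw [Matrix.range_cons, Matrix.range_cons, Matrix.range_empty, Set.union_empty,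
      Set.singleton_union] at this
    rw [this, hS2, Fintype.card_fin]
  have hnotsub : ¬ Cfsg.Geo.IsTotallySingularFor f W := fun h => by
    obtain ⟨a, ha, ha0⟩ := Submodule.exists_mem_ne_zero_of_ne_bot h0
    obtain ⟨x, hx, hne⟩ := (hW a ha ha0).1
    exact hne (h x hx a ha)
  refine ⟨?_, fun M hHM hMS => ?_⟩
  · -- move an anisotropic vector of the line by a transvection off it
    obtain ⟨a, ha, ha0⟩ := Submodule.exists_mem_ne_zero_of_ne_bot h0
    have haa : f a a ≠ 0 := by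
      intro h
      obtain ⟨x, hx, hne⟩ := (hW a ha ha0).2
      obtain ⟨c, rfl⟩ : ∃ c : F, c • a = x := (finrank_eq_one_iff_of_nonzero' (⟨a, ha⟩ : W)
        (fun e => ha0 (congrArg Subtype.val e))).mp hW1 ⟨x, hx⟩ |>.imp fun c hc =>
          congrArg Subtype.val hc
      exact hne (by rw [smul_right hf, h, mul_zero])
    obtain ⟨ν, hν⟩ := exists_sub_eq hf (s := -f a a) (by rw [map_neg, skew_self hf])
    -- an isotropic vector meeting both `W` and its orthogonal
    set z := a + w + (σ (ν / f w u)) • u with hzdef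
    have hau : f a u = 0 := (eq_zero_comm hf).mp (hu a ha)
    have haw : f a w = 0 := (eq_zero_comm hf).mp (hw a ha)
    have hww : f w w = 0 := hl
    have huw' : f u w = -σ (f w u) := hf.skew u w
    have hzz : f z z = 0 := by
      rw [hzdef]
      simp only [hf.add_left, add_right hf, hf.smul_left, smul_right hf, huu, hww, hau, haw,
        hu a ha, hw a ha, huw', hf.involutive, map_div₀]
      have hne' : σ (f w u) ≠ 0 := by rwa [ne_eq, EmbeddingLike.map_eq_zero_iff]
      field_simp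
      linear_combination (f w u * σ (f w u)) * hν
    refine stab_lt hf ha hzz ?_ fun hz => ?_
    · rw [hzdef, add_right hf, add_right hf, smul_right hf, haw, hau]
      simpa using haa
    · have h1 : w + (σ (ν / f w u)) • u ∈ W := by
        have := W.sub_mem hz ha
        rwa [hzdef, show a + w + (σ (ν / f w u)) • u - a = w + (σ (ν / f w u)) • u by abel] at this
      have h2 := hu _ h1
      rw [add_right hf, smul_right hf, huu, mul_zero, add_zero] at h2
      exact huw h2
  by_cases hM : M ≤ Cfsg.Geo.subspaceStabilizer W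
  · exact Or.inl (le_antisymm (le_inf hM hMS) hHM)
  refine Or.inr (le_antisymm hMS (hle M ?_))
  obtain ⟨g, hgM, hg⟩ := SetLike.not_le_iff_exists.mp hM
  have hgI := (hMS hgM).1
  have hXu : InX hf M u := inX_of_mem hf hHM huu (Or.inr hu)
  have hXw : InX hf M w := inX_of_mem hf hHM hl (Or.inr hw)
  by_cases hgu : ap g u ∈ perp hf W
  · by_cases hgw : ap g w ∈ perp hf W
    · refine absurd (mem_stab_of_perp hf hgI fun y hy => ?_) hg
      obtain ⟨α, β, rfl⟩ := Submodule.mem_span_pair.mp (hspan ▸ hy)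
      rw [ap_add, ap_smul, ap_smul]
      exact (perp hf W).add_mem ((perp hf W).smul_mem _ hgu) ((perp hf W).smul_mem _ hgw)
    · exact hasT_of_three hf hXu hXw (inX_ap hf hgM hgI hXw) huw (hspan ▸ hgw)
  · exact hasT_of_three hf hXu hXw (inX_ap hf hgM hgI hXu) huw (hspan ▸ hgu)

omit hf in
/-- The two point stabilisers in the form of the standard hermitian form. -/
theorem points_isMaximalIn [Fintype F] (q : ℕ) (hF : Fintype.card F = q ^ 2) (hq : 3 ≤ q) :
    (∀ W : Submodule F (Fin 3 → F), W ≠ ⊥ →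
      Cfsg.Geo.IsTotallySingularFor (Cfsg.hermForm 3 F q) W →
      Cfsg.Geo.IsMaximalIn (Cfsg.GU 3 F q ⊓ Cfsg.Geo.specialLinear (Fin 3) F)
        (Cfsg.Geo.subspaceStabilizer W ⊓ (Cfsg.GU 3 F q ⊓ Cfsg.Geo.specialLinear (Fin 3) F))) ∧
    (∀ W : Submodule F (Fin 3 → F), W ≠ ⊥ →
      Cfsg.Geo.IsNondegenerateOn (Cfsg.hermForm 3 F q) W → 2 * Module.finrank F W < 3 →
      Cfsg.Geo.IsMaximalIn (Cfsg.GU 3 F q ⊓ Cfsg.Geo.specialLinear (Fin 3) F)
        (Cfsg.Geo.subspaceStabilizer W ⊓ (Cfsg.GU 3 F q ⊓ Cfsg.Geo.specialLinear (Fin 3) F))) := by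
  obtain ⟨σ, ζ, hζ, hf, -, hG⟩ := exists_setup (F := F) hF
  have hle := fun M hM => le_of_hasT (M := M) hF hq hζ hf hM
  rw [hG]
  refine ⟨fun W h0 hW => isotropicPoint_isMaximalIn hf hle h0 fun x hx y hy => by
      simp [hW x hx y hy],
    fun W h0 hW hd => anisotropicPoint_isMaximalIn hf hle h0 (fun x hx hx0 => ?_) hd⟩
  obtain ⟨⟨a, ha, h1⟩, ⟨b, hb, h2⟩⟩ := hW x hx hx0
  exact ⟨⟨a, ha, mul_ne_zero hζ h1⟩, ⟨b, hb, mul_ne_zero hζ h2⟩⟩

end CfsgLib.Geometric.SUThree
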