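import Cfsg.Agent.Lib.Geometric.SUThree.SubfieldTwo

/-!
Subfield groups of odd prime degree are maximal in three dimensional special unitary groups.
-/

set_option autoImplicit false

namespace CfsgLib.Geometric.SUThree

open Matrix
open LSubfld (RatV ratF_apply exists_ratF_sep)
open SSubfld (em em_add em_smul em_zero em_injective em_ne_zero ratV_em)
open USubfld (fixed tr' tr'_eq ap_tr' conj_tr' f₀ σ₀ isSkew₀ lam)

/-- The subfield group of a rational structure of a skew-hermitian form is maximal, once the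
transvections generate. -/
theorem subfieldOdd_isMaximalIn {F : Type*} [Field F] [Finite F] {σ : F ≃+* F}
    {f : (Fin 3 → F) → (Fin 3 → F) → F} (hf : IsSkewForm σ f) {F₀ : Subfield F}
    (hrat : ∀ u v, RatV F₀ u → RatV F₀ v → f u v ∈ F₀) (hσ : ∀ x, x ∈ F₀ → σ x ∈ F₀)
    {ω : F} (hω : ω ∈ F₀) (hω' : σ ω ≠ ω) {r : ℕ} (hr : r.Prime) (hr2 : r ≠ 2)
    (hcard : Nat.card (fixed σ) = Nat.card (F₀.comap (fixed σ).subtype) ^ r)
    (hgen : ∀ M : Subgroup (GL (Fin 3) F), Unitary.HasT hf M → Unitary.sisom hf ≤ M) :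
    Cfsg.Geo.IsMaximalIn (Unitary.sisom hf)
      (Cfsg.Geo.subfieldSubgroup F₀ (1 : GL (Fin 3) F) ⊓ Unitary.sisom hf) := by
  classical
  have hf₀ := isSkew₀ hf hrat hσ hω hω'
  obtain ⟨u, e, -, huu₀, hee₀, heu₀⟩ := exists_pair hf hrat hσ hω hω'
  have he0 : e ≠ 0 := fun h => by
    rw [h, Unitary.zero_left hf₀] at heu₀; exact zero_ne_one heu₀
  refine ⟨lt_of_le_of_ne inf_le_right fun heq => ?_, fun M hHM hMS => ?_⟩
  · -- a transvection with a multiplier outside the subfield
    obtain ⟨μ, hμ⟩ : ∃ μ : fixed σ, (μ : F) ∉ F₀ := by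
      by_contra h
      push Not at h
      have : Nat.card (F₀.comap (fixed σ).subtype) = Nat.card (fixed σ) :=
        Nat.card_congr (Equiv.subtypeUnivEquiv h)
      rw [this] at hcard
      have h1 : 1 = r := Nat.pow_right_injective Finite.one_lt_card (by simpa using hcard)
      exact hr.one_lt.ne h1
    have hee : f (em e) (em e) = 0 := congrArg Subtype.val hee₀
    have heu : f (em e) (em u) = 1 := congrArg Subtype.val heu₀
    have hue : f (em u) (em e) = -1 := by rw [hf.skew, heu, map_one]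
    have hm : tr' hf (em e) (μ : F) ∈
        Cfsg.Geo.subfieldSubgroup F₀ (1 : GL (Fin 3) F) ⊓ Unitary.sisom hf := by
      rw [heq, tr'_eq hf hee]; exact Unitary.T_mem hf hee μ.2
    obtain ⟨c, x, hx, hc⟩ := Subfld.lineRat_of_mem hm.1
      (show Subfld.Rat F₀ (1 : GL (Fin 3) F) (em u) from fun l => by simpa using ratV_em u l)
    have hx' : RatV F₀ x := fun l => by simpa using hx l
    rw [ap_tr' hf hee] at hc
    obtain ⟨χ, hχ, hχe, hχp⟩ := exists_ratF_sep (F₀ := F₀) (ratV_em e) (em_ne_zero he0)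
      (v := em u) (fun h => by
        obtain ⟨t, ht⟩ := Submodule.mem_span_singleton.1 h
        rw [← ht, hf.smul_left, hee, mul_zero] at hue
        simp at hue)
    obtain ⟨ξ, hξ, hξp, hξe⟩ := exists_ratF_sep (F₀ := F₀) (ratV_em u)
      (em_ne_zero (fun h => by
        rw [h, Unitary.zero_right hf₀] at heu₀
        exact zero_ne_one heu₀)) (v := em e) (fun h => by
        obtain ⟨t, ht⟩ := Submodule.mem_span_singleton.1 h
        rw [← ht, hf.smul_left, show f (em u) (em u) = 0 from congrArg Subtype.val huu₀,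
          mul_zero] at heu
        simp at heu)
    have e1 := congrArg χ hc
    have e2 := congrArg ξ hc
    simp only [map_add, map_smul, hχe, hξp, hue, smul_eq_mul, mul_zero, add_zero, zero_add] at e1 e2
    have hχx : χ x ≠ 0 := fun h => hχp (by rw [e1, h, mul_zero])
    apply hμ
    rw [show (μ : F) = -(χ (em u) / χ x * ξ x) / ξ (em e) by
      rw [eq_div_iff hξe, e1, mul_div_cancel_right₀ _ hχx, ← e2]; ring]
    exact div_mem (neg_mem (mul_mem (div_mem (ratF_apply hχ (ratV_em u)) (ratF_apply hχ hx'))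
      (ratF_apply hξ hx'))) (ratF_apply hξ (ratV_em e))
  have hMI : M ≤ isom f := hMS.trans inf_le_left
  have hM : ∀ (v : Fin 3 → F₀), f₀ hrat v v = 0 → ∀ c, c ∈ F₀ → σ c = c →
      tr' hf (em v) c ∈ M := by
    intro v hv c hc hσc
    refine hHM ⟨Subfld.mem_of_rat fun z hz i => ?_, ?_⟩
    · have hz' : RatV F₀ z := fun j => by simpa using hz j
      simpa [ap_tr' hf (congrArg Subtype.val hv)] using
        add_mem (hz' i) (mul_mem (mul_mem hc (hrat _ _ hz' (ratV_em v))) (ratV_em v i))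
    · rw [tr'_eq hf (congrArg Subtype.val hv)]
      exact Unitary.T_mem hf _ hσc
  by_cases htop : lam hf hrat hσ hω hω' (M := M) = ⊤
  · exact Or.inr (le_antisymm hMS (hgen M (hasT_of_all hf hrat hσ hω hω' hMI hM
      fun μ => htop ▸ Submodule.mem_top)))
  left
  have hΛ := lam_cases hf hrat hσ hω hω' hMI hM hr hcard htop
  refine le_antisymm (le_inf (fun g hg => ?_) hMS) hHM
  refine le_subfieldSubgroup hf hrat hσ hω hω' hMI hM hΛ hg fun x hx => ?_
  by_cases h3 : 3 ≤ Nat.card (F₀.comap (fixed σ).subtype)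
  · have hc := mul_mem (mul_mem hg (hM x hx 1 (one_mem F₀) (map_one σ))) (inv_mem hg)
    rw [conj_tr' hf (hMI hg) (congrArg Subtype.val hx)] at hc
    have hw := Unitary.isotropic_ap hf (hMI hg) (congrArg Subtype.val hx : f (em x) (em x) = 0)
    exact centre_lineRat hf hrat hσ hω hω' hw
      (norm_mem hf hrat hσ hω hω' hMI hM hr hcard hr2 h3 hΛ hw hc)
  · -- the subfield has four elements
    have hK : ∀ c ∈ F₀, σ c = c → c = 0 ∨ c = 1 := by
      intro c hc hσc
      have h2 : Nat.card (F₀.comap (fixed σ).subtype) = 2 := by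
        have : 1 < Nat.card (F₀.comap (fixed σ).subtype) := Finite.one_lt_card
        omega
      have h := CfsgLib.Derangements.PSL2.subfield_pow_card (F₀.comap (fixed σ).subtype)
        (show (⟨c, hσc⟩ : fixed σ) ∈ F₀.comap (fixed σ).subtype from hc)
      rw [h2] at h
      have h' : c ^ 2 = c := congrArg Subtype.val h
      have : c * (c - 1) = 0 := by linear_combination h'
      exact (mul_eq_zero.1 this).imp id sub_eq_zero.1
    exact line_of_two hf hrat hσ hω hω' hK hMS hM hHM hΛ hg hx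

/-- In three dimensions every subfield group of odd prime degree is maximal in the special unitary
group (conjunct for subfields of odd degree of the geometric types of `SU₃`). -/
theorem subfieldOdd {F : Type*} [Field F] [Fintype F] (q : ℕ) (hF : Fintype.card F = q ^ 2)
    (hq : 3 ≤ q) (F₀ : Subfield F) (r : ℕ) (P : Matrix.GeneralLinearGroup (Fin 3) F)
    (hr : r.Prime) (hodd : Odd r) (hcard : Fintype.card F = Nat.card F₀ ^ r)
    (hP : Cfsg.Geo.IsFormRationalStructure (Cfsg.hermForm 3 F q) F₀ 1 P) :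
    Cfsg.Geo.IsMaximalIn (Cfsg.GU 3 F q ⊓ Cfsg.Geo.specialLinear (Fin 3) F)
      (Cfsg.Geo.subfieldSubgroup F₀ P ⊓ (Cfsg.GU 3 F q ⊓ Cfsg.Geo.specialLinear (Fin 3) F)) := by
  classical
  obtain ⟨σ, -, hh⟩ := CfsgLib.Geometric.isUnitaryForm_hermForm (F := F) 3 q hF
  rw [← Nat.card_eq_fintype_card] at hcard
  obtain ⟨hσ, ω, hω, hω'⟩ :=
    CfsgLib.Geometric.exists_moved_of_odd_degree hh.ne_refl hh.involutive hodd hcard
  have h1 := CfsgLib.Geometric.card_eq_sq_comap hh.involutive hσ hω hω'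
  have h2 := CfsgLib.Geometric.card_eq_sq_comap hh.involutive (L := ⊤)
    (fun _ _ => Subfield.mem_top _) (Subfield.mem_top ω) hω'
  have hT : Nat.card (⊤ : Subfield F) = Nat.card F :=
    Nat.card_congr (Equiv.subtypeUnivEquiv fun x => Subfield.mem_top x)
  have hKc : Nat.card ((⊤ : Subfield F).comap (fixed σ).subtype) = Nat.card (fixed σ) :=
    Nat.card_congr (Equiv.subtypeUnivEquiv fun x => Subfield.mem_top (x : F))
  rw [hT, hKc, hcard, h1, ← pow_mul, mul_comm, pow_mul] at h2
  have hcard' := (Nat.pow_left_injective (n := 2) (by norm_num) h2).symm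
  set h := Cfsg.hermForm 3 F q with hdef
  set ζ := ω - σ ω
  have hζ : ζ ≠ 0 := sub_ne_zero.2 (Ne.symm hω')
  have hζσ : σ ζ = -ζ := by simp [ζ, hh.involutive]
  have skew : ∀ P : GL (Fin 3) F, IsSkewForm σ (fun u v => ζ * h (ap P u) (ap P v)) := fun P => by
    refine ⟨hh.ne_refl, hh.involutive, fun x y v => ?_, fun c x v => ?_, fun v w => ?_,
      fun v hv => ?_⟩
    · simp only [ap_add, hh.add_left, mul_add]
    · simp only [ap_smul, hh.smul_left]; ring
    · rw [map_mul, hζσ, hh.herm (ap P v) (ap P w)]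
      ring
    · obtain ⟨⟨z, hz⟩, ⟨y, hy⟩⟩ := hh.nondegenerate _ (ap_ne_zero P hv)
      exact ⟨⟨ap P⁻¹ z, by simp [ap_ap_inv, hζ, hz]⟩, ⟨ap P⁻¹ y, by simp [ap_ap_inv, hζ, hy]⟩⟩
  have hf₁ := skew P
  have hf₂ : IsSkewForm σ (fun u v => ζ * h u v) := by simpa using skew 1
  have hSL : (Cfsg.Geo.specialLinear (Fin 3) F).map (MulAut.conj P).toMonoidHom =
      Cfsg.Geo.specialLinear (Fin 3) F := by
    have : (Cfsg.Geo.specialLinear (Fin 3) F).Normal := by
      unfold Cfsg.Geo.specialLinear; infer_instance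
    ext g
    rw [Subgroup.mem_map_equiv, MulAut.conj_symm_apply]
    exact ⟨fun h => by simpa [mul_assoc] using this.conj_mem _ h P,
      fun h => by simpa [mul_assoc] using this.conj_mem _ h P⁻¹⟩
  have hI : (Unitary.sisom hf₁).map (MulAut.conj P).toMonoidHom =
      isom h ⊓ Cfsg.Geo.specialLinear (Fin 3) F := by
    rw [Subgroup.map_inf _ _ _ (MulAut.conj P).injective, map_conj_isom h hζ P, hSL]
  have hI₂ : Unitary.sisom hf₂ = isom h ⊓ Cfsg.Geo.specialLinear (Fin 3) F := by
    rw [← isom_mul_const hζ h]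
  have := isMaximalIn_map_equiv (subfieldOdd_isMaximalIn hf₁ (F₀ := F₀)
    (fun u v hu hv => mul_mem (sub_mem hω (hσ _ hω))
      (by simpa [ap_def] using hP u v hu hv))
    hσ hω hω' hr (fun e => by rw [e] at hodd; exact absurd hodd (by decide)) hcard'
    (fun M hM => by
      -- transfer the transvections to the standard form
      have hT₂ : Unitary.HasT hf₂ (M.map (MulAut.conj P).toMonoidHom) := by
        intro v hv c hc
        have hv' : ζ * h (ap P (ap P⁻¹ v)) (ap P (ap P⁻¹ v)) = 0 := by rwa [ap_ap_inv]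
        refine ⟨_, hM (ap P⁻¹ v) hv' c hc, gl_ext fun z => ?_⟩
        show ap (P * _ * P⁻¹) z = _
        rw [ap_mul, ap_mul, Unitary.ap_T hf₁, Unitary.ap_T hf₂, ap_add, ap_smul, ap_ap_inv,
          ap_ap_inv]
      have hle := le_of_hasT hF hq hζ hf₂ hT₂
      rw [hI₂, ← hI] at hle
      exact (Subgroup.map_le_map_iff_of_injective (MulAut.conj P).injective).1 hle))
    (MulAut.conj P)
  rw [hI, Subgroup.map_inf _ _ _ (MulAut.conj P).injective, hI] at this
  unfold Cfsg.GU
  convert this using 2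
  rw [Cfsg.Geo.subfieldSubgroup, Cfsg.Geo.subfieldSubgroup,
    map_one (MulAut.conj (G := GL (Fin 3) F)), Subgroup.map_map]
  rfl

end CfsgLib.Geometric.SUThree
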