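import Cfsg.Agent.Lib.SL2.Dickson.Normalise
import Cfsg.Agent.Lib.SL2.Dickson.Generation
import Cfsg.Agent.Lib.Derangements.PSL2Field

/-!
Subgroups of `SL₂` of a field of odd prime degree over `K₀` containing the upper translations over
`K₀` and a lower element outside `K₀`.
-/

set_option autoImplicit false

open Matrix
open scoped MatrixGroups
open CfsgLib.ClassicalLinear (upS upS_coe upS_add upS_injective)
open CfsgLib.SL2.Dickson (lowS lowS_coe transl mem_transl mem_borelPart)

namespace CfsgLib.Geometric.SUThree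

variable {K : Type*} [Field K]

/-- Rescaling the two coordinates of `SL₂`. -/
noncomputable def rescale {γ : K} (hγ : γ ≠ 0) : SL(2, K) →* SL(2, K) where
  toFun g := ⟨!![g.1 0 0, γ * g.1 0 1; γ⁻¹ * g.1 1 0, g.1 1 1], by
    have h := CfsgLib.SL2.det_eq g
    rw [Matrix.det_fin_two_of]
    field_simp
    linear_combination h⟩
  map_one' := by
    apply Subtype.ext
    ext i j
    fin_cases i <;> fin_cases j <;> simp
  map_mul' g h := by
    apply Subtype.ext
    change (!![(g.1 * h.1) 0 0, γ * (g.1 * h.1) 0 1; γ⁻¹ * (g.1 * h.1) 1 0, (g.1 * h.1) 1 1] :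
        Matrix (Fin 2) (Fin 2) K) =
      !![g.1 0 0, γ * g.1 0 1; γ⁻¹ * g.1 1 0, g.1 1 1] *
        !![h.1 0 0, γ * h.1 0 1; γ⁻¹ * h.1 1 0, h.1 1 1]
    ext i j
    fin_cases i <;> fin_cases j <;>
      simp [Matrix.mul_apply, Fin.sum_univ_two] <;> field_simp

lemma rescale_coe {γ : K} (hγ : γ ≠ 0) (g : SL(2, K)) :
    (rescale hγ g : Matrix (Fin 2) (Fin 2) K) = !![g.1 0 0, γ * g.1 0 1; γ⁻¹ * g.1 1 0, g.1 1 1] :=
  rfl

lemma rescale_upS {γ : K} (hγ : γ ≠ 0) (x : K) : rescale hγ (upS x) = upS (γ * x) := by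
  apply Subtype.ext
  rw [rescale_coe, upS_coe, upS_coe]
  ext i j
  fin_cases i <;> fin_cases j <;> simp

lemma rescale_lowS {γ : K} (hγ : γ ≠ 0) (x : K) : rescale hγ (lowS x) = lowS (γ⁻¹ * x) := by
  apply Subtype.ext
  rw [rescale_coe, lowS_coe, lowS_coe]
  ext i j
  fin_cases i <;> fin_cases j <;> simp

variable [Finite K]

/-- The translations over `K₀` and a lower element not over `K₀` give another translation. -/
theorem exists_upS_notMem {K₀ : Subfield K} {r : ℕ} (hr : r.Prime) (hr2 : r ≠ 2)
    (hcard : Nat.card K = Nat.card K₀ ^ r) (h3 : 3 ≤ Nat.card K₀) {G : Subgroup SL(2, K)}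
    (hG : ∀ c ∈ K₀, upS c ∈ G) {γ : K} (hγ : γ ∉ K₀) (hl : lowS γ ∈ G) :
    ∃ x, x ∉ K₀ ∧ upS x ∈ G := by
  classical
  by_contra hc
  push Not at hc
  have hK : ∀ x, upS x ∈ G → x ∈ K₀ := fun x hx => by_contra fun h => hc x h hx
  have hγ0 : γ ≠ 0 := fun h => hγ (h ▸ zero_mem K₀)
  set G' := G.map (rescale hγ0) with hG'
  have hup : ∀ y, upS y ∈ G' → γ⁻¹ * y ∈ K₀ := by
    rintro y ⟨g, hg, he⟩
    have hinj : Function.Injective (rescale hγ0) := by
      intro a b hab
      apply Subtype.ext
      have h : ∀ i j, ((rescale hγ0 a).1 i j : K) = (rescale hγ0 b).1 i j := by simp [hab]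
      ext i j
      fin_cases i <;> fin_cases j
      · simpa [rescale_coe] using h 0 0
      · simpa [rescale_coe, hγ0] using h 0 1
      · simpa [rescale_coe, hγ0] using h 1 0
      · simpa [rescale_coe] using h 1 1
    have : g = upS (γ⁻¹ * y) := hinj (by rw [he, rescale_upS, mul_inv_cancel_left₀ hγ0])
    exact hK _ (this ▸ hg)
  have hup' : ∀ c ∈ K₀, upS (γ * c) ∈ G' := fun c hc => ⟨_, hG c hc, rescale_upS hγ0 c⟩
  have hlow : lowS (1 : K) ∈ G' := ⟨_, hl, by rw [rescale_lowS, inv_mul_cancel₀ hγ0]⟩
  have hu : upS γ ∈ G' := by simpa using hup' 1 (one_mem K₀)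
  set G₁ := G' ⊔ Subgroup.center SL(2, K)
  have hle : G' ≤ G₁ := le_sup_left
  have hA : ∀ y, y ∈ transl G₁ ↔ γ⁻¹ * y ∈ K₀ := by
    refine fun y => ⟨fun hy => ?_, fun hy => mem_transl.2 (hle ?_)⟩
    · obtain ⟨g, hg, z, hz, he⟩ := Subgroup.mem_sup_of_normal_right.1 (mem_transl.1 hy)
      rcases (CfsgLib.SL2.mem_center_iff z).1 hz with rfl | rfl
      · rw [mul_one] at he
        exact hup y (he ▸ hg)
      · by_cases h2 : (2 : K) = 0
        · have h1 : (-1 : SL(2, K)) = 1 := by
            have e : (-1 : K) = 1 := by linear_combination -h2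
            apply Subtype.ext
            ext i j
            simp [Matrix.one_apply, apply_ite, e]
          rw [h1, mul_one] at he
          exact hup y (he ▸ hg)
        · have h2y : γ⁻¹ * (y + y) ∈ K₀ := hup _ (by
            rw [upS_add, ← he]
            simpa using mul_mem hg hg)
          have := div_mem h2y (ofNat_mem K₀ 2)
          convert this using 1
          field_simp
          ring
    · have := hup' _ hy
      rwa [mul_inv_cancel_left₀ hγ0] at this
  have hcardA : Nat.card (transl G₁) = Nat.card K₀ :=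
    Nat.card_congr
      { toFun := fun y => ⟨γ⁻¹ * y, (hA y).1 y.2⟩
        invFun := fun c => ⟨γ * c, (hA _).2 (by rw [inv_mul_cancel_left₀ hγ0]; exact c.2)⟩
        left_inv := fun y => Subtype.ext (by simp [hγ0])
        right_inv := fun c => Subtype.ext (by simp [hγ0]) }
  have hne : K₀ ≠ ⊤ := fun h => hγ (h ▸ Subfield.mem_top γ)
  have hsame : ∀ R : Subfield K, Nat.card R = Nat.card K₀ → γ ∈ R → False := by
    intro R hR hγR
    apply hγ
    rw [CfsgLib.Derangements.PSL2.mem_subfield_iff] at hγR ⊢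
    rwa [hR] at hγR
  have hthree : Nat.card (transl G₁) = 3 → False := by
    intro e
    rw [hcardA] at e
    have h2 : (2 : K) ≠ 0 := by
      intro h
      have h' : (2 : K₀) = 0 := by
        apply Subtype.ext
        simpa [show ((2 : K₀) : K) = 2 from map_ofNat K₀.subtype 2] using h
      have := Fintype.ofFinite K₀
      have hc : ringChar K₀ = 2 := CharP.ringChar_of_prime_eq_zero Nat.prime_two
        (by exact_mod_cast h')
      have := FiniteField.even_card_of_char_two hc
      rw [← Nat.card_eq_fintype_card, e] at this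
      omega
    have hgen : Subfield.closure ({γ} : Set K) = ⊤ := by
      set R := Subfield.closure ({γ} : Set K)
      by_contra hR
      have h1 := Module.natCard_eq_pow_finrank (K := R) (V := K)
      set m := Module.finrank R K
      obtain ⟨p, hp, hchar, -⟩ := CfsgLib.SL2.exists_charP (F := K)
      have hpow : Nat.card R ^ m = 3 ^ r := by rw [← h1, hcard, e]
      have hm0 : 0 < m := Module.finrank_pos
      obtain ⟨j, -, hj⟩ := (Nat.dvd_prime_pow Nat.prime_three).1
        (hpow ▸ dvd_pow_self (Nat.card R) hm0.ne')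
      rw [hj, ← pow_mul] at hpow
      have hjm := Nat.pow_right_injective (le_refl 2 |>.trans (by norm_num)) hpow
      rcases (Nat.dvd_prime hr).1 (Dvd.intro _ hjm) with h | h
      · exact hsame R (by rw [hj, h, e, pow_one]) (Subfield.subset_closure rfl)
      · apply hR
        rw [eq_top_iff]
        intro x _
        rw [CfsgLib.Derangements.PSL2.mem_subfield_iff, hj, h, ← e, ← hcard]
        have := Fintype.ofFinite K
        rw [Nat.card_eq_fintype_card]
        exact FiniteField.pow_card x
    rcases CfsgLib.SL2.Dickson.generation h2 hγ0 hgen hlow hu with h | ⟨h9, -⟩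
    · apply hne
      rw [eq_top_iff]
      intro x _
      have := hup (γ * x) (h ▸ Subgroup.mem_top _)
      rwa [inv_mul_cancel_left₀ hγ0] at this
    · rw [hcard, e, show (9 : ℕ) = 3 ^ 2 by norm_num] at h9
      exact hr2 (Nat.pow_right_injective (by norm_num) h9)
  rcases CfsgLib.SL2.Dickson.structure_modular (G := G₁) le_sup_right (hle hu) hγ0 with
    h | ⟨h2, -⟩ | ⟨e, -⟩ | ⟨e, -⟩ | ⟨k, hk2, hkq, hrg, hcG, hidx, d, hd, htd, -, hcd, hnd⟩
  · have := (h ▸ Subgroup.mem_top _ : (⟨lowS 1, hle hlow⟩ : G₁) ∈ CfsgLib.SL2.Dickson.borelPart G₁)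
    rw [mem_borelPart] at this
    simp [lowS_coe] at this
  · omega
  · exact hthree e
  · exact hthree e
  obtain ⟨R, P, hR, hcont, -⟩ :=
    CfsgLib.SL2.Dickson.structure_subfield le_sup_right hk2 hkq hrg hcG hidx hd htd hcd hnd
  refine hsame R (hR.trans hcardA) ?_
  by_cases h2 : (2 : K) = 0
  · -- the group is the conjugate of `SL₂(R)`
    choose h hh he using hcont
    have hinj : Function.Injective h := by
      intro a b hab
      have h1 : (h a : Matrix (Fin 2) (Fin 2) K) = (h b : Matrix (Fin 2) (Fin 2) K) := by rw [hab]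
      rw [he, he] at h1
      exact Subtype.ext (Matrix.map_injective R.subtype.injective
        ((P.mul_right_inj).1 ((P⁻¹).mul_left_inj.1 h1)))
    set n := Nat.card (transl G₁)
    have hk : k = n - 1 := by
      rcases hkq with e | e
      · exact e
      · exfalso
        have hn : 2 ∣ Nat.card R := by
          have := Fintype.ofFinite R
          have h' : (2 : R) = 0 := by
            apply Subtype.ext
            simpa [show ((2 : R) : K) = 2 from map_ofNat R.subtype 2] using h2
          rw [Nat.card_eq_fintype_card]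
          exact Nat.dvd_of_mod_eq_zero (FiniteField.even_card_of_char_two
            (CharP.ringChar_of_prime_eq_zero Nat.prime_two (by exact_mod_cast h')))
        rw [hR] at hn
        omega
    have hc : Nat.card G₁ ≤ Nat.card SL(2, R) := by
      rw [hcG, CfsgLib.SL2.card_SL, hR, CfsgLib.SL2.center_eq_bot_of_two h2, Subgroup.card_bot,
        one_mul, hk, show n ^ 2 - 1 = (n + 1) * (n - 1) from Nat.sq_sub_sq n 1]
      exact le_of_eq (by ring)
    let θ : SL(2, R) → G₁ := fun g => ⟨h g, hh g⟩
    have hbij : Function.Bijective θ :=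
      (Function.Injective.bijective_of_nat_card_le (fun a b hab => hinj (congrArg Subtype.val hab))
        hc)
    obtain ⟨g, hg⟩ := hbij.2 ⟨lowS 1 * upS γ, hle (mul_mem hlow hu)⟩
    have h1 : (h g : Matrix (Fin 2) (Fin 2) K) = (lowS 1 * upS γ : SL(2, K)) :=
      congrArg (fun z : G₁ => ((z : SL(2, K)) : Matrix (Fin 2) (Fin 2) K)) hg
    have h4 := congrArg Matrix.trace h1
    rw [he, Matrix.trace_units_conj, Matrix.trace_fin_two, Matrix.trace_fin_two] at h4
    simp only [Matrix.map_apply, Matrix.SpecialLinearGroup.coe_mul, lowS_coe, upS_coe] at h4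
    simp [Matrix.mul_apply, Fin.sum_univ_two] at h4
    have e : γ = ((g : Matrix (Fin 2) (Fin 2) R) 0 0 : K) + (g : Matrix (Fin 2) (Fin 2) R) 1 1 := by
      linear_combination -h4 - h2
    rw [e]
    exact R.add_mem (SetLike.coe_mem _) (SetLike.coe_mem _)
  · exact (CfsgLib.SL2.Dickson.mem_subfield_of_subfield_case h2 (hcardA ▸ h3) hR hkq hcG hcont
      (hle hlow) (hle hu)).1

end CfsgLib.Geometric.SUThree
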