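import Cfsg.Agent.Lib.Geometric.UnitarySubfieldOdd
import Cfsg.Agent.Lib.Geometric.SUThree.Basic
import Cfsg.Agent.Lib.Geometric.SUThree.SubfieldSL2

/-!
Rational geometry, transvection multipliers and centres for odd subfield groups in three dimensional
unitary groups.
-/

set_option autoImplicit false

namespace CfsgLib.Geometric.SUThree

open Matrix
open scoped MatrixGroups
open LSubfld (RatV)
open SSubfld (em em_add em_sub em_smul em_zero em_injective em_ne_zero ratV_em)
open USubfld (fixed tr' tr'_eq ap_tr' conj_tr' tr'_smul tr'_add tr'_zero f₀ σ₀ isSkew₀ exists_norm₀ lam)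

variable {F : Type*} [Field F] {σ : F ≃+* F} {f : (Fin 3 → F) → (Fin 3 → F) → F}
  (hf : IsSkewForm σ f)

include hf in
/-- Coordinates in a frame. -/
lemma decomp {e u n : Fin 3 → F} (he : f e e = 0) (hu : f u u = 0) (hue : f u e = 1)
    (hne : f n e = 0) (hnu : f n u = 0) (hnn : f n n ≠ 0) (x : Fin 3 → F) :
    x = (-f x u) • e + f x e • u + (f x n / f n n) • n := by
  obtain ⟨a, -, -, haa, hx⟩ := exists_frame hf he hu hue
  have h := hx n
  rw [hne, hnu, neg_zero, zero_smul, zero_smul, zero_add, zero_add] at h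
  set k := f n a / f a a
  have h1 : f x n = σ k * f x a := by rw [h, Unitary.smul_right hf]
  have h2 : f n n = k * σ k * f a a := by
    rw [h, hf.smul_left, Unitary.smul_right hf]; ring
  conv_lhs => rw [hx x]
  rw [h1, h2, h, smul_smul]
  congr 2
  have hk : k ≠ 0 := fun e => hnn (by rw [h2, e]; ring)
  have hk' : σ k ≠ 0 := by simpa using hk
  field_simp

/-- The lifts to a hyperbolic plane of elements of `SL₂` over the fixed field. -/
noncomputable def planeGroup [Finite F] (σ : F ≃+* F) (M : Subgroup (GL (Fin 3) F))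
    (e u : Fin 3 → F) : Subgroup SL(2, fixed σ) :=
  let W := Submodule.span F {e, u}
  let Lift : SL(2, fixed σ) → GL (Fin 3) F → Prop := fun s h =>
    (∀ z, ap h z - z ∈ W) ∧ ap h e = (s.1 0 0 : F) • e + (s.1 1 0 : F) • u ∧
      ap h u = (s.1 0 1 : F) • e + (s.1 1 1 : F) • u
  let S : Submonoid SL(2, fixed σ) :=
    { carrier := {s | ∃ h ∈ M, Lift s h}
      one_mem' := ⟨1, one_mem M, fun x => by simp, by simp, by simp⟩
      mul_mem' := by
        rintro s t ⟨g, hg, g1, g2, g3⟩ ⟨h, hh, h1, h2, h3⟩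
        refine ⟨g * h, mul_mem hg hh, fun x => ?_, ?_, ?_⟩
        · rw [ap_mul, ← sub_add_sub_cancel (ap g (ap h x)) (ap h x) x]
          exact W.add_mem (g1 _) (h1 x)
        · rw [ap_mul, h2, ap_add, ap_smul, ap_smul, g2, g3]
          simp only [Matrix.SpecialLinearGroup.coe_mul, Matrix.mul_apply, Fin.sum_univ_two,
            Subfield.coe_add, Subfield.coe_mul]
          module
        · rw [ap_mul, h3, ap_add, ap_smul, ap_smul, g2, g3]
          simp only [Matrix.SpecialLinearGroup.coe_mul, Matrix.mul_apply, Fin.sum_univ_two,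
            Subfield.coe_add, Subfield.coe_mul]
          module }
  { S with
    inv_mem' := fun {s} hs => by
      have e : s⁻¹ = s ^ (orderOf s - 1) := by
        refine inv_eq_of_mul_eq_one_right ?_
        rw [← pow_succ', Nat.sub_add_cancel (orderOf_pos s), pow_orderOf_eq_one]
      show s⁻¹ ∈ S
      rw [e]
      exact S.pow_mem hs _ }

section Plane

variable [Finite F] {M : Subgroup (GL (Fin 3) F)} {e u : Fin 3 → F} (he : f e e = 0)
  (hu : f u u = 0) (heu : f e u = 1)
include hf he hu heu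

lemma upS_mem_planeGroup {c : fixed σ} (h : tr' hf e (-(c : F)) ∈ M) :
    CfsgLib.ClassicalLinear.upS c ∈ planeGroup σ M e u := by
  have hue : f u e = -1 := by rw [hf.skew, heu, map_one]
  refine ⟨_, h, fun z => ?_, ?_, ?_⟩
  · rw [ap_tr' hf he, add_sub_cancel_left]
    exact Submodule.smul_mem _ _ (Submodule.subset_span (by simp))
  · simp [ap_tr' hf he, he, CfsgLib.ClassicalLinear.upS_coe]
  · simp [ap_tr' hf he, hue, CfsgLib.ClassicalLinear.upS_coe]; module

lemma lowS_mem_planeGroup {c : fixed σ} (h : tr' hf u (c : F) ∈ M) :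
    CfsgLib.SL2.Dickson.lowS c ∈ planeGroup σ M e u := by
  refine ⟨_, h, fun z => ?_, ?_, ?_⟩
  · rw [ap_tr' hf hu, add_sub_cancel_left]
    exact Submodule.smul_mem _ _ (Submodule.subset_span (by simp))
  · simp [ap_tr' hf hu, heu, CfsgLib.SL2.Dickson.lowS_coe]
  · simp [ap_tr' hf hu, hu, CfsgLib.SL2.Dickson.lowS_coe]

lemma tr'_mem_of_upS (hMI : M ≤ isom f) {y : fixed σ}
    (h : CfsgLib.ClassicalLinear.upS y ∈ planeGroup σ M e u) : tr' hf e (-(y : F)) ∈ M := by
  have hue : f u e = -1 := by rw [hf.skew, heu, map_one]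
  obtain ⟨h, hh, hW, hhe, hhu⟩ := h
  simp only [CfsgLib.ClassicalLinear.upS_coe, Matrix.of_apply, Matrix.cons_val',
    Matrix.cons_val_zero, Matrix.cons_val_one, Matrix.cons_val_fin_one, OneMemClass.coe_one,
    ZeroMemClass.coe_zero, one_smul, zero_smul, add_zero] at hhe hhu
  have hσy : σ (y : F) = y := y.2
  have hT : h = tr' hf e (-(y : F)) := by
    apply gl_ext
    intro z
    obtain ⟨a, b, hab⟩ := Submodule.mem_span_pair.1 (hW z)
    have hhz : ap h z = z + a • e + b • u := by
      rw [add_assoc, hab, add_sub_cancel]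
    have h2 := (mem_isom_iff.1 (hMI hh)) z e
    rw [hhe, hhz] at h2
    simp only [hf.add_left, hf.smul_left, he, hue] at h2
    have hb : b = 0 := by linear_combination -h2
    have h3 := (mem_isom_iff.1 (hMI hh)) z u
    rw [hhu, hhz, hb, zero_smul, add_zero] at h3
    simp only [hf.add_left, Unitary.add_right hf, hf.smul_left, Unitary.smul_right hf, he, heu,
      hσy] at h3
    rw [hhz, ap_tr' hf he, hb, zero_smul, add_zero]
    congr 2
    linear_combination h3
  exact hT ▸ hh

end Plane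

variable {F₀ : Subfield F} (hrat : ∀ u v, RatV F₀ u → RatV F₀ v → f u v ∈ F₀)
  (hσ : ∀ x, x ∈ F₀ → σ x ∈ F₀) {ω : F} (hω : ω ∈ F₀) (hω' : σ ω ≠ ω)
include hf hσ hω hω'

/-- An element of norm one in the subfield that is moved. -/
lemma exists_unit_circle : ∃ η ∈ F₀, η * σ η = 1 ∧ σ η ≠ η := by
  have key : ∀ x ∈ F₀, σ x ≠ x → σ x ≠ -x → ∃ η ∈ F₀, η * σ η = 1 ∧ σ η ≠ η := by
    intro x hx h1 h2
    have hx0 : x ≠ 0 := fun h => h1 (by rw [h, map_zero])
    have hsx : σ x ≠ 0 := by simpa using hx0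
    refine ⟨x / σ x, div_mem hx (hσ x hx), ?_, ?_⟩
    · rw [map_div₀, hf.involutive]; field_simp
    · rw [map_div₀, hf.involutive, ne_eq, div_eq_div_iff hx0 hsx]
      intro h
      rcases mul_self_eq_mul_self_iff.1 h with e | e
      · exact h1 e
      · exact h2 e
  by_cases h : σ ω = -ω
  · refine key (ω + 1) (add_mem hω (one_mem F₀)) (fun e => hω' ?_) (fun e => hω' ?_)
    · rw [map_add, map_one] at e; linear_combination e
    · rw [map_add, map_one, h] at e
      have h2 : (2 : F) = 0 := by linear_combination e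
      rw [h]; linear_combination -ω * h2
  · exact key ω hω hω' h

variable [Finite F]

include hrat

lemma exists_pair : ∃ e u : Fin 3 → F₀, e ≠ 0 ∧ f₀ hrat e e = 0 ∧ f₀ hrat u u = 0 ∧
    f₀ hrat u e = 1 := by
  have hf₀ := isSkew₀ hf hrat hσ hω hω'
  obtain ⟨e, -, he0, hee⟩ := Unitary.exists_isotropic hf₀ (S := ⊤) (fun x _ hx => by
    obtain ⟨⟨y, hy⟩, ⟨z, hz⟩⟩ := hf₀.nondegenerate x hx
    exact ⟨⟨y, trivial, hy⟩, ⟨z, trivial, hz⟩⟩)
    (by rw [finrank_top, Module.finrank_fintype_fun_eq_card]; simp)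
  obtain ⟨u, huu, hue⟩ := exists_partner hf₀ hee he0
  exact ⟨e, u, he0, hee, huu, hue⟩

/-- Isotropic vectors over the subfield span. -/
lemma iso_induction {C : (Fin 3 → F₀) → Prop} (hiso : ∀ x, f₀ hrat x x = 0 → C x)
    (hadd : ∀ x y, C x → C y → C (x + y)) (x : Fin 3 → F₀) : C x := by
  have hf₀ := isSkew₀ hf hrat hσ hω hω'
  obtain ⟨u, w, hu0, huu, -, hwu⟩ := exists_pair hf hrat hσ hω hω'
  have one : ∀ x, f₀ hrat x u ≠ 0 → C x := by
    intro x hx
    obtain ⟨l, hl⟩ := Unitary.exists_isotropic_shift hf₀ huu hx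
    have := hadd _ _ (hiso _ hl) (hiso ((-l) • u) (Unitary.isotropic_smul hf₀ huu _))
    convert this using 1
    module
  by_cases hx : f₀ hrat x u = 0
  · have h1 := one (x + w) (by rw [hf₀.add_left, hx, zero_add, hwu]; exact one_ne_zero)
    have h2 := one (-w) (by rw [Unitary.neg_left hf₀, hwu, neg_ne_zero]; exact one_ne_zero)
    convert hadd _ _ h1 h2 using 1
    abel
  · exact one x hx

lemma eq_zero_of_rat {w : Fin 3 → F} (h : ∀ x : Fin 3 → F₀, f₀ hrat x x = 0 → f (em x) w = 0) :
    w = 0 := by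
  have hall : ∀ x : Fin 3 → F₀, f (em x) w = 0 :=
    iso_induction hf hrat hσ hω hω' (C := fun x => f (em x) w = 0) h
      (fun x y hx hy => by rw [em_add, hf.add_left, hx, hy, add_zero])
  by_contra hw
  obtain ⟨z, hz⟩ := (hf.nondegenerate w hw).1
  obtain ⟨i, hi⟩ := LSubfld.exists_single_ne (φ := Unitary.fl hf w) (fun e => hz (by
    have := LinearMap.congr_fun e z
    rwa [Unitary.fl_apply, LinearMap.zero_apply] at this))
  rw [Unitary.fl_apply, ← SSubfld.em_single (F₀ := F₀) i] at hi
  exact hi (hall _)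

/-- An isotropic vector whose values at isotropic rational vectors have norms in the subfield is on
a rational line. -/
theorem centre_lineRat {w : Fin 3 → F} (hw : f w w = 0)
    (hN : ∀ v : Fin 3 → F₀, f₀ hrat v v = 0 → f (em v) w * σ (f (em v) w) ∈ F₀) :
    ∃ (c : F) (x : Fin 3 → F₀), w = c • em x := by
  have hf₀ := isSkew₀ hf hrat hσ hω hω'
  by_cases hw0 : w = 0
  · exact ⟨0, 0, by rw [hw0, zero_smul]⟩
  have main : ∀ e u n : Fin 3 → F₀, f₀ hrat e e = 0 → f₀ hrat u u = 0 → f₀ hrat u e = 1 →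
      f₀ hrat n e = 0 → f₀ hrat n u = 0 → f₀ hrat n n ≠ 0 → f (em e) w ≠ 0 → f (em n) w ≠ 0 →
      ∃ (c : F) (x : Fin 3 → F₀), w = c • em x := by
    intro e u n he hu hue hne hnu hnn ha hd
    set a := f (em e) w with hadef
    set b := f (em u) w with hbdef
    set d := f (em n) w with hddef
    set ν := f₀ hrat n n with hν
    obtain ⟨η, hη, hη1, hη'⟩ := exists_unit_circle hf hσ hω hω'
    have hsη : σ η ∈ F₀ := hσ η hη
    have heu : f₀ hrat e u = -1 := by rw [hf₀.skew, hue, map_one]
    have hen := (Unitary.eq_zero_comm hf₀).mp hne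
    have hun := (Unitary.eq_zero_comm hf₀).mp hnu
    -- norms along isotropic vectors
    have hval : ∀ x : F₀, x - σ₀ hf hσ x = ν → ∀ z : F₀, z * σ₀ hf hσ z = 1 →
        ((x : F) * a + b + z * d) * σ ((x : F) * a + b + z * d) ∈ F₀ := by
      intro x hx z hz
      have h := hN (x • e + u + z • n) (by
        simp only [hf₀.add_left, Unitary.add_right hf₀, hf₀.smul_left, Unitary.smul_right hf₀,
          he, hu, hue, heu, hne, hnu, hen, hun, ← hν]
        linear_combination (-1 : F₀) * hx + ν * hz)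
      simpa [em_add, em_smul, hf.add_left, hf.smul_left] using h
    have hW : ∀ x : F₀, x - σ₀ hf hσ x = ν → ((x : F) * a + b) * σ d ∈ F₀ := by
      intro x hx
      obtain ⟨W, hWdef⟩ : ∃ W, W = ((x : F) * a + b) * σ d := ⟨_, rfl⟩
      have h0 := hval x hx 1 (by simp)
      have h1 := hval x hx ⟨η, hη⟩ (Subtype.ext hη1)
      have h2 := hval x hx ⟨σ η, hsη⟩ (Subtype.ext (by
        show σ η * σ (σ η) = 1
        rw [hf.involutive, mul_comm, hη1]))
      have s1 : (σ η - 1) * W + (η - 1) * σ W ∈ F₀ := by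
        have := sub_mem h1 h0
        convert this using 1
        rw [hWdef]
        simp only [map_mul, map_add, map_one, hf.involutive, Subfield.coe_one]
        linear_combination (-(d * σ d)) * hη1
      have s2 : (η - 1) * W + (σ η - 1) * σ W ∈ F₀ := by
        have := sub_mem h2 h0
        convert this using 1
        rw [hWdef]
        simp only [map_mul, map_add, map_one, hf.involutive, Subfield.coe_one]
        linear_combination (-(d * σ d)) * hη1
      have hden : (σ η - η) * (σ η + η - 2) ≠ 0 := by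
        refine mul_ne_zero (sub_ne_zero.2 hη') fun h => ?_
        have e1 : σ η = 2 - η := by linear_combination h
        have e2 : (η - 1) * (η - 1) = 0 := by
          rw [e1] at hη1; linear_combination -hη1
        have e3 : η = 1 := sub_eq_zero.1 (mul_self_eq_zero.1 e2)
        exact hη' (by rw [e3, map_one])
      rw [← hWdef, show W = ((σ η - 1) * ((σ η - 1) * W + (η - 1) * σ W) -
          (η - 1) * ((η - 1) * W + (σ η - 1) * σ W)) / ((σ η - η) * (σ η + η - 2)) by
        rw [eq_div_iff hden]; ring]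
      exact div_mem (sub_mem (mul_mem (sub_mem hsη (one_mem F₀)) s1)
        (mul_mem (sub_mem hη (one_mem F₀)) s2))
        (mul_mem (sub_mem hsη hη) (sub_mem (add_mem hsη hη) (ofNat_mem F₀ 2)))
    obtain ⟨x, hx⟩ := Unitary.exists_sub_eq hf₀ (Unitary.skew_self hf₀ n)
    rw [← hν] at hx
    have hA : a * σ d ∈ F₀ := by
      have := sub_mem (hW (x + 1) (by rw [map_add, map_one, ← hx]; ring)) (hW x hx)
      convert this using 1
      rw [Subfield.coe_add, Subfield.coe_one]
      ring
    have hB : b * σ d ∈ F₀ := by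
      have := sub_mem (hW x hx) (mul_mem x.2 hA)
      convert this using 1
      ring
    have hsd : σ d ≠ 0 := by simpa using hd
    have hba : b / a ∈ F₀ := by
      rw [← mul_div_mul_right b a hsd]; exact div_mem hB hA
    have hda : d / a ∈ F₀ := by
      have hsa : σ a ≠ 0 := by simpa using ha
      rw [← mul_div_mul_right d a hsa, mul_comm d]
      refine div_mem ?_ (hN e he)
      have := hσ _ hA
      rwa [map_mul, hf.involutive] at this
    refine ⟨σ a, (⟨σ (b / a), hσ _ hba⟩ : F₀) • e - u -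
      ((⟨σ (d / a), hσ _ hda⟩ : F₀) / ν) • n, ?_⟩
    have hd1 := decomp hf (x := w) (e := em e) (u := em u) (n := em n) (congrArg Subtype.val he)
      (congrArg Subtype.val hu) (congrArg Subtype.val hue) (congrArg Subtype.val hne)
      (congrArg Subtype.val hnu) (fun h => hnn (Subtype.ext h))
    rw [hd1, hf.skew w (em u), hf.skew w (em e), hf.skew w (em n), ← hadef, ← hbdef, ← hddef]
    have hsa : σ a ≠ 0 := by simpa using ha
    simp only [em_sub, em_smul, Subfield.coe_div, map_div₀,
      show f (em n) (em n) = (ν : F) from rfl]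
    match_scalars <;> field_simp
  obtain ⟨e, hee, ha⟩ : ∃ e : Fin 3 → F₀, f₀ hrat e e = 0 ∧ f (em e) w ≠ 0 := by
    by_contra h
    push Not at h
    exact hw0 (eq_zero_of_rat hf hrat hσ hω hω' h)
  have he0 : e ≠ 0 := fun h => ha (by rw [h, em_zero, Unitary.zero_left hf])
  obtain ⟨u, huu, hue⟩ := exists_partner hf₀ hee he0
  obtain ⟨n, hne, hnu, hnn, -⟩ := exists_frame hf₀ hee huu hue
  by_cases hd : f (em n) w = 0
  swap
  · exact main e u n hee huu hue hne hnu hnn ha hd
  -- move the partner off the plane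
  have heu : f₀ hrat e u = -1 := by rw [hf₀.skew, hue, map_one]
  have hen := (Unitary.eq_zero_comm hf₀).mp hne
  have hun := (Unitary.eq_zero_comm hf₀).mp hnu
  obtain ⟨x, hx⟩ := Unitary.exists_sub_eq hf₀ (Unitary.skew_self hf₀ n)
  set u' := x • e + u + n with hu'
  have huu' : f₀ hrat u' u' = 0 := by
    simp only [hu', hf₀.add_left, Unitary.add_right hf₀, hf₀.smul_left, Unitary.smul_right hf₀,
      hee, huu, hue, heu, hne, hnu, hen, hun]
    linear_combination (-1 : F₀) * hx
  have hue' : f₀ hrat u' e = 1 := by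
    simp [hu', hf₀.add_left, hf₀.smul_left, hee, hue, hne]
  obtain ⟨n', hne', hnu', hnn', -⟩ := exists_frame hf₀ hee huu' hue'
  refine main e u' n' hee huu' hue' hne' hnu' hnn' ha fun hd' => ?_
  -- otherwise the vector would be in both planes
  have h1 := decomp hf (x := w) (e := em e) (u := em u') (n := em n') (congrArg Subtype.val hee)
    (congrArg Subtype.val huu') (congrArg Subtype.val hue') (congrArg Subtype.val hne')
    (congrArg Subtype.val hnu') (fun h => hnn' (Subtype.ext h))
  rw [(Unitary.eq_zero_comm hf).mp hd', zero_div, zero_smul, add_zero] at h1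
  have h2 : f w (em n) = 0 := (Unitary.eq_zero_comm hf).mp hd
  rw [h1, hu', em_add, em_add, em_smul] at h2
  simp only [hf.add_left, hf.smul_left,
    show f (em e) (em n) = 0 from congrArg Subtype.val hen,
    show f (em u) (em n) = 0 from congrArg Subtype.val hun, mul_zero, zero_add] at h2
  rcases mul_eq_zero.1 h2 with h | h
  · exact ha ((Unitary.eq_zero_comm hf).mp h)
  · exact hnn (Subtype.ext h)

variable {M : Subgroup (GL (Fin 3) F)} (hMI : M ≤ isom f)
  (hM : ∀ (v : Fin 3 → F₀), f₀ hrat v v = 0 → ∀ c, c ∈ F₀ → σ c = c → tr' hf (em v) c ∈ M)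
include hMI hM

/-- A multiplier at one rational isotropic vector occurs at all. -/
lemma mem_lam {μ : fixed σ} {v : Fin 3 → F₀} (hv : v ≠ 0) (hvv : f₀ hrat v v = 0)
    (h : tr' hf (em v) (μ : F) ∈ M) : μ ∈ lam hf hrat hσ hω hω' (M := M) := by
  have hf₀ := isSkew₀ hf hrat hσ hω hω'
  have one : ∀ {x y : Fin 3 → F₀}, f₀ hrat x x = 0 → f₀ hrat y y = 0 → f₀ hrat x y = 1 →
      (tr' hf (em x) (μ : F) ∈ M ↔ tr' hf (em y) (μ : F) ∈ M) := by
    intro x y hxx hyy hxy
    have hyx : f₀ hrat y x = -1 := by rw [hf₀.skew, hxy, map_one]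
    have hw : f₀ hrat (y - x) (y - x) = 0 := by
      simp [Unitary.sub_left hf₀, Unitary.sub_right hf₀, hxx, hyy, hxy, hyx]
    have hg := hM _ hw 1 (one_mem F₀) (map_one σ)
    have hxx' : f (em x) (em x) = 0 := congrArg Subtype.val hxx
    have hw' : f (em (y - x)) (em (y - x)) = 0 := congrArg Subtype.val hw
    have hgx : ap (tr' hf (em (y - x)) 1) (em x) = em y := by
      rw [ap_tr' hf hw', em_sub, Unitary.sub_right hf,
        show f (em x) (em y) = 1 from congrArg Subtype.val hxy, hxx', sub_zero, one_mul, one_smul,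
        add_sub_cancel]
    rw [← hgx, ← conj_tr' hf (hMI hg) hxx']
    exact ⟨fun h => mul_mem (mul_mem hg h) (inv_mem hg), fun h => by
      have := mul_mem (mul_mem (inv_mem hg) h) hg
      simpa [mul_assoc] using this⟩
  have gen : ∀ {x y : Fin 3 → F₀}, f₀ hrat x x = 0 → f₀ hrat y y = 0 → f₀ hrat x y ≠ 0 →
      tr' hf (em x) (μ : F) ∈ M → tr' hf (em y) (μ : F) ∈ M := by
    intro x y hxx hyy hxy hx
    set τ := f₀ hrat x y with hτ
    have hτ' : σ₀ hf hσ τ ≠ 0 := by simpa using hxy
    have hx0 : x ≠ 0 := fun e => hxy (by rw [hτ, e, Unitary.zero_left hf₀])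
    set y' := (f₀ hrat y x)⁻¹ • y with hy'
    have hyx0 : f₀ hrat y x ≠ 0 := fun e => hxy ((Unitary.eq_zero_comm hf₀).mp e)
    have hy'y' : f₀ hrat y' y' = 0 := Unitary.isotropic_smul hf₀ hyy _
    have hy'x : f₀ hrat y' x = 1 := by rw [hy', hf₀.smul_left, inv_mul_cancel₀ hyx0]
    obtain ⟨n, hnx, hny', hnn, -⟩ := exists_frame hf₀ hxx hy'y' hy'x
    have hny : f₀ hrat n y = 0 := by
      rw [hy', Unitary.smul_right hf₀] at hny'
      exact (mul_eq_zero.1 hny').resolve_left (by simpa using inv_ne_zero hyx0)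
    have hxn := (Unitary.eq_zero_comm hf₀).mp hnx
    have hyn := (Unitary.eq_zero_comm hf₀).mp hny
    have hskew := hf₀.skew y x
    rw [← hτ] at hskew
    set ν := f₀ hrat n n with hν
    set a := -τ⁻¹ with ha
    set b := (σ₀ hf hσ τ)⁻¹ with hb
    have hσν : σ₀ hf hσ ν = -ν := Unitary.skew_self hf₀ n
    obtain ⟨t, ht⟩ := Unitary.exists_norm hf₀ (c := -(a + b) / ν) (by
      rw [map_div₀, map_neg, map_add, hσν, ha, hb, map_neg, map_inv₀, map_inv₀, hf₀.involutive]
      rw [neg_div_neg_eq]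
      ring)
    set z := a • x + b • y + t • n with hz
    have hzz : f₀ hrat z z = 0 := by
      simp only [hz, hf₀.add_left, Unitary.add_right hf₀, hf₀.smul_left, Unitary.smul_right hf₀,
        hxx, hyy, hnx, hny, hxn, hyn, ← hν, ← hτ, hskew, ha, hb, map_inv₀, map_neg, hf₀.involutive]
      rw [eq_div_iff hnn] at ht
      field_simp at ht ⊢
      rw [ha, hb] at ht
      field_simp at ht
      linear_combination ht
    have hxz : f₀ hrat x z = 1 := by
      simp only [hz, Unitary.add_right hf₀, Unitary.smul_right hf₀, hxx, hxn, ← hτ, hb, map_inv₀,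
        hf₀.involutive]
      field_simp
      ring
    have hyz : f₀ hrat y z = 1 := by
      simp only [hz, Unitary.add_right hf₀, Unitary.smul_right hf₀, hyy, hyn, hskew, ha, map_neg,
        map_inv₀]
      field_simp
      ring
    exact (one hyy hzz hyz).2 ((one hxx hzz hxz).1 hx)
  intro w hww
  by_cases hvw : f₀ hrat v w = 0
  · obtain ⟨c, hc⟩ := exists_smul_of_orth hf₀ hvv hv hww hvw
    by_cases hw : w = 0
    · rw [hw, em_zero, show tr' hf (0 : Fin 3 → F) (μ : F) = 1 from gl_ext fun x => by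
        rw [ap_tr' hf (Unitary.zero_left hf 0)]; simp]
      exact one_mem M
    obtain ⟨p, hpp, hpv⟩ := exists_partner hf₀ hvv hv
    have h1 : f₀ hrat v p ≠ 0 := fun e => by
      rw [(Unitary.eq_zero_comm hf₀).mp e] at hpv; exact zero_ne_one hpv
    refine gen hpp hww ?_ (gen hvv hpp h1 h)
    rw [hc, Unitary.smul_right hf₀, hpv, mul_one]
    intro e
    exact hw (by rw [hc, show c = 0 from by simpa using e, zero_smul])
  · exact gen hvv hww hvw h

variable {r : ℕ} (hr : r.Prime)
  (hcard : Nat.card (fixed σ) = Nat.card (F₀.comap (fixed σ).subtype) ^ r)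
include hr hcard

/-- Either every multiplier occurs or none outside the subfield. -/
lemma lam_cases (hne : lam hf hrat hσ hω hω' (M := M) ≠ ⊤) :
    ∀ μ ∈ lam hf hrat hσ hω hω' (M := M), ((μ : fixed σ) : F) ∈ F₀ := by
  intro μ hμ
  by_contra hμF
  obtain ⟨u, e, hu0, huu₀, hee₀, heu₀⟩ := exists_pair hf hrat hσ hω hω'
  have he0 : e ≠ 0 := fun h => by
    rw [h, Unitary.zero_left (isSkew₀ hf hrat hσ hω hω')] at heu₀; exact zero_ne_one heu₀
  have hee : f (em e) (em e) = 0 := congrArg Subtype.val hee₀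
  have huu : f (em u) (em u) = 0 := congrArg Subtype.val huu₀
  have heu : f (em e) (em u) = 1 := congrArg Subtype.val heu₀
  have h1 : (1 : fixed σ) ∈ lam hf hrat hσ hω hω' (M := M) := fun v hv => by
    rw [OneMemClass.coe_one]; exact hM v hv 1 (one_mem F₀) (map_one σ)
  obtain ⟨y, hy, hyG⟩ := CfsgLib.Geometric.exists_upS_notMem (G := planeGroup σ M (em e) (em u))
    hr hcard (lam hf hrat hσ hω hω' (M := M)) hne h1 hμ
    (fun p q hpq => by
      have hpq' : ((p : fixed σ) : F) + ((q : fixed σ) : F) * (μ : F) = 0 := by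
        simpa using congrArg Subtype.val hpq
      by_cases hq : q = 0
      · subst hq
        simp at hpq'
        exact ⟨hpq', rfl⟩
      · exfalso
        apply hμF
        have hq' : ((q : fixed σ) : F) ≠ 0 := fun h => hq (Subtype.ext (Subtype.ext h))
        rw [show (μ : F) = -((p : fixed σ) : F) / ((q : fixed σ) : F) by
          field_simp; linear_combination hpq']
        exact div_mem (neg_mem p.2) q.2)
    (fun c hc => upS_mem_planeGroup hf hee huu heu (by
      have := neg_mem hc e hee₀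
      rwa [NegMemClass.coe_neg] at this))
    one_ne_zero
    (lowS_mem_planeGroup hf hee huu heu (by
      rw [OneMemClass.coe_one]; exact hM u huu₀ 1 (one_mem F₀) (map_one σ)))
  apply hy
  have := mem_lam hf hrat hσ hω hω' hMI hM (μ := -y) he0 hee₀
    (by rw [NegMemClass.coe_neg]; exact tr'_mem_of_upS hf hee huu heu hMI hyG)
  simpa using neg_mem this

omit hr hcard in
/-- Every multiplier gives every transvection. -/
lemma hasT_of_all (hall : ∀ μ : fixed σ, μ ∈ lam hf hrat hσ hω hω' (M := M)) :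
    Unitary.HasT hf M := by
  have hf₀ := isSkew₀ hf hrat hσ hω hω'
  have hX : ∀ v : Fin 3 → F₀, f₀ hrat v v = 0 → Unitary.InX hf M (em v) := fun v hv =>
    ⟨congrArg Subtype.val hv, fun h c hc => by
      rw [← tr'_eq hf h]; exact hall ⟨c, hc⟩ v hv⟩
  obtain ⟨e, u, -, hee, huu, hue⟩ := exists_pair hf hrat hσ hω hω'
  obtain ⟨n, hne, hnu, hnn, -⟩ := exists_frame hf₀ hee huu hue
  have heu : f₀ hrat e u = -1 := by rw [hf₀.skew, hue, map_one]
  have hen := (Unitary.eq_zero_comm hf₀).mp hne
  have hun := (Unitary.eq_zero_comm hf₀).mp hnu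
  obtain ⟨x, hx⟩ := Unitary.exists_sub_eq hf₀ (Unitary.skew_self hf₀ n)
  have hv : f₀ hrat (x • e + u + n) (x • e + u + n) = 0 := by
    simp only [hf₀.add_left, Unitary.add_right hf₀, hf₀.smul_left, Unitary.smul_right hf₀,
      hee, huu, hue, heu, hne, hnu, hen, hun]
    linear_combination (-1 : F₀) * hx
  refine hasT_of_three hf (hX u huu) (hX e hee) (hX _ hv) (fun h => ?_) fun h => ?_
  · exact one_ne_zero (h ▸ congrArg Subtype.val hue : (0 : F) = 1).symm
  obtain ⟨p, q, hpq⟩ := Submodule.mem_span_pair.1 h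
  have h2 := congrArg (fun z => f z (em n)) hpq
  simp only [em_add, em_smul, hf.add_left, hf.smul_left,
    show f (em e) (em n) = 0 from congrArg Subtype.val hen,
    show f (em u) (em n) = 0 from congrArg Subtype.val hun, mul_zero, zero_add] at h2
  exact hnn (Subtype.ext h2.symm)

/-- If no multiplier outside the subfield occurs, centres have rational norms. -/
lemma norm_mem (hr2 : r ≠ 2) (h3 : 3 ≤ Nat.card (F₀.comap (fixed σ).subtype))
    (hΛ : ∀ μ ∈ lam hf hrat hσ hω hω' (M := M), ((μ : fixed σ) : F) ∈ F₀) {w : Fin 3 → F}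
    (hw : f w w = 0) (hT : tr' hf w 1 ∈ M) (v : Fin 3 → F₀) (hv : f₀ hrat v v = 0) :
    f (em v) w * σ (f (em v) w) ∈ F₀ := by
  by_contra hγ
  set a := f (em v) w with hadef
  have ha : a ≠ 0 := fun e => hγ (by rw [e, zero_mul]; exact zero_mem F₀)
  have hsa : σ a ≠ 0 := by simpa using ha
  have hee : f (em v) (em v) = 0 := congrArg Subtype.val hv
  have hv0 : v ≠ 0 := fun e => ha (by rw [hadef, e, em_zero, Unitary.zero_left hf])
  set u := (σ a)⁻¹ • w with hu
  have huu : f u u = 0 := Unitary.isotropic_smul hf hw _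
  have heu : f (em v) u = 1 := by
    rw [hu, Unitary.smul_right hf, map_inv₀, hf.involutive, ← hadef, inv_mul_cancel₀ ha]
  let γ : fixed σ := ⟨a * σ a, show σ (a * σ a) = a * σ a by
    rw [map_mul, hf.involutive, mul_comm]⟩
  have hTu : tr' hf u (γ : F) ∈ M := by
    convert hT using 1
    rw [hu, tr'_smul hf hw]
    congr 1
    rw [map_inv₀, hf.involutive]
    show _ * (a * σ a) = 1
    field_simp
  obtain ⟨y, hy, hyG⟩ := exists_upS_notMem hr hr2 hcard h3
    (G := planeGroup σ M (em v) u) (γ := γ)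
    (fun c hc => upS_mem_planeGroup hf hee huu heu
      (hM v hv _ (neg_mem hc) (by rw [map_neg]; exact congrArg Neg.neg c.2)))
    (fun h => hγ h) (lowS_mem_planeGroup hf hee huu heu hTu)
  apply hy
  have := hΛ _ (mem_lam hf hrat hσ hω hω' hMI hM (μ := -y) hv0 hv
    (by rw [NegMemClass.coe_neg]; exact tr'_mem_of_upS hf hee huu heu hMI hyG))
  rw [NegMemClass.coe_neg] at this
  simpa using neg_mem this

omit hr hcard in
/-- A group all whose translates of rational centres are rational is the subfield group. -/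
theorem le_subfieldSubgroup
    (hΛ : ∀ μ ∈ lam hf hrat hσ hω hω' (M := M), ((μ : fixed σ) : F) ∈ F₀)
    {g : GL (Fin 3) F} (hg : g ∈ M)
    (hline : ∀ x : Fin 3 → F₀, f₀ hrat x x = 0 → ∃ (c : F) (y : Fin 3 → F₀),
      ap g (em x) = c • em y) :
    g ∈ Cfsg.Geo.subfieldSubgroup F₀ (1 : GL (Fin 3) F) := by
  have hf₀ := isSkew₀ hf hrat hσ hω hω'
  obtain ⟨e, u, he0, hee, -, -⟩ := exists_pair hf hrat hσ hω hω'
  obtain ⟨c₀, y₀, h₀⟩ := hline e hee
  have hc₀ : c₀ ≠ 0 := fun h => ap_ne_zero g (em_ne_zero he0) (by rw [h₀, h, zero_smul])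
  have hy₀ : f₀ hrat y₀ y₀ = 0 := by
    apply Subtype.ext
    have h := Unitary.isotropic_ap hf (hMI hg) (congrArg Subtype.val hee : f (em e) (em e) = 0)
    rw [h₀, hf.smul_left, Unitary.smul_right hf, ← mul_assoc] at h
    exact (mul_eq_zero.1 h).resolve_left (mul_ne_zero hc₀ (by simpa using hc₀))
  have hN₀ : c₀ * σ c₀ ∈ F₀ := by
    have hy00 : y₀ ≠ 0 := fun h => ap_ne_zero g (em_ne_zero he0) (by rw [h₀, h, em_zero, smul_zero])
    have hc := mul_mem (mul_mem hg (hM e hee 1 (one_mem F₀) (map_one σ))) (inv_mem hg)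
    rw [conj_tr' hf (hMI hg) (congrArg Subtype.val hee), h₀,
      tr'_smul hf (congrArg Subtype.val hy₀), mul_one] at hc
    exact hΛ ⟨c₀ * σ c₀, show σ (c₀ * σ c₀) = c₀ * σ c₀ by rw [map_mul, hf.involutive, mul_comm]⟩
      (mem_lam hf hrat hσ hω hω' hMI hM hy00 hy₀ hc)
  have hall : ∀ x : Fin 3 → F₀, RatV F₀ (c₀⁻¹ • ap g (em x)) := by
    refine iso_induction hf hrat hσ hω hω' (fun x hxx => ?_) (fun x y hx hy => by
      rw [em_add, ap_add, smul_add]; exact hx.add hy)
    by_cases hxe : f₀ hrat e x = 0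
    · obtain ⟨k, rfl⟩ := exists_smul_of_orth hf₀ hee he0 hxx hxe
      rw [em_smul, ap_smul, h₀, smul_smul, smul_smul, mul_right_comm,
        inv_mul_cancel₀ hc₀, one_mul]
      exact (ratV_em y₀).smul k.2
    obtain ⟨c, y, hc⟩ := hline x hxx
    have h := (mem_isom_iff.1 (hMI hg)) (em x) (em e)
    rw [hc, h₀, hf.smul_left, Unitary.smul_right hf, ← mul_assoc] at h
    have hxe0 : f (em x) (em e) ≠ 0 := fun h' =>
      hxe ((Unitary.eq_zero_comm hf₀).mp (Subtype.ext h'))
    have hye : f (em y) (em y₀) ≠ 0 := fun h' => hxe0 (by rw [← h, h', mul_zero])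
    rw [hc, smul_smul]
    refine (ratV_em y).smul ?_
    rw [show c₀⁻¹ * c = (c * σ c₀) / (c₀ * σ c₀) by
      have : σ c₀ ≠ 0 := by simpa using hc₀
      field_simp, ← mul_div_cancel_right₀ (c * σ c₀) hye, h]
    exact div_mem (div_mem (hrat _ _ (ratV_em x) (ratV_em e))
      (hrat _ _ (ratV_em y) (ratV_em y₀))) hN₀
  refine Subfld.scalar_mul_mem (c := Units.mk0 c₀ hc₀) fun x hx k => ?_
  have hx' : RatV F₀ x := fun j => by simpa using hx j
  simpa [show em (fun j => (⟨x j, hx' j⟩ : F₀)) = x from rfl] using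
    hall (fun j => ⟨x j, hx' j⟩) k

end CfsgLib.Geometric.SUThree
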