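import Cfsg.Agent.Lib.Geometric.SUThree.SubfieldBasic
import Cfsg.Agent.Lib.TwoFusion.IsolatedZStar
import Cfsg.Agent.Lib.Involutions.BrauerSuzuki
import Cfsg.Agent.Lib.Derangements.PSL2Field

/-!
Centres of transvections of an overgroup of the subfield group over the field with four elements,
by the Z* theorem.
-/

set_option autoImplicit false

namespace CfsgLib.Geometric.SUThree

open Matrix
open LSubfld (RatV)
open SSubfld (em em_add em_sub em_smul em_zero em_injective em_ne_zero ratV_em)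
open USubfld (fixed tr' tr'_eq ap_tr' conj_tr' tr'_smul tr'_add tr'_zero f₀ σ₀ isSkew₀ lam)

variable {F : Type*} [Field F] [Finite F] {σ : F ≃+* F}
  {f : (Fin 3 → F) → (Fin 3 → F) → F}
  (hf : IsSkewForm σ f) {F₀ : Subfield F}
  (hrat : ∀ u v, RatV F₀ u → RatV F₀ v → f u v ∈ F₀)
  (hσ : ∀ x, x ∈ F₀ → σ x ∈ F₀) {ω : F} (hω : ω ∈ F₀) (hω' : σ ω ≠ ω)
  (hK : ∀ c ∈ F₀, σ c = c → c = 0 ∨ c = 1)

include hK in
omit [Finite F] in
lemma two_eq_zero : (2 : F) = 0 := by
  rcases hK 2 (ofNat_mem F₀ 2) (by rw [map_ofNat]) with h | h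
  · exact h
  · exact absurd (by linear_combination h : (1 : F) = 0) one_ne_zero

include hf hσ hK in
omit [Finite F] in
lemma norm_eq_one {x : F} (hx : x ∈ F₀) (hx0 : x ≠ 0) : x * σ x = 1 :=
  (hK _ (mul_mem hx (hσ x hx)) (by rw [map_mul, hf.involutive, mul_comm])).resolve_left
    (mul_ne_zero hx0 (by simpa using hx0))

include hf hσ hω hω' hK in
omit [Finite F] in
lemma omega_eqs : σ ω = ω + 1 ∧ ω * ω + ω + 1 = 0 := by
  have h2 := two_eq_zero hK
  have hω0 : ω ≠ 0 := fun h => hω' (by rw [h, map_zero])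
  have hN := norm_eq_one hf hσ hK hω hω0
  rcases hK (ω + σ ω) (add_mem hω (hσ ω hω))
      (by rw [map_add, hf.involutive, add_comm]) with h | h
  · exact absurd (by linear_combination h - ω * h2) hω'
  · have e : σ ω = ω + 1 := by linear_combination h - ω * h2
    rw [e] at hN
    exact ⟨e, by linear_combination hN + h2⟩

include hf hσ hω hω' hK in
omit [Finite F] in
lemma mem_of_cube {μ : F} (h : μ ^ 3 = 1) : μ ∈ F₀ := by
  have h2 := two_eq_zero hK
  have hω2 := (omega_eqs hf hσ hω hω' hK).2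
  have h' : (μ - 1) * ((μ - ω) * (μ - (ω + 1))) = 0 := by
    linear_combination h + (μ - 1) * hω2 + (1 - μ) * (1 + μ + μ * ω) * h2
  rcases mul_eq_zero.1 h' with e | e
  · rw [sub_eq_zero.1 e]; exact one_mem F₀
  rcases mul_eq_zero.1 e with e | e
  · rw [sub_eq_zero.1 e]; exact hω
  · rw [sub_eq_zero.1 e]; exact add_mem hω (one_mem F₀)

include hf hrat hσ hω hω' hK

lemma self_eq_one {n : Fin 3 → F₀} (hn : f₀ hrat n n ≠ 0) : f₀ hrat n n = 1 := by
  have h2 := two_eq_zero hK
  have h : σ (f₀ hrat n n : F) = f₀ hrat n n := by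
    have := congrArg Subtype.val (Unitary.skew_self (isSkew₀ hf hrat hσ hω hω') n)
    simp only [USubfld.coe_σ₀, Subfield.coe_neg] at this
    linear_combination this - (f₀ hrat n n : F) * h2
  rcases hK _ (f₀ hrat n n).2 h with e | e
  · exact absurd (Subtype.ext e) hn
  · exact Subtype.ext e

variable {M : Subgroup (GL (Fin 3) F)} (hMS : M ≤ Unitary.sisom hf)
  (hM : ∀ (v : Fin 3 → F₀), f₀ hrat v v = 0 → ∀ c, c ∈ F₀ → σ c = c → tr' hf (em v) c ∈ M)
  (hH : Cfsg.Geo.subfieldSubgroup F₀ (1 : GL (Fin 3) F) ⊓ Unitary.sisom hf ≤ M)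
  (hΛ : ∀ μ ∈ lam hf hrat hσ hω hω' (M := M), ((μ : fixed σ) : F) ∈ F₀)

include hMS hM hΛ in
/-- A transvection at a rational vector is isolated in the overgroup. -/
lemma isolated {a : Fin 3 → F₀} (ha0 : a ≠ 0) (ha : f₀ hrat a a = 0) :
    Cfsg.IsIsolatedInvolution
      (⟨tr' hf (em a) 1, hM a ha 1 (one_mem F₀) (map_one σ)⟩ : M) := by
  have h2 := two_eq_zero hK
  have haa : f (em a) (em a) = 0 := congrArg Subtype.val ha
  have hMI : M ≤ isom f := hMS.trans inf_le_left
  obtain ⟨u, huu, hua⟩ := exists_partner hf haa (em_ne_zero ha0)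
  constructor
  · have : Fact (Nat.Prime 2) := ⟨Nat.prime_two⟩
    refine orderOf_eq_prime (Subtype.ext ?_) fun h => ?_
    · rw [sq, Subgroup.coe_mul, OneMemClass.coe_one, tr'_add hf haa, one_add_one_eq_two, h2,
        tr'_zero hf haa]
    · have h' := congrArg (fun z : M => ap (z : GL (Fin 3) F) u) h
      simp only [OneMemClass.coe_one, ap_one] at h'
      rw [ap_tr' hf haa, hua, one_mul, one_smul, add_eq_left] at h'
      exact em_ne_zero ha0 h'
  · intro g hg
    apply Subtype.ext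
    have hgI := hMI g.2
    set w := ap (g : GL (Fin 3) F) (em a) with hw
    have hww : f w w = 0 := Unitary.isotropic_ap hf hgI haa
    have hc : ((g : GL (Fin 3) F) * tr' hf (em a) 1 * (g : GL (Fin 3) F)⁻¹) = tr' hf w 1 :=
      conj_tr' hf hgI haa 1
    show (g : GL (Fin 3) F) * tr' hf (em a) 1 * (g : GL (Fin 3) F)⁻¹ = tr' hf (em a) 1
    rw [hc]
    have hcom : tr' hf (em a) 1 * tr' hf w 1 = tr' hf w 1 * tr' hf (em a) 1 := by
      rw [← hc]; exact congrArg Subtype.val hg.eq
    have haw : f (em a) w = 0 := by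
      by_contra h
      have hwa : f w (em a) ≠ 0 := fun e => h ((Unitary.eq_zero_comm hf).mp e)
      have e := congrArg (fun z => ap z u) hcom
      simp only [ap_mul, ap_tr' hf haa, ap_tr' hf hww, hua, one_mul, hf.add_left,
        hf.smul_left] at e
      have e' := congrArg (fun z => f z (em a)) e
      simp only [hf.add_left, hf.smul_left, haa, hua] at e'
      exact mul_ne_zero h hwa (by linear_combination -e')
    obtain ⟨c, hc'⟩ := exists_smul_of_orth hf haa (em_ne_zero ha0) hww haw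
    have hc0 : c ≠ 0 := fun e => ap_ne_zero _ (em_ne_zero ha0) (by rw [← hw, hc', e, zero_smul])
    have hmem : tr' hf w 1 ∈ M := by
      rw [← hc]
      exact mul_mem (mul_mem g.2 (hM a ha 1 (one_mem F₀) (map_one σ))) (inv_mem g.2)
    rw [hc', tr'_smul hf haa, mul_one] at hmem ⊢
    have hN : σ (c * σ c) = c * σ c := by rw [map_mul, hf.involutive, mul_comm]
    have := hΛ ⟨c * σ c, hN⟩ (mem_lam hf hrat hσ hω hω' hMI hM ha0 ha hmem)
    rw [show c * σ c = 1 from (hK _ this hN).resolve_left (mul_ne_zero hc0 (by simpa using hc0))]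

omit hrat hσ hω hω' hK in
/-- The odd core of the overgroup, in the linear group. -/
def core (M : Subgroup (GL (Fin 3) F)) : Subgroup (GL (Fin 3) F) :=
  (Cfsg.oddCore M).map M.subtype

omit hf hrat hσ hω hω' hK [Finite F] in
lemma core_le : core M ≤ M := Subgroup.map_subtype_le _

omit hf hrat hσ hω hω' hK [Finite F] in
lemma core_conj {x g : GL (Fin 3) F} (hx : x ∈ core M) (hg : g ∈ M) : g * x * g⁻¹ ∈ core M := by
  obtain ⟨y, hy, rfl⟩ := hx
  exact ⟨⟨g, hg⟩ * y * ⟨g, hg⟩⁻¹,
    (inferInstance : (Cfsg.oddCore M).Normal).conj_mem y hy _, rfl⟩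

omit hf hrat hσ hω hω' hK in
lemma eq_one_of_pow_four {x : GL (Fin 3) F} (hx : x ∈ core M) (h : x ^ 4 = 1) : x = 1 := by
  have hodd : Odd (Nat.card (core M)) := by
    rw [core, Subgroup.card_map_of_injective M.subtype_injective]
    exact CfsgLib.Cores.odd_card_oddCore
  have h1 : orderOf x ∣ Nat.card (core M) := Subgroup.orderOf_dvd_natCard _ hx
  have h4 : orderOf x ∣ 4 := orderOf_dvd_of_pow_eq_one h
  have hco : Nat.Coprime (Nat.card (core M)) 4 := by
    rw [show (4 : ℕ) = 2 ^ 2 by norm_num]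
    exact (Nat.coprime_two_right.2 hodd).pow_right 2
  exact orderOf_eq_one_iff.1 (Nat.eq_one_of_dvd_coprimes hco h1 h4)

include hMS hM hΛ in
/-- Conjugates of a rational transvection differ from it by the core. -/
lemma conj_mul_mem {a : Fin 3 → F₀} (ha0 : a ≠ 0) (ha : f₀ hrat a a = 0) {g : GL (Fin 3) F}
    (hg : g ∈ M) : g * tr' hf (em a) 1 * g⁻¹ * tr' hf (em a) 1 ∈ core M := by
  have hz := isolated hf hrat hσ hω hω' hK hMS hM hΛ ha0 ha
  have h := inv_mem (CfsgLib.TwoFusion.commutator_mem_oddCore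
    (fun H _ _ P t h1 _ h3 => ⟨Cfsg.oddCore H, inferInstance, CfsgLib.Cores.odd_card_oddCore,
      CfsgLib.Involutions.zstar_isolated P h1 h3⟩) hz ⟨g, hg⟩)
  have haa : f (em a) (em a) = 0 := congrArg Subtype.val ha
  have hinv : (tr' hf (em a) 1)⁻¹ = tr' hf (em a) 1 :=
    inv_eq_of_mul_eq_one_right (by
      rw [tr'_add hf haa, one_add_one_eq_two, two_eq_zero hK, tr'_zero hf haa])
  refine ⟨_, h, ?_⟩
  simp only [Subgroup.subtype_apply, Subgroup.coe_inv, Subgroup.coe_mul, _root_.mul_inv_rev, inv_inv,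
    ← mul_assoc, hinv]

include hMS hM hΛ hH in
/-- Elements of the core commuting with a rational transvection are rational scalars. -/
lemma eq_scalar {a : Fin 3 → F₀} (ha0 : a ≠ 0) (ha : f₀ hrat a a = 0) {x : GL (Fin 3) F}
    (hx : x ∈ core M) (hxt : x * tr' hf (em a) 1 = tr' hf (em a) 1 * x) :
    ∃ μ ∈ F₀, ∀ v, ap x v = μ • v := by
  have h2 := two_eq_zero hK
  have hf₀ := isSkew₀ hf hrat hσ hω hω'
  have haa : f (em a) (em a) = 0 := congrArg Subtype.val ha
  have hxM := core_le hx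
  have hxI : x ∈ isom f := (hMS hxM).1
  -- the line of the centre is fixed
  obtain ⟨u₀, huu₀, hue₀⟩ := exists_partner hf₀ ha ha0
  obtain ⟨n₀, hne₀, hnu₀, hnn₀, -⟩ := exists_frame hf₀ ha huu₀ hue₀
  have huu : f (em u₀) (em u₀) = 0 := congrArg Subtype.val huu₀
  have hue : f (em u₀) (em a) = 1 := congrArg Subtype.val hue₀
  have hne : f (em n₀) (em a) = 0 := congrArg Subtype.val hne₀
  have hnu : f (em n₀) (em u₀) = 0 := congrArg Subtype.val hnu₀
  have hnn : f (em n₀) (em n₀) = 1 :=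
    congrArg Subtype.val (self_eq_one hf hrat hσ hω hω' hK hnn₀)
  set e := em a
  set u := em u₀
  set n := em n₀
  have hT : tr' hf (ap x e) 1 = tr' hf e 1 := by
    rw [← conj_tr' hf hxI haa, hxt, mul_inv_cancel_right]
  have hxe' : f (ap x e) (ap x e) = 0 := Unitary.isotropic_ap hf hxI haa
  obtain ⟨μ, hμ⟩ : ∃ μ : F, ap x e = μ • e := by
    have h := congrArg (fun g => ap g u) hT
    simp only [ap_tr' hf hxe', ap_tr' hf haa, hue, one_mul, one_smul, add_right_inj] at h
    by_cases h0 : f u (ap x e) = 0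
    · rw [h0, zero_smul] at h
      exact absurd h.symm (em_ne_zero ha0)
    · exact ⟨(f u (ap x e))⁻¹, ((inv_smul_smul₀ h0 (ap x e)).symm.trans
        (congrArg ((f u (ap x e))⁻¹ • ·) h))⟩
  have hμ1 : μ * σ μ = 1 := by
    have h := congrArg (fun g => ap g u) hT
    simp only [hμ, tr'_smul hf haa, mul_one, ap_tr' hf haa, hue, add_right_inj] at h
    have h' := congrArg (fun z => f u z) h
    simp only [Unitary.smul_right hf, hue, mul_one, map_mul, hf.involutive, map_one] at h'
    linear_combination h'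
  -- an Eichler element of the subfield group
  set y := Unitary.E hf e n ω haa hne with hy
  have hyM : y ∈ M := by
    refine hH ⟨Subfld.mem_of_rat fun z hz i => ?_, Unitary.E_mem hf ?_⟩
    · have hz' : RatV F₀ z := fun j => by simpa using hz j
      rw [hy, Unitary.ap_E hf]
      simpa using add_mem (add_mem (add_mem (hz' i)
        (mul_mem (hrat _ _ hz' (ratV_em a)) (ratV_em n₀ i)))
        (mul_mem (hrat _ _ hz' (ratV_em n₀)) (ratV_em a i)))
        (mul_mem (mul_mem hω (hrat _ _ hz' (ratV_em a))) (ratV_em a i))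
    · rw [hnn, (omega_eqs hf hσ hω hω' hK).1]; linear_combination -h2
  let IsE : GL (Fin 3) F → Prop := fun g =>
    ∃ (v : Fin 3 → F) (c : F) (h : f v e = 0), g = Unitary.E hf e v c haa h
  have hEmul : ∀ g k, IsE g → IsE k → IsE (g * k) := by
    rintro _ _ ⟨v, c, h, rfl⟩ ⟨v', c', h', rfl⟩
    exact ⟨_, _, by rw [hf.add_left, h, h', add_zero], Unitary.E_mul_E hf _⟩
  have hEpow : ∀ g, IsE g → g ^ 4 = 1 := by
    rintro _ ⟨v, c, h, rfl⟩
    have hv : v + v = 0 := by rw [← two_smul F, h2, zero_smul]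
    rw [show (4 : ℕ) = 2 * 2 by norm_num, pow_mul]
    simp only [sq]
    rw [Unitary.E_mul_E hf (h := by rw [hf.add_left, h, add_zero])]
    apply gl_ext
    intro z
    simp only [ap_mul, Unitary.ap_E hf, hv, Unitary.zero_right hf, smul_zero, zero_smul,
      add_zero, hf.add_left, hf.smul_left, haa, mul_zero, ap_one]
    rw [add_assoc, ← add_smul, ← two_mul, h2, zero_mul, zero_smul, add_zero]
  have hyE : IsE y := ⟨n, ω, hne, rfl⟩
  have hsμ : μ ≠ 0 := fun e0 => by rw [e0, zero_mul] at hμ1; exact zero_ne_one hμ1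
  have hxn : f (σ μ • ap x n) e = 0 := by
    have h := (mem_isom_iff.1 hxI) n e
    rw [hμ, Unitary.smul_right hf, hne] at h
    rw [hf.smul_left, h]
  have hy' : IsE (x * y * x⁻¹) := by
    refine ⟨σ μ • ap x n, ω, hxn, gl_ext fun v => ?_⟩
    have h1 : f (ap x⁻¹ v) e = σ μ * f v e := by
      have h := (mem_isom_iff.1 hxI) (ap x⁻¹ v) e
      rw [ap_ap_inv, hμ, Unitary.smul_right hf] at h
      exact h.symm
    have h2' : f (ap x⁻¹ v) n = f v (ap x n) := by
      have h := (mem_isom_iff.1 hxI) (ap x⁻¹ v) n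
      rw [ap_ap_inv] at h
      exact h.symm
    rw [ap_mul, ap_mul, hy, Unitary.ap_E hf, Unitary.ap_E hf, ap_add, ap_add, ap_add, ap_smul,
      ap_smul, ap_smul, ap_ap_inv, hμ, h1, h2', Unitary.smul_right hf, hf.involutive]
    match_scalars
    all_goals (first | ring1 | linear_combination (ω * f v e) * hμ1)
  have hz1 : x * y * x⁻¹ * y⁻¹ = 1 := by
    apply eq_one_of_pow_four
    · rw [show x * y * x⁻¹ * y⁻¹ = x * (y * x⁻¹ * y⁻¹) by group]
      exact mul_mem hx (core_conj (inv_mem hx) hyM)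
    · refine hEpow _ (hEmul _ _ hy' ?_)
      rw [show y⁻¹ = y * y * y from inv_eq_of_mul_eq_one_right (by
        rw [← mul_assoc, ← mul_assoc, ← hEpow y hyE]
        simp only [pow_succ, pow_zero, one_mul])]
      exact hEmul _ _ (hEmul _ _ hyE hyE) hyE
  have hcomm : ∀ v, ap y (ap x v) = ap x (ap y v) := fun v => by
    have h : x * y = y * x := by
      rw [mul_inv_eq_one] at hz1
      exact mul_inv_eq_iff_eq_mul.1 hz1
    rw [← ap_mul, ← ap_mul, h]
  have hdec := fun z => decomp hf haa huu hue hne hnu (by rw [hnn]; exact one_ne_zero) (x := z)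
  have heu : f e u = -1 := by rw [hf.skew, hue, map_one]
  have hen := (Unitary.eq_zero_comm hf).mp hne
  have hun := (Unitary.eq_zero_comm hf).mp hnu
  have hxne : f (ap x n) e = 0 := by
    rw [hf.smul_left] at hxn
    exact (mul_eq_zero.1 hxn).resolve_left (by simpa using hsμ)
  have hxn' : ap x n = (-f (ap x n) u) • e + μ • n := by
    have h := hdec (ap x n)
    rw [hxne, zero_smul, add_zero, hnn, div_one] at h
    have hρ : f (ap x n) n = μ := by
      have h' := congrArg (fun z => f z u) (hcomm n)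
      simp only [hy, Unitary.ap_E hf, hne, hnn, zero_smul, add_zero, mul_zero, one_smul, ap_add,
        hμ, hxne, hf.add_left, hf.smul_left, heu] at h'
      linear_combination -h'
    rwa [hρ] at h
  have hxu : ap x u = (-f (ap x u) u) • e + μ • u + f (ap x u) n • n := by
    have h := hdec (ap x u)
    have hα : f (ap x u) e = μ := by
      have h' := (mem_isom_iff.1 hxI) u e
      rw [hμ, Unitary.smul_right hf, hue] at h'
      linear_combination μ * h' - f (ap x u) e * hμ1
    rwa [hα, hnn, div_one] at h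
  -- the fourth power is scalar
  have h4 : ∀ v, ap (x ^ 4) v = μ ^ 4 • v := by
    obtain ⟨β, hβ⟩ : ∃ β, ap x n = β • e + μ • n := ⟨_, hxn'⟩
    obtain ⟨γ, κ, hκ⟩ : ∃ γ κ, ap x u = γ • e + μ • u + κ • n := ⟨_, _, hxu⟩
    have ee : ap x (ap x e) = μ ^ 2 • e := by rw [hμ, ap_smul, hμ, smul_smul, sq]
    have nn : ap x (ap x n) = μ ^ 2 • n := by
      rw [hβ, ap_add, ap_smul, ap_smul, hμ, hβ]
      match_scalars
      · linear_combination (β * μ) * h2
      · ring
    have uu : ap x (ap x u) = (κ * β) • e + μ ^ 2 • u := by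
      rw [hκ, ap_add, ap_add, ap_smul, ap_smul, ap_smul, hμ, hβ, hκ]
      match_scalars
      · linear_combination (γ * μ) * h2
      · ring
      · linear_combination (κ * μ) * h2
    have e4 : ap (x ^ 4) e = μ ^ 4 • e := by
      simp only [pow_succ, pow_zero, one_mul, ap_mul]
      rw [ee, ap_smul, ap_smul, ee, smul_smul]
      congr 1; ring
    have n4 : ap (x ^ 4) n = μ ^ 4 • n := by
      simp only [pow_succ, pow_zero, one_mul, ap_mul]
      rw [nn, ap_smul, ap_smul, nn, smul_smul]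
      congr 1; ring
    have u4 : ap (x ^ 4) u = μ ^ 4 • u := by
      simp only [pow_succ, pow_zero, one_mul, ap_mul]
      rw [uu, ap_add, ap_add, ap_smul, ap_smul, ap_smul, ap_smul, ee, uu]
      match_scalars
      · linear_combination (κ * β * μ ^ 2) * h2
      · ring
    intro v
    conv_lhs => rw [hdec v]
    rw [ap_add, ap_add, ap_smul, ap_smul, ap_smul, e4, u4, n4]
    conv_rhs => rw [hdec v]
    simp only [smul_add, smul_smul, mul_comm (μ ^ 4)]
  obtain ⟨k, hk⟩ : ∃ k : ℕ, (x ^ 4) ^ k = x := by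
    have hodd : Odd (orderOf x) := by
      have h : Odd (Nat.card (core M)) := by
        rw [core, Subgroup.card_map_of_injective M.subtype_injective]
        exact CfsgLib.Cores.odd_card_oddCore
      exact h.of_dvd_nat (Subgroup.orderOf_dvd_natCard _ hx)
    obtain ⟨k, hk⟩ := exists_pow_eq_self_of_coprime (x := x) (n := 4) (by
      rw [show (4 : ℕ) = 2 ^ 2 by norm_num]
      exact Nat.Coprime.pow_left 2 (Nat.coprime_two_left.2 hodd))
    exact ⟨k, hk⟩
  have hscal : ∀ v, ap x v = (μ ^ 4) ^ k • v := by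
    intro v
    conv_lhs => rw [← hk]
    clear hk
    induction k with
    | zero => simp
    | succ k ih =>
      rw [pow_succ' (x ^ 4), ap_mul, ih, ap_smul, h4, smul_smul, ← pow_succ]
  have hμk : (μ ^ 4) ^ k = μ := by
    have h := hscal e
    rw [hμ] at h
    exact (smul_left_injective F (em_ne_zero ha0) h).symm
  rw [hμk] at hscal
  refine ⟨μ, mem_of_cube hf hσ hω hω' hK ?_, hscal⟩
  have hmat : (x : Matrix (Fin 3) (Fin 3) F) = μ • 1 := by
    ext i j
    have h := congrFun (hscal (Pi.single j 1)) i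
    simpa [ap_def, Matrix.one_apply, Pi.single_apply] using h
  have hdet : (x : Matrix (Fin 3) (Fin 3) F).det = 1 := by
    simpa using congrArg Units.val (MonoidHom.mem_ker.1 (hMS hxM).2)
  rwa [hmat, Matrix.det_smul, Matrix.det_one, mul_one, Fintype.card_fin] at hdet

include hMS hM hΛ hH in
/-- The core is abelian modulo rational scalars. -/
lemma commutator_scalar {x y : GL (Fin 3) F} (hx : x ∈ core M) (hy : y ∈ core M) :
    ∃ μ ∈ F₀, ∀ v, ap (x * y * x⁻¹ * y⁻¹) v = μ • v := by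
  obtain ⟨a, -, ha0, ha, -, -⟩ := exists_pair hf hrat hσ hω hω'
  have haa : f (em a) (em a) = 0 := congrArg Subtype.val ha
  set t := tr' hf (em a) 1
  have htM : t ∈ M := hM a ha 1 (one_mem F₀) (map_one σ)
  have htt : t * t = 1 := by
    rw [tr'_add hf haa, one_add_one_eq_two, two_eq_zero hK, tr'_zero hf haa]
  have key : ∀ z, z ∈ core M → z * t = t * z → ∃ μ ∈ F₀, ∀ v, ap z v = μ • v := fun z hz h =>
    eq_scalar hf hrat hσ hω hω' hK hMS hM hH hΛ ha0 ha hz h
  set C := Subgroup.center (GL (Fin 3) F)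
  set π := QuotientGroup.mk' C with hπ
  set Q := (core M).map π with hQ
  let ψ : Q →* Q := ((MulAut.conj (π t)).toMonoidHom.comp Q.subtype).codRestrict Q fun z => by
    obtain ⟨w, hw, he⟩ := z.2
    refine ⟨t * w * t⁻¹, core_conj hw htM, ?_⟩
    simp [← he]
  have hψ : ∀ z : Q, (ψ z : GL (Fin 3) F ⧸ C) = π t * z * (π t)⁻¹ := fun z => rfl
  have hfix : MonoidHom.FixedPointFree ψ := by
    intro z hz
    obtain ⟨w, hw, he⟩ := z.2
    have h1 : π (w⁻¹ * (t * w * t⁻¹)) = 1 := by
      have := congrArg Subtype.val hz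
      rw [hψ, ← he] at this
      simp only [map_mul, map_inv, this, inv_mul_cancel]
    rw [hπ, QuotientGroup.mk'_apply, QuotientGroup.eq_one_iff] at h1
    obtain ⟨ζ, hζdef⟩ : ∃ ζ, ζ = w⁻¹ * (t * w * t⁻¹) := ⟨_, rfl⟩
    rw [← hζdef] at h1
    have hζ2 : ζ ^ 2 = 1 := by
      have hζc : t * ζ * t⁻¹ = ζ := by
        rw [Subgroup.mem_center_iff.1 h1 t, mul_inv_cancel_right]
      rw [sq]
      calc ζ * ζ = ζ * (t * ζ * t⁻¹) := by rw [hζc]
        _ = w⁻¹ * (t * w * t⁻¹) * (t * (w⁻¹ * (t * w * t⁻¹)) * t⁻¹) := by rw [← hζdef]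
        _ = w⁻¹ * (t * t) * w * (t * t)⁻¹ := by group
        _ = 1 := by rw [htt]; group
    have hζ : ζ = 1 := eq_one_of_pow_four
      (hζdef ▸ mul_mem (inv_mem hw) (core_conj hw htM))
      (by rw [show (4 : ℕ) = 2 * 2 by norm_num, pow_mul, hζ2, one_pow])
    obtain ⟨μ, -, hμ⟩ := key w hw (by
      rw [hζ, eq_comm, inv_mul_eq_one] at hζdef
      conv_lhs => rw [hζdef]
      group)
    apply Subtype.ext
    rw [OneMemClass.coe_one, ← he, hπ, QuotientGroup.mk'_apply, QuotientGroup.eq_one_iff,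
      Subgroup.mem_center_iff]
    intro g
    apply gl_ext
    intro v
    rw [ap_mul, ap_mul, hμ, hμ, ap_smul]
  have hinv : Function.Involutive ψ := fun z => by
    apply Subtype.ext
    rw [hψ, hψ]
    calc π t * (π t * (z : GL (Fin 3) F ⧸ C) * (π t)⁻¹) * (π t)⁻¹
        = π (t * t) * z * (π (t * t))⁻¹ := by rw [map_mul]; group
      _ = z := by rw [htt, map_one]; group
  have h := congrArg Subtype.val (hfix.commute_all_of_involutive hinv
    ⟨π x, Subgroup.mem_map_of_mem π hx⟩ ⟨π y, Subgroup.mem_map_of_mem π hy⟩).eq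
  have hc : x * y * x⁻¹ * y⁻¹ ∈ C := by
    rw [← QuotientGroup.eq_one_iff (N := C)]
    show π (x * y * x⁻¹ * y⁻¹) = 1
    simp only [Subgroup.coe_mul] at h
    simp only [map_mul, map_inv, h]
    group
  exact key _ (mul_mem (mul_mem (mul_mem hx hy) (inv_mem hx)) (inv_mem hy))
    (Subgroup.mem_center_iff.1 hc t).symm

include hMS hM hΛ hH in
/-- Core elements send the eigenvectors of a frame to rational lines. -/
lemma frame_image {y : GL (Fin 3) F} (hy : y ∈ core M) {a b n : Fin 3 → F₀}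
    (ha : f₀ hrat a a = 0) (hb : f₀ hrat b b = 0) (hba : f₀ hrat b a = 1)
    (hna : f₀ hrat n a = 0) (hnb : f₀ hrat n b = 0) (hn : f₀ hrat n n = 1) :
    (∃ (c : F) (m : Fin 3 → F₀), ap y (em n) = c • em m) ∧
      ∀ μ : F₀, μ * μ + μ + 1 = 0 →
        ∃ (c : F) (m : Fin 3 → F₀), ap y (em (a + μ • b)) = c • em m := by
  have h2 := two_eq_zero hK
  have hMI : M ≤ isom f := hMS.trans inf_le_left
  have haa : f (em a) (em a) = 0 := congrArg Subtype.val ha
  have hbb : f (em b) (em b) = 0 := congrArg Subtype.val hb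
  have hba' : f (em b) (em a) = 1 := congrArg Subtype.val hba
  have hab' : f (em a) (em b) = 1 := by
    rw [hf.skew, hba', map_one]; linear_combination -h2
  have hna' : f (em n) (em a) = 0 := congrArg Subtype.val hna
  have hnb' : f (em n) (em b) = 0 := congrArg Subtype.val hnb
  have hnn' : f (em n) (em n) = 1 := congrArg Subtype.val hn
  have ha0 : a ≠ 0 := fun e => by
    rw [e, em_zero, Unitary.zero_right hf] at hba'; exact zero_ne_one hba'
  have hw : f₀ hrat (b - a) (b - a) = 0 := by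
    apply Subtype.ext
    show f (em (b - a)) (em (b - a)) = 0
    rw [em_sub, Unitary.sub_left hf, Unitary.sub_right hf, Unitary.sub_right hf, haa, hbb, hab',
      hba']
    linear_combination -h2
  have hw' : f (em (b - a)) (em (b - a)) = 0 := congrArg Subtype.val hw
  set g := tr' hf (em (b - a)) 1
  have hgM : g ∈ M := hM _ hw 1 (one_mem F₀) (map_one σ)
  have hga : ap g (em a) = em b := by
    rw [ap_tr' hf hw', em_sub, Unitary.sub_right hf, haa, hab', sub_zero, one_mul, one_smul,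
      add_sub_cancel]
  set e₀ := tr' hf (em a) 1 * tr' hf (em b) 1 with he₀
  have he₀O : e₀ ∈ core M := by
    have h := inv_mem (conj_mul_mem hf hrat hσ hω hω' hK hMS hM hΛ ha0 ha hgM)
    have inv : ∀ v, f v v = 0 → (tr' hf v 1)⁻¹ = tr' hf v 1 := fun v hv =>
      inv_eq_of_mul_eq_one_right (by
        rw [tr'_add hf hv, one_add_one_eq_two, h2, tr'_zero hf hv])
    rwa [conj_tr' hf (hMI hgM) haa, hga, _root_.mul_inv_rev, inv _ haa, inv _ hbb] at h
  have hea : ap e₀ (em a) = em b := by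
    simp only [he₀, ap_mul, ap_tr' hf hbb, ap_tr' hf haa, hab', haa, hba', hf.add_left,
      hf.smul_left, one_mul, mul_zero, zero_add, add_zero]
    match_scalars <;> first | ring1 | linear_combination h2
  have heb : ap e₀ (em b) = em a + em b := by
    simp only [he₀, ap_mul, ap_tr' hf hbb, ap_tr' hf haa, hbb, hba', mul_zero, zero_smul,
      add_zero, one_mul, one_smul]
    abel
  have hen : ap e₀ (em n) = em n := by
    simp [he₀, ap_mul, ap_tr' hf hbb, ap_tr' hf haa, hnb', hna']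
  obtain ⟨ζ, hζ, hcz⟩ := commutator_scalar hf hrat hσ hω hω' hK hMS hM hH hΛ hy he₀O
  have hye : ∀ v, ap y (ap e₀ v) = ζ • ap e₀ (ap y v) := fun v => by
    rw [← ap_mul, show y * e₀ = (y * e₀ * y⁻¹ * e₀⁻¹) * (e₀ * y) by group, ap_mul, hcz, ap_mul]
  have hdec := fun z => decomp hf haa hbb hba' hna' hnb' (by rw [hnn']; exact one_ne_zero) (x := z)
  -- eigenvectors are on rational lines
  have eigen : ∀ v μ, μ ∈ F₀ → ap e₀ v = μ • v → ∃ (c : F) (m : Fin 3 → F₀), v = c • em m := by
    intro v μ hμ hv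
    obtain ⟨A, hA⟩ : ∃ A, A = -f v (em b) := ⟨_, rfl⟩
    obtain ⟨B, hB⟩ : ∃ B, B = f v (em a) := ⟨_, rfl⟩
    obtain ⟨C, hC⟩ : ∃ C, C = f v (em n) / f (em n) (em n) := ⟨_, rfl⟩
    have hv' := hdec v
    rw [← hA, ← hB, ← hC] at hv'
    rw [hv', ap_add, ap_add, ap_smul, ap_smul, ap_smul, hea, heb, hen] at hv
    have e1 := congrArg (fun z => f z (em b)) hv
    have e2 := congrArg (fun z => f z (em a)) hv
    have e3 := congrArg (fun z => f z (em n)) hv
    simp only [hf.add_left, hf.smul_left, haa, hbb, hab', hba', hna', hnb', hnn',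
      (Unitary.eq_zero_comm hf).mp hna', (Unitary.eq_zero_comm hf).mp hnb'] at e1 e2 e3
    -- `e1 : B = μ A`, `e2 : A + B = μ B`, `e3 : C = μ C`
    by_cases h1 : μ = 1
    · subst h1
      have hA0 : A = 0 := by linear_combination e2
      have hB0 : B = 0 := by linear_combination e1 + hA0
      exact ⟨C, n, by rw [hv', hA0, hB0, zero_smul, zero_smul, zero_add, zero_add]⟩
    · have hC0 : C = 0 := by
        have : (μ - 1) * C = 0 := by linear_combination -e3
        exact (mul_eq_zero.1 this).resolve_left (sub_ne_zero.2 h1)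
      refine ⟨A, a + (⟨μ, hμ⟩ : F₀) • b, ?_⟩
      rw [hv', hC0, zero_smul, add_zero, em_add, em_smul, smul_add, smul_smul,
        show B = A * μ by linear_combination e1]
  have img : ∀ (p : Fin 3 → F₀) (μ : F), μ ∈ F₀ → μ ≠ 0 → ap e₀ (em p) = μ • em p →
      ∃ (c : F) (m : Fin 3 → F₀), ap y (em p) = c • em m := by
    intro p μ hμ hμ0 hp
    have h := hye (em p)
    rw [hp, ap_smul] at h
    have hζ0 : ζ ≠ 0 := fun e => by
      have := hcz (em a)
      rw [e, zero_smul] at this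
      exact ap_ne_zero _ (em_ne_zero ha0) this
    refine eigen _ (ζ⁻¹ * μ) (mul_mem (inv_mem hζ) hμ) ?_
    rw [← smul_smul, h, smul_smul, inv_mul_cancel₀ hζ0, one_smul]
  refine ⟨img n 1 (one_mem F₀) one_ne_zero (by rw [hen, one_smul]), fun μ hμ => ?_⟩
  have hμ' : (μ : F) * μ + μ + 1 = 0 := congrArg Subtype.val hμ
  refine img _ μ μ.2 (fun e => by rw [e] at hμ'; simp at hμ') ?_
  rw [em_add, em_smul, ap_add, ap_smul, hea, heb]
  match_scalars <;> first | ring1 | linear_combination hμ' - (μ : F) * μ * h2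

include hMS hM hΛ hH in
/-- The core lies in the subfield group. -/
lemma core_le_subfield {y : GL (Fin 3) F} (hy : y ∈ core M) :
    y ∈ Cfsg.Geo.subfieldSubgroup F₀ (1 : GL (Fin 3) F) := by
  have h2 := two_eq_zero hK
  have hf₀ := isSkew₀ hf hrat hσ hω hω'
  have h20 : (2 : F₀) = 0 := Subtype.ext (by
    simpa [show ((2 : F₀) : F) = 2 from map_ofNat F₀.subtype 2] using h2)
  have hyI : y ∈ isom f := (hMS (core_le hy)).1
  obtain ⟨a, b, -, ha, hb, hba⟩ := exists_pair hf hrat hσ hω hω'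
  obtain ⟨n, hna, hnb, hnn, -⟩ := exists_frame hf₀ ha hb hba
  have hn := self_eq_one hf hrat hσ hω hω' hK hnn
  have hab : f₀ hrat a b = 1 := by
    rw [hf₀.skew, hba, map_one]; linear_combination -h20
  have han := (Unitary.eq_zero_comm hf₀).mp hna
  have hbn := (Unitary.eq_zero_comm hf₀).mp hnb
  obtain ⟨hωσ, hω2⟩ := omega_eqs hf hσ hω hω' hK
  let w : F₀ := ⟨ω, hω⟩
  have hww : w * w + w + 1 = 0 := Subtype.ext hω2
  have hσw : σ₀ hf hσ w = w + 1 := Subtype.ext hωσ
  obtain ⟨⟨c₁, m₁, h₁⟩, hp⟩ :=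
    frame_image hf hrat hσ hω hω' hK hMS hM hH hΛ hy ha hb hba hna hnb hn
  obtain ⟨c₂, m₂, h₂⟩ := hp w hww
  obtain ⟨c₃, m₃, h₃⟩ := hp (w + 1) (by linear_combination hww + (w + 1) * h20)
  -- a second frame for `n + b`
  obtain ⟨⟨c, m, hm⟩, -⟩ := frame_image hf hrat hσ hω hω' hK hMS hM hH hΛ hy
    (a := b) (b := a + w • b + n) (n := n + b) hb
    (by
      simp only [hf₀.add_left, Unitary.add_right hf₀, hf₀.smul_left, Unitary.smul_right hf₀,
        ha, hb, hab, hba, hna, hnb, han, hbn, hn, hσw]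
      linear_combination (w + 1) * h20)
    (by simp [hf₀.add_left, hf₀.smul_left, hab, hb, hnb])
    (by simp [hf₀.add_left, hb, hnb])
    (by
      simp only [hf₀.add_left, Unitary.add_right hf₀, Unitary.smul_right hf₀, hnb, hna, hn, hb,
        hbn, hba]
      linear_combination h20)
    (by simp [hf₀.add_left, Unitary.add_right hf₀, hn, hnb, hbn, hb])
  have hNN : f₀ hrat (n + b) (n + b) = 1 := by
    simp [hf₀.add_left, Unitary.add_right hf₀, hn, hnb, hbn, hb]
  have hm0 := (mem_isom_iff.1 hyI) (em (n + b)) (em (n + b))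
  rw [hm, hf.smul_left, Unitary.smul_right hf, ← mul_assoc,
    show f (em (n + b)) (em (n + b)) = 1 from congrArg Subtype.val hNN] at hm0
  have hc0 : c ≠ 0 := fun e => by rw [e] at hm0; simp at hm0
  have hmm : f (em m) (em m) = 1 := by
    have h0 : f₀ hrat m m ≠ 0 := fun e => by
      rw [show f (em m) (em m) = 0 from congrArg Subtype.val e, mul_zero] at hm0
      exact zero_ne_one hm0
    exact congrArg Subtype.val (self_eq_one hf hrat hσ hω hω' hK h0)
  rw [hmm, mul_one] at hm0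
  have coeff : ∀ (p : Fin 3 → F₀) (k : F) (l : Fin 3 → F₀), ap y (em p) = k • em l →
      f₀ hrat p (n + b) = 1 → RatV F₀ (c⁻¹ • ap y (em p)) := by
    intro p k l hp hpN
    have h := (mem_isom_iff.1 hyI) (em p) (em (n + b))
    rw [hp, hm, hf.smul_left, Unitary.smul_right hf,
      show f (em p) (em (n + b)) = 1 from congrArg Subtype.val hpN] at h
    rw [hp, smul_smul]
    refine (ratV_em l).smul ?_
    rw [show c⁻¹ * k = (f (em l) (em m))⁻¹ by
      refine eq_inv_of_mul_eq_one_left ?_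
      rw [inv_eq_of_mul_eq_one_right hm0]
      linear_combination h]
    exact inv_mem (hrat _ _ (ratV_em l) (ratV_em m))
  have r₁ := coeff n c₁ m₁ h₁ (by simp [Unitary.add_right hf₀, hn, hnb])
  have r₂ := coeff _ c₂ m₂ h₂ (by
    simp [hf₀.add_left, hf₀.smul_left, Unitary.add_right hf₀, hab, hb, han, hbn])
  have r₃ := coeff _ c₃ m₃ h₃ (by
    simp [hf₀.add_left, hf₀.smul_left, Unitary.add_right hf₀, hab, hb, han, hbn])
  have rb : RatV F₀ (c⁻¹ • ap y (em b)) := by
    have := r₂.add r₃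
    rw [← smul_add, ← ap_add, ← em_add] at this
    convert this using 5
    match_scalars
    all_goals (first | linear_combination -h20 | linear_combination -w * h20)
  have ra : RatV F₀ (c⁻¹ • ap y (em a)) := by
    have := r₂.sub (rb.smul w.2)
    rw [em_add, em_smul, ap_add, ap_smul, smul_add, smul_comm (w : F)] at this
    simpa using this
  refine Subfld.scalar_mul_mem (c := Units.mk0 c hc0) fun z hz k => ?_
  have hz' : RatV F₀ z := fun j => by simpa using hz j
  obtain ⟨z₀, rfl⟩ : ∃ z₀ : Fin 3 → F₀, em z₀ = z := ⟨fun j => ⟨z j, hz' j⟩, rfl⟩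
  have h := (((ra.smul (-f₀ hrat z₀ b).2).add (rb.smul (f₀ hrat z₀ a).2)).add
    (r₁.smul (f₀ hrat z₀ n / f₀ hrat n n).2)) k
  conv at h => rw [smul_comm _ c⁻¹, smul_comm _ c⁻¹, smul_comm _ c⁻¹, ← smul_add, ← smul_add,
    ← ap_smul, ← ap_smul, ← ap_smul, ← ap_add, ← ap_add, ← em_smul, ← em_smul, ← em_smul,
    ← em_add, ← em_add, ← decomp hf₀ ha hb hba hna hnb hnn z₀]
  simpa using h

include hMS hM hΛ hH in
/-- Images of rational centres are rational. -/
theorem line_of_two {g : GL (Fin 3) F} (hg : g ∈ M) {a : Fin 3 → F₀} (ha : f₀ hrat a a = 0) :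
    ∃ (c : F) (x : Fin 3 → F₀), ap g (em a) = c • em x := by
  have h2 := two_eq_zero hK
  by_cases ha0 : a = 0
  · exact ⟨0, 0, by rw [ha0, em_zero, ap_zero, zero_smul]⟩
  have haa : f (em a) (em a) = 0 := congrArg Subtype.val ha
  have hMI : M ≤ isom f := hMS.trans inf_le_left
  have hv : f (ap g (em a)) (ap g (em a)) = 0 := Unitary.isotropic_ap hf (hMI hg) haa
  set v := ap g (em a)
  set T := tr' hf v 1
  set ta := tr' hf (em a) 1
  have hT : T ∈ Cfsg.Geo.subfieldSubgroup F₀ (1 : GL (Fin 3) F) := by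
    have ho := core_le_subfield hf hrat hσ hω hω' hK hMS hM hH hΛ
      (conj_mul_mem hf hrat hσ hω hω' hK hMS hM hΛ ha0 ha hg)
    rw [conj_tr' hf (hMI hg) haa] at ho
    have hta : ta ∈ Cfsg.Geo.subfieldSubgroup F₀ (1 : GL (Fin 3) F) :=
      Subfld.mem_of_rat fun z hz i => by
        have hz' : RatV F₀ z := fun j => by simpa using hz j
        simpa [ta, ap_tr' hf haa] using
          add_mem (hz' i) (mul_mem (hrat _ _ hz' (ratV_em a)) (ratV_em a i))
    rwa [Subgroup.mul_mem_cancel_right _ hta] at ho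
  -- an element of the subfield group squaring to one is rational
  obtain ⟨B, hB, s, hs, hTe⟩ : ∃ B : GL (Fin 3) F,
      (∀ z, RatV F₀ z → RatV F₀ (ap B z)) ∧ ∃ s : F, s ≠ 0 ∧ ∀ z, ap T z = s • ap B z := by
    obtain ⟨d, hd, hdT⟩ := hT
    rw [SetLike.mem_coe, Subgroup.mem_sup_of_normal_right] at hd
    obtain ⟨b, ⟨B, rfl⟩, s, hs, rfl⟩ := hd
    obtain ⟨c, hc⟩ := (Cfsg.Geo.mem_scalars_iff s).mp hs
    refine ⟨Matrix.GeneralLinearGroup.map (F₀.subtype : F₀ →+* F) B, fun z hz i => ?_,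
      c, c.ne_zero, fun z => ?_⟩
    · rw [ap_def]
      change (∑ j, F₀.subtype ((B : Matrix (Fin 3) (Fin 3) F₀) i j) * z j) ∈ F₀
      exact sum_mem fun j _ => mul_mem ((B : Matrix (Fin 3) (Fin 3) F₀) i j).2 (hz j)
    · rw [← hdT]
      change ap (1 * (_ * s) * 1⁻¹) z = _
      rw [inv_one, one_mul, mul_one, ap_mul, ap_def s, hc, Matrix.smul_mulVec,
        Matrix.one_mulVec, ap_smul]
  have hsF : s ∈ F₀ := by
    have hsq : s ^ 2 ∈ F₀ := by
      obtain ⟨x₀, hx₀⟩ : ∃ x₀, x₀ = em (F₀ := F₀) (Pi.single (0 : Fin 3) 1) := ⟨_, rfl⟩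
      have h1 : ap T (ap T x₀) = x₀ := by
        rw [← ap_mul, tr'_add hf hv, one_add_one_eq_two, h2, tr'_zero hf hv, ap_one]
      rw [hTe, hTe, ap_smul, smul_smul, ← sq] at h1
      have h3 := hB _ (hB _ (hx₀ ▸ ratV_em _))
      rw [← inv_inv (s ^ 2)]
      refine inv_mem ?_
      have h4 : ap B (ap B x₀) = (s ^ 2)⁻¹ • x₀ := by
        conv_rhs => rw [← h1, smul_smul, inv_mul_cancel₀ (pow_ne_zero _ hs), one_smul]
      have h5 := h3 0
      rw [h4, hx₀, SSubfld.em_single] at h5
      simpa using h5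
    obtain ⟨m, -, hm⟩ := CfsgLib.Derangements.PSL2.exists_degree F₀
    exact CfsgLib.Derangements.PSL2.mem_of_sq_mem F₀ hm (Or.inr h2) hsq
  obtain ⟨z, hz⟩ : ∃ z : Fin 3 → F₀, f (em z) v ≠ 0 := by
    by_contra h
    push Not at h
    exact ap_ne_zero g (em_ne_zero ha0) (eq_zero_of_rat hf hrat hσ hω hω' fun x _ => h x)
  have hr : RatV F₀ (f (em z) v • v) := by
    have := ((hB _ (ratV_em z)).smul hsF).sub (ratV_em z)
    rwa [← hTe, ap_tr' hf hv, add_sub_cancel_left, one_mul] at this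
  exact ⟨(f (em z) v)⁻¹, fun i => ⟨_, hr i⟩, funext fun i => by
    show v i = (f (em z) v)⁻¹ * (f (em z) v * v i)
    rw [inv_mul_cancel_left₀ hz]⟩

end CfsgLib.Geometric.SUThree
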